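import Mathlib
import Cfsg.Prelude.Def_ClassicalGeometry
import Cfsg.Agent.Helper13.SpWeyl
import Cfsg.Agent.Helper13.SpBorel
import Cfsg.Agent.Helper13.SympGen

/-!
# Definitions for the BN-pair of `Sp_2m(F)` (statement S2545)

Index set `Fin m ⊕ Fin m`, with `tauP` (swap of the two halves) and `sgnJ` from `Helper13.SpWeyl`.
The rank order `rk` puts `inl 0 < inl 1 < … < inl (m-1) < inr (m-1) < … < inr 0`; `tauP` reverses
it.  `IsUp` = upper triangular for this order.
-/

set_option autoImplicit false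

namespace Cfsg.Agent.Helper95.SpBN

open Matrix Cfsg.Agent.Helper13

section defs
variable {F : Type*} [Field F] {m : ℕ}

/-- rank order on the index set: `inl i ↦ i`, `inr i ↦ 2m-1-i`. -/
def rk : Fin m ⊕ Fin m → ℕ := Sum.elim (fun i => (i : ℕ)) (fun i => 2 * m - 1 - (i : ℕ))

theorem rk_inl (i : Fin m) : rk (Sum.inl i : Fin m ⊕ Fin m) = (i : ℕ) := rfl

theorem rk_inr (i : Fin m) : rk (Sum.inr i : Fin m ⊕ Fin m) = 2 * m - 1 - (i : ℕ) := rfl

theorem rk_lt (a : Fin m ⊕ Fin m) : rk a < 2 * m := by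
  rcases a with i | i
  · have := i.2; rw [rk_inl]; omega
  · have := i.2; rw [rk_inr]; omega

theorem rk_tauP (a : Fin m ⊕ Fin m) : rk (tauP m a) = 2 * m - 1 - rk a := by
  rcases a with i | i
  · rw [tauP_inl, rk_inl, rk_inr]
  · have := i.2; rw [tauP_inr, rk_inl, rk_inr]; omega

theorem rk_injective : Function.Injective (rk : Fin m ⊕ Fin m → ℕ) := by
  intro a b h
  rcases a with i | i <;> rcases b with j | j
  · rw [rk_inl, rk_inl] at h; rw [Fin.ext h]
  · have := i.2; have := j.2; rw [rk_inl, rk_inr] at h; omega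
  · have := i.2; have := j.2; rw [rk_inl, rk_inr] at h; omega
  · have := i.2; have := j.2; rw [rk_inr, rk_inr] at h
    have : (i : ℕ) = j := by omega
    rw [Fin.ext this]

theorem rk_tauP_lt {a b : Fin m ⊕ Fin m} (h : rk a < rk b) : rk (tauP m b) < rk (tauP m a) := by
  have h1 := rk_lt b
  rw [rk_tauP, rk_tauP]; omega

/-- upper triangular with respect to `rk`. -/
def IsUp (M : Matrix (Fin m ⊕ Fin m) (Fin m ⊕ Fin m) F) : Prop :=
  ∀ a b, rk b < rk a → M a b = 0

/-- the Borel subgroup of `Sp_2m(F)` (stabiliser of the standard isotropic flag). -/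
def spB (m : ℕ) (F : Type*) [Field F] : Subgroup (symplecticGroup (Fin m) F) :=
  ⨅ k : Fin m, Cfsg.stabilizing (Cfsg.spToMat m F)
    {v : Fin m ⊕ Fin m → F | (∀ i : Fin m, (k : ℕ) < (i : ℕ) → v (Sum.inl i) = 0) ∧
      ∀ i : Fin m, v (Sum.inr i) = 0}

/-- the monomial subgroup of `Sp_2m(F)`. -/
def spN (m : ℕ) (F : Type*) [Field F] : Subgroup (symplecticGroup (Fin m) F) :=
  Subgroup.closure {g | ∃ π : Equiv.Perm (Fin m ⊕ Fin m), Pat g.1 π}

/-- short root matrix `1 + t (E_ab - sgn a sgn b E_{τb,τa})`. -/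
def xsMat (a b : Fin m ⊕ Fin m) (t : F) : Matrix (Fin m ⊕ Fin m) (Fin m ⊕ Fin m) F :=
  1 + t • (Matrix.single a b (1 : F) -
    (sgnJ F m a * sgnJ F m b) • Matrix.single (tauP m b) (tauP m a) (1 : F))

/-- long root matrix `1 + t E_{a,τa}`. -/
def xlMat (a : Fin m ⊕ Fin m) (t : F) : Matrix (Fin m ⊕ Fin m) (Fin m ⊕ Fin m) F :=
  1 + t • Matrix.single a (tauP m a) (1 : F)

/-- root matrix for the ordered pair `(a, b)`, `a ≠ b`. -/
def xgMat (a b : Fin m ⊕ Fin m) (t : F) : Matrix (Fin m ⊕ Fin m) (Fin m ⊕ Fin m) F :=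
  if b = tauP m a then xlMat a t else xsMat a b t

/-- first index of the `j`-th simple root. -/
def ra (j : Fin m) : Fin m ⊕ Fin m := Sum.inl j

/-- second index of the `j`-th simple root: `inl (j+1)` for `j+1 < m`, `inr j` for `j = m-1`. -/
def rb (j : Fin m) : Fin m ⊕ Fin m :=
  if h : (j : ℕ) + 1 < m then Sum.inl ⟨(j : ℕ) + 1, h⟩ else Sum.inr j

/-- the `j`-th simple root matrix. -/
def xaMat (j : Fin m) (t : F) : Matrix (Fin m ⊕ Fin m) (Fin m ⊕ Fin m) F :=
  xgMat (ra j) (rb j) t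

/-- the permutation of the `j`-th simple reflection. -/
def sigP (j : Fin m) : Equiv.Perm (Fin m ⊕ Fin m) :=
  if (j : ℕ) + 1 < m then
    Equiv.swap (ra j) (rb j) * Equiv.swap (tauP m (ra j)) (tauP m (rb j))
  else Equiv.swap (ra j) (rb j)

/-- coefficients of the `j`-th simple reflection matrix: `1`, except `-1` at column `inr j` in the
long case `j = m - 1`. -/
def sigD (F : Type*) [Field F] (j : Fin m) : Fin m ⊕ Fin m → F :=
  fun b => if (j : ℕ) + 1 < m then 1 else if b = Sum.inr j then -1 else 1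

/-- the `j`-th simple reflection matrix. -/
def sigMat (F : Type*) [Field F] (j : Fin m) : Matrix (Fin m ⊕ Fin m) (Fin m ⊕ Fin m) F :=
  monoMat (sigP j) (sigD F j)

end defs

section inv
variable {F : Type*} [Field F] {m : ℕ}

/-- entries of the inverse of a symplectic matrix. -/
theorem sp_inv_apply (g : symplecticGroup (Fin m) F) (a b : Fin m ⊕ Fin m) :
    (g⁻¹).1 a b = sgnJ F m a * sgnJ F m b * g.1 (tauP m b) (tauP m a) := by
  rw [SymplecticGroup.coe_inv, Matrix.mul_apply]
  rw [Finset.sum_eq_single (tauP m b)]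
  · rw [Matrix.mul_apply, Finset.sum_eq_single (tauP m a)]
    · rw [Matrix.neg_apply, J_apply_eq, if_pos rfl, Matrix.transpose_apply, J_apply_eq,
        if_pos (tauP_tauP b).symm, sgnJ_tauP]
      ring
    · intro k _ hk
      rw [Matrix.neg_apply, J_apply_eq, if_neg hk, neg_zero, zero_mul]
    · intro h; exact absurd (Finset.mem_univ _) h
  · intro k _ hk
    have : J (Fin m) F k b = 0 := by
      rw [J_apply_eq, if_neg]
      intro h
      apply hk
      rw [h, tauP_tauP]
    rw [this, mul_zero]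
  · intro h; exact absurd (Finset.mem_univ _) h

/-- the inverse of a monomial symplectic matrix is monomial with the inverse pattern. -/
theorem pat_inv (g : symplecticGroup (Fin m) F) (π : Equiv.Perm (Fin m ⊕ Fin m))
    (h : Pat g.1 π) : Pat (g⁻¹).1 π⁻¹ := by
  intro a b hab
  rw [sp_inv_apply] at hab
  have h1 : g.1 (tauP m b) (tauP m a) ≠ 0 := right_ne_zero_of_mul hab
  have h2 := h _ _ h1
  rw [(pat_sp g.1 g.2 π h).2.1 a] at h2
  have h3 : b = π a := (tauP m).injective h2
  rw [h3]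
  simp

/-- the inverse of an upper triangular symplectic matrix is upper triangular. -/
theorem isUp_inv (g : symplecticGroup (Fin m) F) (h : IsUp g.1) : IsUp (g⁻¹).1 := by
  intro a b hab
  rw [sp_inv_apply, h _ _ (rk_tauP_lt hab), mul_zero]

theorem isUp_mul (M N : Matrix (Fin m ⊕ Fin m) (Fin m ⊕ Fin m) F) (hM : IsUp M) (hN : IsUp N) :
    IsUp (M * N) := by
  intro a b hab
  rw [Matrix.mul_apply]
  apply Finset.sum_eq_zero
  intro k _
  by_cases hk : rk k < rk a
  · rw [hM a k hk, zero_mul]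
  · rw [hN k b (by omega), mul_zero]

theorem isUp_one : IsUp (1 : Matrix (Fin m ⊕ Fin m) (Fin m ⊕ Fin m) F) := by
  intro a b hab
  rw [Matrix.one_apply_ne]
  rintro rfl
  exact lt_irrefl _ hab

theorem pat_J : Pat (J (Fin m) F) (tauP m) := by
  intro a b hab
  rw [J_apply_eq] at hab
  by_contra hne
  apply hab
  rw [if_neg]
  intro h
  apply hne
  rw [h, tauP_tauP]

end inv

end Cfsg.Agent.Helper95.SpBN
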