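import Mathlib
import Cfsg.Prelude.Def_Classical

/-!
# Definitions for the BN-pair of the special unitary group in a Witt basis (statement S2546)

`τ : F →+* F` is a ring endomorphism (an involution in all applications).  The form is
`(u, v) ↦ ∑ i, u i * τ (v (Fin.rev i))` (antidiagonal Gram matrix).  `uinv τ M` is the matrix
`a b ↦ τ (M (rev b) (rev a))`; `M` is an isometry iff `uinv τ M * M = 1`.
-/

set_option autoImplicit false

namespace Cfsg.Agent.Helper95.UBN

open Matrix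

section defs
variable {F : Type*} [Field F] {n : ℕ}

/-- the adjoint of `M` with respect to the antidiagonal `τ`-sesquilinear form. -/
def uinv (τ : F →+* F) (M : Matrix (Fin n) (Fin n) F) : Matrix (Fin n) (Fin n) F :=
  fun a b => τ (M (Fin.rev b) (Fin.rev a))

theorem uinv_apply (τ : F →+* F) (M : Matrix (Fin n) (Fin n) F) (a b : Fin n) :
    uinv τ M a b = τ (M (Fin.rev b) (Fin.rev a)) := rfl

/-- `M` preserves the antidiagonal `τ`-sesquilinear form. -/
def IsU (τ : F →+* F) (M : Matrix (Fin n) (Fin n) F) : Prop := uinv τ M * M = 1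

theorem isU_iff (τ : F →+* F) (M : Matrix (Fin n) (Fin n) F) :
    IsU τ M ↔ ∀ a b, ∑ k, τ (M (Fin.rev k) (Fin.rev a)) * M k b = if a = b then 1 else 0 := by
  unfold IsU
  rw [← Matrix.ext_iff]
  constructor
  · intro h a b
    have := h a b
    rw [Matrix.mul_apply, Matrix.one_apply] at this
    exact this
  · intro h a b
    rw [Matrix.mul_apply, Matrix.one_apply]
    exact h a b

theorem uinv_mul (τ : F →+* F) (M N : Matrix (Fin n) (Fin n) F) :
    uinv τ (M * N) = uinv τ N * uinv τ M := by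
  ext a b
  rw [uinv_apply, Matrix.mul_apply, Matrix.mul_apply, map_sum]
  rw [← Equiv.sum_comp Fin.revPerm]
  apply Finset.sum_congr rfl
  intro k _
  rw [uinv_apply, uinv_apply, map_mul, Fin.revPerm_apply, mul_comm]

theorem uinv_one (τ : F →+* F) : uinv τ (1 : Matrix (Fin n) (Fin n) F) = 1 := by
  ext a b
  rw [uinv_apply, Matrix.one_apply, Matrix.one_apply]
  by_cases h : a = b
  · subst h; simp
  · rw [if_neg h, if_neg (fun h' => h (Fin.rev_injective h').symm), map_zero]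

theorem uinv_uinv (τ : F →+* F) (hτ : ∀ x, τ (τ x) = x) (M : Matrix (Fin n) (Fin n) F) :
    uinv τ (uinv τ M) = M := by
  ext a b
  rw [uinv_apply, uinv_apply, hτ, Fin.rev_rev, Fin.rev_rev]

/-- the special unitary group of the antidiagonal form, as a subgroup of `SL_n(F)`. -/
def UG (τ : F →+* F) (n : ℕ) : Subgroup (Matrix.SpecialLinearGroup (Fin n) F) where
  carrier := {g | IsU τ g.1 ∧ IsU τ (g⁻¹).1}
  mul_mem' := by
    rintro g h ⟨hg, hg'⟩ ⟨hh, hh'⟩
    refine ⟨?_, ?_⟩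
    · show uinv τ (g.1 * h.1) * (g.1 * h.1) = 1
      rw [uinv_mul, Matrix.mul_assoc, ← Matrix.mul_assoc (uinv τ g.1), hg, Matrix.one_mul, hh]
    · show uinv τ ((g * h)⁻¹).1 * ((g * h)⁻¹).1 = 1
      rw [_root_.mul_inv_rev]
      show uinv τ ((h⁻¹).1 * (g⁻¹).1) * ((h⁻¹).1 * (g⁻¹).1) = 1
      rw [uinv_mul, Matrix.mul_assoc, ← Matrix.mul_assoc (uinv τ (h⁻¹).1), hh', Matrix.one_mul, hg']
  one_mem' := by
    refine ⟨?_, ?_⟩
    · show uinv τ (1 : Matrix (Fin n) (Fin n) F) * 1 = 1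
      rw [uinv_one, Matrix.one_mul]
    · show uinv τ ((1 : Matrix.SpecialLinearGroup (Fin n) F)⁻¹).1 *
        ((1 : Matrix.SpecialLinearGroup (Fin n) F)⁻¹).1 = 1
      rw [inv_one]
      show uinv τ (1 : Matrix (Fin n) (Fin n) F) * 1 = 1
      rw [uinv_one, Matrix.one_mul]
  inv_mem' := by
    rintro g ⟨hg, hg'⟩
    refine ⟨hg', ?_⟩
    show IsU τ (g⁻¹⁻¹).1
    rw [inv_inv]; exact hg

theorem isU_of_mem {τ : F →+* F} {g : Matrix.SpecialLinearGroup (Fin n) F} (hg : g ∈ UG τ n) :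
    IsU τ g.1 := hg.1

/-- entries of the inverse of a unitary matrix. -/
theorem inv_eq_uinv {τ : F →+* F} {g : Matrix.SpecialLinearGroup (Fin n) F} (hg : g ∈ UG τ n) :
    (g⁻¹).1 = uinv τ g.1 := by
  have h1 : uinv τ g.1 * g.1 = 1 := hg.1
  have h2 : g.1 * (g⁻¹).1 = 1 := by
    have : (g * g⁻¹).1 = 1 := by rw [mul_inv_cancel]; rfl
    exact this
  calc (g⁻¹).1 = (uinv τ g.1 * g.1) * (g⁻¹).1 := by rw [h1, Matrix.one_mul]
    _ = uinv τ g.1 := by rw [Matrix.mul_assoc, h2, Matrix.mul_one]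

theorem inv_apply {τ : F →+* F} {g : Matrix.SpecialLinearGroup (Fin n) F} (hg : g ∈ UG τ n)
    (a b : Fin n) : (g⁻¹).1 a b = τ (g.1 (Fin.rev b) (Fin.rev a)) := by
  rw [inv_eq_uinv hg, uinv_apply]

theorem mem_UG_iff {τ : F →+* F} (hτ : ∀ x, τ (τ x) = x)
    (g : Matrix.SpecialLinearGroup (Fin n) F) : g ∈ UG τ n ↔ IsU τ g.1 := by
  constructor
  · intro h; exact h.1
  · intro h
    refine ⟨h, ?_⟩
    have h2 : g.1 * (g⁻¹).1 = 1 := by
      have : (g * g⁻¹).1 = 1 := by rw [mul_inv_cancel]; rfl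
      exact this
    have h3 : (g⁻¹).1 = uinv τ g.1 := by
      calc (g⁻¹).1 = (uinv τ g.1 * g.1) * (g⁻¹).1 := by
            have h' : uinv τ g.1 * g.1 = 1 := h
            rw [h', Matrix.one_mul]
        _ = uinv τ g.1 := by rw [Matrix.mul_assoc, h2, Matrix.mul_one]
    show uinv τ (g⁻¹).1 * (g⁻¹).1 = 1
    rw [h3, uinv_uinv τ hτ]
    rw [← h3]; exact h2

/-- monomial pattern: column `b` is supported on row `π b`. -/
def Pat (M : Matrix (Fin n) (Fin n) F) (π : Equiv.Perm (Fin n)) : Prop :=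
  ∀ a b, M a b ≠ 0 → a = π b

/-- upper triangular. -/
def IsUp (M : Matrix (Fin n) (Fin n) F) : Prop := ∀ a b, b < a → M a b = 0

/-- first index of the `j`-th simple root. -/
def ia (j : Fin (n / 2)) : Fin n := ⟨j.1, by have := j.2; omega⟩

/-- second index of the `j`-th simple root: `j+1` if `j+1 < n/2`, else `rev j`. -/
def ib (j : Fin (n / 2)) : Fin n :=
  if h : j.1 + 1 < n / 2 then ⟨j.1 + 1, by omega⟩ else Fin.rev (ia j)

/-- the permutation of the `j`-th simple reflection of the Weyl group (type `B_{n/2}`). -/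
def sigP (j : Fin (n / 2)) : Equiv.Perm (Fin n) :=
  if j.1 + 1 < n / 2 then
    Equiv.swap (ia j) (ib j) * Equiv.swap (Fin.rev (ia j)) (Fin.rev (ib j))
  else Equiv.swap (ia j) (ib j)

/-- shape of the elements of the root group `X_π` (`π` a simple reflection): unipotent, with
off-diagonal support in the inversion set `{(a, b) | a < b ∧ π b < π a}`. -/
def XSh (π : Equiv.Perm (Fin n)) (M : Matrix (Fin n) (Fin n) F) : Prop :=
  (∀ a, M a a = 1) ∧ ∀ a b, a ≠ b → M a b ≠ 0 → a < b ∧ π b < π a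

/-- shape of the elements of the opposite root group `Y_π`. -/
def YSh (π : Equiv.Perm (Fin n)) (M : Matrix (Fin n) (Fin n) F) : Prop :=
  (∀ a, M a a = 1) ∧ ∀ a b, a ≠ b → M a b ≠ 0 → b < a ∧ π a < π b

/-- `M` fixes the basis vectors `e_i` and `e_{rev i}` for `i < k`. -/
def Fixk (k : ℕ) (M : Matrix (Fin n) (Fin n) F) : Prop :=
  ∀ i : Fin n, (i.1 < k ∨ n ≤ i.1 + k) → ∀ a, M a i = if a = i then 1 else 0

/-- the Borel subgroup: upper triangular matrices. -/
def uB (τ : F →+* F) (n : ℕ) : Subgroup ↥(UG τ n) :=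
  Subgroup.closure {g | IsUp g.1.1}

/-- the monomial subgroup. -/
def uN (τ : F →+* F) (n : ℕ) : Subgroup ↥(UG τ n) :=
  Subgroup.closure {g | ∃ π : Equiv.Perm (Fin n), Pat g.1.1 π}

/-- the unipotent radical of the Borel subgroup: upper unitriangular matrices. -/
def uU (τ : F →+* F) (n : ℕ) : Subgroup ↥(UG τ n) :=
  Subgroup.closure {g | IsUp g.1.1 ∧ ∀ a, g.1.1 a a = 1}

/-- the subgroup of `SL_n(F)` generated by the upper triangular and the monomial unitary
matrices. -/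
def uH (τ : F →+* F) (n : ℕ) : Subgroup (Matrix.SpecialLinearGroup (Fin n) F) :=
  Subgroup.closure {h | h ∈ UG τ n ∧ (IsUp h.1 ∨ ∃ π : Equiv.Perm (Fin n), Pat h.1 π)}

end defs

end Cfsg.Agent.Helper95.UBN
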