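import Mathlib
import Cfsg.Prelude.Def_GeometricClasses
import Cfsg.Prelude.Def_Classical
import Cfsg.Agent.Helper58.TSDefs
import Cfsg.Agent.Helper31.OTNF
import Cfsg.Agent.Helper93.OTSPINSQ
import Cfsg.Agent.Helper29.OTINVB
import Cfsg.Agent.Helper33.ODisc
import Cfsg.Agent.Helper98.OPar

set_option autoImplicit false

/-!
# Sub-CALL TSR2 (helper90), piece VMT (helper95): the `(-1)`-eigenspace of an involution of `Ω`.
-/

namespace Cfsg.Agent.Helper95.TSR2

open Module Cfsg Cfsg.Geo Cfsg.Agent.Helper58.TS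
open scoped MatrixGroups

variable {ι : Type} [Fintype ι] [DecidableEq ι] {F : Type*} [Field F] [Fintype F]

omit [Fintype F] in
theorem vmt_sq_aux (δ : F) (s : ℕ) (hs : Even (s + 1)) (h2 : (2 : F) ≠ 0)
    (h : IsSquare ((2 : F)⁻¹ ^ s * (δ * (2 : F)⁻¹))) : IsSquare δ := by
  obtain ⟨t, ht⟩ := hs
  obtain ⟨x, hx⟩ := h
  have hy : ((2 : F)⁻¹) ^ t ≠ 0 := pow_ne_zero _ (inv_ne_zero h2)
  refine ⟨x / (2 : F)⁻¹ ^ t, ?_⟩
  have h5 : (2 : F)⁻¹ ^ s * (δ * (2 : F)⁻¹) = δ * ((2 : F)⁻¹ ^ t * (2 : F)⁻¹ ^ t) := by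
    rw [← pow_add, ← ht, pow_succ]
    ring
  rw [h5] at hx
  rw [div_mul_div_comm, ← hx, mul_div_assoc, div_self (mul_ne_zero hy hy), mul_one]

/-- VMT -/
theorem r2_vm_type (Q : (ι → F) → F) (hQ : IsNondegenerateQuadraticForm Q) (h2 : (2 : F) ≠ 0)
    (hcard : 2 ≤ Fintype.card ι) (g : ↥(Cfsg.isometryGroup F Q)) (hgΩ : g ∈ Cfsg.Omega F Q)
    (hg2 : ((g : GL ι F) : Matrix ι ι F) * ((g : GL ι F) : Matrix ι ι F) = 1) :
    Even (finrank F (LinearMap.ker (Matrix.toLin' ((g : GL ι F) : Matrix ι ι F) + 1))) ∧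
    (IsPlusTypeOn Q (LinearMap.ker (Matrix.toLin' ((g : GL ι F) : Matrix ι ι F) + 1)) ↔
      IsSquare ((-1 : F) ^
        (finrank F (LinearMap.ker (Matrix.toLin' ((g : GL ι F) : Matrix ι ι F) + 1)) / 2))) := by
  classical
  have hQ'nd := Cfsg.Agent.Helper98.op_qf_nondeg Q hQ
  have hh := Cfsg.Agent.Helper43.OT.isHerm_ph (Cfsg.Agent.Helper98.op_qf Q hQ)
  have hnd : ∀ v, (∀ w, Cfsg.Agent.Helper43.OT.ph (Cfsg.Agent.Helper98.op_qf Q hQ) v w = 0) →
      v = 0 := fun v hv => hQ'nd.1 v hv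
  have hpres : Cfsg.Agent.Helper90.HT.HPres
      (Cfsg.Agent.Helper43.OT.ph (Cfsg.Agent.Helper98.op_qf Q hQ))
      (Matrix.toLin' ((g : GL ι F) : Matrix ι ι F)) := by
    apply Cfsg.Agent.Helper43.OT.hpres_ph
    intro v
    show Q (Matrix.toLin' ((g : GL ι F) : Matrix ι ι F) v) = Q v
    rw [Matrix.toLin'_apply]
    have h := g.2 v v
    simpa using h
  have hT2 : (Matrix.toLin' ((g : GL ι F) : Matrix ι ι F)) ^ 2 = 1 := by
    rw [pow_two, Module.End.mul_eq_comp, ← Matrix.toLin'_mul, hg2, Matrix.toLin'_one]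
    rfl
  obtain ⟨-, -, hVm, -⟩ := Cfsg.Agent.Helper29.OT5972.ot_inv_b
    (Cfsg.Agent.Helper43.OT.ph (Cfsg.Agent.Helper98.op_qf Q hQ)) hh hnd h2
    (Matrix.toLin' ((g : GL ι F) : Matrix ι ι F)) hpres hT2
  rcases Nat.eq_zero_or_pos
    (finrank F (LinearMap.ker (Matrix.toLin' ((g : GL ι F) : Matrix ι ι F) + 1))) with h0 | hpos
  · refine ⟨by rw [h0]; exact ⟨0, rfl⟩, ?_⟩
    constructor
    · intro _
      rw [h0]
      exact ⟨1, by simp⟩
    · intro _
      refine ⟨⊥, bot_le, fun w hw => ?_, by rw [h0]; simp⟩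
      rw [(Submodule.mem_bot F).mp hw]
      exact QuadraticMap.map_zero (Cfsg.Agent.Helper98.op_qf Q hQ)
  · obtain ⟨s, hs⟩ : ∃ s,
        finrank F (LinearMap.ker (Matrix.toLin' ((g : GL ι F) : Matrix ι ι F) + 1)) = s + 1 :=
      ⟨finrank F (LinearMap.ker (Matrix.toLin' ((g : GL ι F) : Matrix ι ι F) + 1)) - 1, by omega⟩
    obtain ⟨b, δ, hδ0, hli, hspan, hbo, hb1, hbl⟩ := Cfsg.Agent.Helper31.OT5972.ot_nf
      (Cfsg.Agent.Helper98.op_qf Q hQ) h2 _ hVm s hs
    have hphs : ∀ j, Cfsg.Agent.Helper43.OT.ph (Cfsg.Agent.Helper98.op_qf Q hQ) (b j) (b j) =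
        2 * Q (b j) := fun j => Cfsg.Agent.Helper43.OT.ph_self _ _
    have hQl : Q (b (Fin.last s)) = δ * (2 : F)⁻¹ := by
      have h5 := hphs (Fin.last s)
      rw [hbl] at h5
      rw [h5]
      field_simp
    have hQj : ∀ j, j ≠ Fin.last s → Q (b j) = (2 : F)⁻¹ := by
      intro j hj
      have h5 := hphs j
      rw [hb1 j hj] at h5
      exact eq_inv_of_mul_eq_one_right h5.symm
    have hQne : ∀ j, Q (b j) ≠ 0 := by
      intro j
      by_cases hj : j = Fin.last s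
      · rw [hj, hQl]
        exact mul_ne_zero hδ0 (inv_ne_zero h2)
      · rw [hQj j hj]
        exact inv_ne_zero h2
    obtain ⟨hev, hsq⟩ := Cfsg.Agent.Helper93.OT5972.ot_spin_sq (Cfsg.Agent.Helper98.op_qf Q hQ) h2
      hQ'nd hcard g hgΩ hg2 (s + 1) b hQne hbo hspan
    have hprod : ∏ j, Q (b j) = (2 : F)⁻¹ ^ s * (δ * (2 : F)⁻¹) := by
      rw [Fin.prod_univ_castSucc]
      congr 1
      rw [Finset.prod_eq_pow_card (b := (2 : F)⁻¹)]
      · simp
      · intro j _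
        exact hQj _ (Fin.castSucc_lt_last j).ne
    have hδsq : IsSquare δ := vmt_sq_aux δ s hev h2 (by rw [← hprod]; exact hsq)
    rw [hs]
    refine ⟨hev, ?_⟩
    obtain ⟨m, hm⟩ := hev
    have hm1 : 1 ≤ m := by omega
    have hdim : finrank F (LinearMap.ker (Matrix.toLin' ((g : GL ι F) : Matrix ι ι F) + 1)) =
        2 * m := by omega
    have hW : IsNondegenerateOn (QuadraticMap.polar Q)
        (LinearMap.ker (Matrix.toLin' ((g : GL ι F) : Matrix ι ι F) + 1)) := by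
      intro w hw hw0
      have h5 : ∃ x ∈ LinearMap.ker (Matrix.toLin' ((g : GL ι F) : Matrix ι ι F) + 1),
          QuadraticMap.polar Q w x ≠ 0 := by
        by_contra hcon
        push Not at hcon
        exact hw0 (hVm w hw hcon)
      obtain ⟨x, hx, hxw⟩ := h5
      exact ⟨⟨x, hx, by rwa [QuadraticMap.polar_comm]⟩, ⟨x, hx, hxw⟩⟩
    let bs : Module.Basis (Fin (s + 1)) F
        (LinearMap.ker (Matrix.toLin' ((g : GL ι F) : Matrix ι ι F) + 1)) :=
      (Module.Basis.span hli).map (LinearEquiv.ofEq _ _ hspan)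
    have hbs : ∀ j, ((bs j : LinearMap.ker (Matrix.toLin' ((g : GL ι F) : Matrix ι ι F) + 1)) :
        ι → F) = b j := by
      intro j
      simp [bs, Module.Basis.span_apply]
    rw [Cfsg.Agent.Helper33.o_plus_iff_disc_on h2 Q hQ _ hW hm1 hdim bs]
    have hdet : (Matrix.of fun i j => QuadraticMap.polar Q (bs i : ι → F) (bs j : ι → F)).det
        = δ := by
      have h6 : (Matrix.of fun i j => QuadraticMap.polar Q (bs i : ι → F) (bs j : ι → F)) =
          Matrix.diagonal (fun j : Fin (s + 1) => if j = Fin.last s then δ else 1) := by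
        ext i j
        rw [Matrix.of_apply, hbs, hbs, Matrix.diagonal_apply]
        by_cases hij : i = j
        · subst hij
          rw [if_pos rfl]
          by_cases hl : i = Fin.last s
          · rw [if_pos hl, hl]
            exact hbl
          · rw [if_neg hl]
            exact hb1 i hl
        · rw [if_neg hij]
          exact hbo i j hij
      rw [h6, Matrix.det_diagonal, Fin.prod_univ_castSucc]
      simp [(Fin.castSucc_lt_last _).ne]
    rw [hdet]
    have hhalf : (s + 1) / 2 = m := by omega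
    rw [hhalf]
    obtain ⟨t, ht⟩ := hδsq
    have ht0 : t ≠ 0 := by
      rintro rfl
      apply hδ0
      rw [ht, mul_zero]
    constructor
    · rintro ⟨x, hx⟩
      refine ⟨x / t, ?_⟩
      rw [div_mul_div_comm, ← hx, ht, mul_div_assoc, div_self (mul_ne_zero ht0 ht0), mul_one]
    · rintro ⟨x, hx⟩
      exact ⟨x * t, by rw [hx, ht]; ring⟩

end Cfsg.Agent.Helper95.TSR2
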