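-- helper95 library: piece ZP of CALL S5874 — an additive, quadratic-homogeneous function invariant
-- under an irreducible group vanishes (finite fields of characteristic two).
import Mathlib
import Cfsg.Prelude.Def_GeometricClasses

set_option autoImplicit false
open Cfsg Cfsg.Geo Matrix

namespace Cfsg.Agent.Helper95.O12ZP

variable {ι : Type} [Fintype ι] [DecidableEq ι] {F : Type*} [Field F]

theorem exists_sq_eq [Finite F] (h2 : (2 : F) = 0) (t : F) : ∃ r : F, r ^ 2 = t := by
  have hinj : Function.Injective (fun x : F => x ^ 2) := by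
    intro x y hxy
    have hxy' : x ^ 2 = y ^ 2 := hxy
    have h1 : (x - y) * (x - y) = 0 := by linear_combination hxy' + (y * y - x * y) * h2
    exact sub_eq_zero.mp (mul_self_eq_zero.mp h1)
  exact Finite.injective_iff_surjective.mp hinj t

/-- Piece ZP: an additive function `Δ` with `Δ (c • x) = c ^ 2 * Δ x`, invariant under an irreducible
group, vanishes identically (finite field of characteristic two, dimension at least two). -/
theorem o12_zero_polar [Fintype F] (h2 : (2 : F) = 0) (hn : 2 ≤ Fintype.card ι)
    (Δ : (ι → F) → F) (hadd : ∀ x y, Δ (x + y) = Δ x + Δ y)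
    (hsmul : ∀ (c : F) (x : ι → F), Δ (c • x) = c ^ 2 * Δ x)
    (H : Subgroup (GL ι F)) (hirr : ActsIrreducibly (matrixSet H))
    (hinv : ∀ h ∈ H, ∀ x, Δ ((h : Matrix ι ι F) *ᵥ x) = Δ x) : ∀ x, Δ x = 0 := by
  classical
  have hzero : Δ 0 = 0 := by
    have := hsmul 0 0
    simpa using this
  let W : Submodule F (ι → F) :=
    { carrier := {x | Δ x = 0}
      add_mem' := by
        intro a b ha hb
        show Δ (a + b) = 0
        rw [hadd, show Δ a = 0 from ha, show Δ b = 0 from hb, add_zero]
      zero_mem' := hzero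
      smul_mem' := by
        intro c x hx
        show Δ (c • x) = 0
        rw [hsmul, show Δ x = 0 from hx, mul_zero] }
  have hW : ∀ s ∈ matrixSet H, W.map (Matrix.toLin' s) ≤ W := by
    rintro _ ⟨h, hh, rfl⟩ _ ⟨x, hx, rfl⟩
    show Δ _ = 0
    rw [Matrix.toLin'_apply, hinv h hh]
    exact hx
  rcases hirr W hW with hbot | htop
  · exfalso
    obtain ⟨i, j, hij⟩ := Fintype.exists_pair_of_one_lt_card (α := ι) (by omega)
    have hx : Δ (Pi.single i (1 : F)) ≠ 0 := by
      intro h0
      have hmem : (Pi.single i (1 : F) : ι → F) ∈ W := h0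
      rw [hbot, Submodule.mem_bot] at hmem
      have := congrFun hmem i
      simp at this
    obtain ⟨c, hc⟩ := exists_sq_eq h2 (Δ (Pi.single j (1 : F)) / Δ (Pi.single i (1 : F)))
    have hmem : (Pi.single j (1 : F) + c • Pi.single i (1 : F) : ι → F) ∈ W := by
      show Δ _ = 0
      rw [hadd, hsmul, hc, div_mul_cancel₀ _ hx]
      linear_combination Δ (Pi.single j (1 : F)) * h2
    rw [hbot, Submodule.mem_bot] at hmem
    have := congrFun hmem j
    simp [hij.symm] at this
  · intro x
    have hx : x ∈ W := by rw [htop]; exact Submodule.mem_top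
    exact hx

end Cfsg.Agent.Helper95.O12ZP
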