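-- helper95 library: the structure theorem for groups of isometries of a non-degenerate quadratic form
-- on `F^n` (all characteristics), assembled from helper96's symplectic core, helper94's symmetric-form
-- toolkit and the pieces of CALL S5874.
import Cfsg.Agent.Helper96.SpCore
import Cfsg.Agent.Helper94.OA3
import Cfsg.Agent.Helper95.O12ZP
import Cfsg.Agent.Helper76.O12Lag
import Cfsg.Agent.Helper66.O12Red
import Cfsg.Agent.Helper88.O12SF
import Cfsg.Agent.Helper94.OAE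
import Cfsg.Agent.Helper88.O12TC2
import Cfsg.Agent.Helper52.O12T4
import Cfsg.Agent.Helper74.O12PT
import Cfsg.Agent.Helper30.OZA2
import Cfsg.Agent.Helper81.O12PF2

set_option autoImplicit false
set_option linter.unusedSectionVars false
set_option linter.unusedVariables false
open Cfsg Cfsg.Geo Matrix
open Cfsg.Agent.Helper96
open scoped Kronecker

namespace Cfsg.Agent.Helper95.O12

variable {F : Type*} [Field F] {n : ℕ}

theorem polar_symplectic (h2 : (2 : F) = 0) {Q : (Fin n → F) → F}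
    (hQ : IsNondegenerateQuadraticForm Q) : IsSymplecticForm (QuadraticMap.polar Q) := by
  refine ⟨hQ.polar_bilinear, ?_, ?_, hQ.nondegenerate⟩
  · intro v w
    rw [QuadraticMap.polar_comm]
    have : QuadraticMap.polar Q w v + QuadraticMap.polar Q w v = 0 := by
      rw [← two_mul, h2, zero_mul]
    exact eq_neg_of_add_eq_zero_left this
  · intro v
    rw [Helper97.polar_self Q hQ, h2, zero_mul]

theorem polar_symmetric {Q : (Fin n → F) → F} (hQ : IsNondegenerateQuadraticForm Q) :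
    IsSymmetricForm (QuadraticMap.polar Q) :=
  ⟨hQ.polar_bilinear, fun u v => QuadraticMap.polar_comm Q u v, hQ.nondegenerate⟩

theorem polar_fix {Q : (Fin n → F) → F} {h : Matrix (Fin n) (Fin n) F}
    (hh : ∀ x, Q (h *ᵥ x) = Q x) (u v : Fin n → F) :
    QuadraticMap.polar Q (h *ᵥ u) (h *ᵥ v) = QuadraticMap.polar Q u v := by
  simp only [QuadraticMap.polar]
  rw [← Matrix.mulVec_add, hh, hh, hh]

theorem le_isoSub {Q : (Fin n → F) → F} (H : Subgroup (GL (Fin n) F))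
    (hH : ∀ h ∈ H, ∀ x, Q ((h : Matrix (Fin n) (Fin n) F) *ᵥ x) = Q x) :
    H ≤ Sy.isoSub (QuadraticMap.polar Q) := by
  intro h hh
  rw [Sy.mem_isoSub]
  exact fun u v => polar_fix (hH h hh) u v

/-- The outcomes of the structure theorem. -/
def Outcome [Fintype F] (Q : (Fin n → F) → F) (H : Subgroup (GL (Fin n) F)) : Prop :=
  (∃ W : Submodule F (Fin n → F), W ≠ ⊥ ∧ IsTotallySingularQuad Q W ∧ H ≤ subspaceStabilizer W) ∨
  ((2 : F) = 0 ∧ ∃ v : Fin n → F, Q v ≠ 0 ∧ H ≤ subspaceStabilizer (Submodule.span F {v})) ∨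
  (∃ W W' : Submodule F (Fin n → F), W ≠ ⊥ ∧ W' ≠ ⊥ ∧ IsNondegenerateOn (QuadraticMap.polar Q) W ∧
      IsNondegenerateOn (QuadraticMap.polar Q) W' ∧ AreOrthogonalFor (QuadraticMap.polar Q) W W' ∧
      W ⊓ W' = ⊥ ∧ W ⊔ W' = ⊤ ∧ H ≤ subspaceStabilizer W ∧ H ≤ subspaceStabilizer W') ∨
  (ActsIrreducibly (matrixSet H) ∧ ∃ (t k : ℕ) (D : Fin t → Submodule F (Fin n → F)),
      IsNondegenerateMDecomposition (QuadraticMap.polar Q) k D ∧ H ≤ decompositionStabilizer D) ∨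
  (∃ (r : ℕ) (K : Subalgebra F (Matrix (Fin n) (Fin n) F)), r.Prime ∧ IsFieldSubalgebra r K ∧
      H ≤ subalgebraNormalizer K) ∨
  IsPlusTypeOn Q ⊤ ∨
  ((2 : F) ≠ 0 ∧ ActsIrreducibly (matrixSet H) ∧
    ∃ (n₁ n₂ : ℕ) (e : Fin n ≃ Fin n₁ × Fin n₂) (P : GL (Fin n) F)
      (f₁ : (Fin n₁ → F) → (Fin n₁ → F) → F) (f₂ : (Fin n₂ → F) → (Fin n₂ → F) → F),
      2 ≤ n₁ ∧ 2 ≤ n₂ ∧ IsSymmetricForm f₁ ∧ IsSymmetricForm f₂ ∧
      IsTensorFormStructure id (QuadraticMap.polar Q) f₁ f₂ e P ∧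
      H ≤ tensorProductSubgroup n₁ n₂ e P) ∨
  (∃ (F₁ : Subfield F) (r : ℕ) (P : GL (Fin n) F) (ζ : F), r.Prime ∧
      Fintype.card F = Nat.card F₁ ^ r ∧ ζ ≠ 0 ∧
      IsQuadFormRationalStructure (fun v : Fin n → F => ζ * Q v) F₁ P ∧
      H ≤ subfieldSubgroup F₁ P) ∨
  InOrthogonalResidualClass H ∨
  (∃ (r j : ℕ) (N : Subgroup (GL (Fin n) F)), r.Prime ∧ n * n = r ^ j ∧ (r : F) ≠ 0 ∧ N ≤ H ∧
      ActsAbsolutelyIrreducibly (matrixSet N) ∧
      (∀ a ∈ N, ∀ b ∈ N, a * b * a⁻¹ * b⁻¹ ∈ scalars (Fin n) F) ∧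
      (∀ x ∈ N, x ^ r ∈ scalars (Fin n) F)) ∨
  (∃ (d t k : ℕ) (N S : Subgroup (GL (Fin n) F)) (e : Fin n ≃ Fin d × Fin k) (P : GL (Fin n) F)
      (ρ : Matrix (Fin n) (Fin n) F → Matrix (Fin d) (Fin d) F), 2 ≤ d ∧ 2 ≤ t ∧ n = d ^ t ∧
      N ≤ H ∧ ActsIrreducibly (matrixSet N) ∧ S ≤ N ∧ (∀ x ∈ N, ∀ s ∈ S, x * s * x⁻¹ ∈ S) ∧
      ⁅S, S⁆ = S ∧ TensorData S d k e P ρ)

/-- The tensor case. -/
theorem o_tensor [Fintype F] (hn : 2 ≤ n) (Q : (Fin n → F) → F)
    (hQ : IsNondegenerateQuadraticForm Q) (H N : Subgroup (GL (Fin n) F))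
    (hH : ∀ h ∈ H, ∀ x, Q ((h : Matrix (Fin n) (Fin n) F) *ᵥ x) = Q x)
    (hirr : ActsIrreducibly (matrixSet H)) (hNH : N ≤ H)
    (hNn : ∀ h ∈ H, ∀ x ∈ N, h * x * h⁻¹ ∈ N) {d k : ℕ} {e : Fin n ≃ Fin d × Fin k}
    {P : GL (Fin n) F} {ρ : Matrix (Fin n) (Fin n) F → Matrix (Fin d) (Fin d) F}
    (hTD : TensorData N d k e P ρ) (hd : 2 ≤ d) (hk : 2 ≤ k) :
    IsPlusTypeOn Q ⊤ ∨
    ((2 : F) ≠ 0 ∧ ∃ (n₁ n₂ : ℕ) (e : Fin n ≃ Fin n₁ × Fin n₂) (P : GL (Fin n) F)
      (f₁ : (Fin n₁ → F) → (Fin n₁ → F) → F) (f₂ : (Fin n₂ → F) → (Fin n₂ → F) → F),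
      2 ≤ n₁ ∧ 2 ≤ n₂ ∧ IsSymmetricForm f₁ ∧ IsSymmetricForm f₂ ∧
      IsTensorFormStructure id (QuadraticMap.polar Q) f₁ f₂ e P ∧
      H ≤ tensorProductSubgroup n₁ n₂ e P) := by
  classical
  have hH' := le_isoSub H hH
  by_cases h2 : (2 : F) = 0
  · left
    have hf := polar_symplectic h2 hQ
    rcases Sy.tensor_cases hf H N hH' hirr hNH hNn hTD hd hk with
      ⟨h2', -⟩ | ⟨-, n₁, n₂, e', P', f₁, f₂, hf₁, hf₂, hT, hle⟩
    · exact absurd h2 h2'
    · have hpure := Cfsg.Agent.Helper88.o12_tensor_char2 h2 (by rw [Fintype.card_fin]; exact hn) Q hQ H hH hirr e' P'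
        f₁ f₂ hf₁ hf₂ hT hle
      obtain ⟨U₂, hU₂, hdim⟩ := Cfsg.Agent.Helper76.o12_lagrangian f₂ hf₂
      exact Cfsg.Agent.Helper52.o12_tensor_plus Q hQ e' P' f₁ f₂ hf₁.bilinear hf₂.bilinear hT U₂ hU₂ hdim
        (fun s y _ => hpure s y)
  · have hf := polar_symmetric hQ
    have hle : H ≤ tensorProductSubgroup d k e P := by
      intro h hh
      refine hTD.normalizer_mem h (hNn h hh) ?_
      have := hNn h⁻¹ (H.inv_mem hh)
      simpa using this
    obtain ⟨B₁, C, hG, hB₁det, hCdet, hsym, hB₁fix⟩ :=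
      Helper94.OA.tensor_gram hf hTD (hNH.trans hH')
    have hT := Helper94.OA.tensor_form_structure hf e P B₁ C hG
    rcases hsym with ⟨hB, hC⟩ | ⟨hB, hC⟩
    · right
      exact ⟨h2, d, k, e, P, bf B₁, bf C, hd, hk, Sy.bf_symmetric B₁ hB₁det hB,
        Sy.bf_symmetric C hCdet hC, hT, hle⟩
    · left
      have hf₁ := Sy.bf_symplectic_odd h2 B₁ hB₁det hB
      have hf₂ := Sy.bf_symplectic_odd h2 C hCdet hC
      obtain ⟨U₂, hU₂, hdim⟩ := Cfsg.Agent.Helper76.o12_lagrangian (bf C) hf₂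
      obtain ⟨c, hc, hpt⟩ := Cfsg.Agent.Helper74.o12_tensor_pure (QuadraticMap.polar Q) e P (bf B₁) (bf C)
        hf₁.bilinear hf₂.bilinear hT
      refine Cfsg.Agent.Helper52.o12_tensor_plus Q hQ e P (bf B₁) (bf C) hf₁.bilinear hf₂.bilinear hT U₂ hU₂ hdim ?_
      intro s y hy
      have h1 := hpt s s y y
      rw [Helper97.polar_self Q hQ, hf₁.alternating, zero_mul, mul_zero] at h1
      exact (mul_eq_zero.mp h1).resolve_left h2

/-- Every group of isometries of a non-degenerate quadratic form stabilises one of the listed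
structures. -/
theorem o_core [Fintype F] (hn : 3 ≤ n) (Q : (Fin n → F) → F)
    (hQ : IsNondegenerateQuadraticForm Q) (H : Subgroup (GL (Fin n) F))
    (hH : ∀ h ∈ H, ∀ x, Q ((h : Matrix (Fin n) (Fin n) F) *ᵥ x) = Q x) : Outcome Q H := by
  classical
  have hnz : NeZero n := ⟨by omega⟩
  have hZc : ∀ z ∈ scalars (Fin n) F, ∀ g : GL (Fin n) F, z * g = g * z :=
    fun z hz g => Helper97.scalars_comm hz g
  by_cases hirr : ActsIrreducibly (matrixSet H)
  swap
  · rcases Cfsg.Agent.Helper66.o12_reducible Q hQ H hH hirr with h | h | h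
    · exact Or.inl h
    · exact Or.inr (Or.inl h)
    · exact Or.inr (Or.inr (Or.inl h))
  have hHZ : ¬ H ≤ scalars (Fin n) F := Helper97.not_le_scalars_of_irreducible (by omega) H hirr
  obtain ⟨N, hNH, hNn, hNZ, hNmin⟩ := Helper97.exists_minimal_normal (scalars (Fin n) F) H hHZ
  have hzan : (∃ (t k : ℕ) (D : Fin t → Submodule F (Fin n → F)),
      IsNondegenerateMDecomposition (QuadraticMap.polar Q) k D ∧ H ≤ decompositionStabilizer D) ∨
    (∃ (r : ℕ) (K : Subalgebra F (Matrix (Fin n) (Fin n) F)), r.Prime ∧ IsFieldSubalgebra r K ∧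
      H ≤ subalgebraNormalizer K) ∨
    IsPlusTypeOn Q ⊤ ∨
    (∀ k, ZCent (matrixSet N) k → ∃ c : F, k = c • (1 : Matrix (Fin n) (Fin n) F)) := by
    by_cases h2 : (2 : F) = 0
    · exact Cfsg.Agent.Helper30.o12_z_two h2 (by omega) Q hQ H N hH hirr hNH hNn
    · exact Cfsg.Agent.Helper94.OA.o12_z_odd h2 (by omega) Q hQ H N hH hirr hNH hNn
  rcases hzan with h | h | h | hsc
  · exact Or.inr (Or.inr (Or.inr (Or.inl ⟨hirr, h⟩)))
  · exact Or.inr (Or.inr (Or.inr (Or.inr (Or.inl h))))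
  · exact Or.inr (Or.inr (Or.inr (Or.inr (Or.inr (Or.inl h)))))
  obtain ⟨d, k, e, P, ρ, hTD⟩ := tensorData_of_zcent_scalar (by omega) H N hirr hNn hsc
  by_cases hd1 : d = 1
  · exact absurd (hTD.le_scalars_of_one hd1) hNZ
  have hd2 : 2 ≤ d := by have := hTD.hd; omega
  by_cases hk1 : k = 1
  swap
  · have hk2 : 2 ≤ k := by have := hTD.hk; omega
    rcases o_tensor (by omega) Q hQ H N hH hirr hNH hNn hTD hd2 hk2 with h | ⟨h2, h⟩
    · exact Or.inr (Or.inr (Or.inr (Or.inr (Or.inr (Or.inl h)))))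
    · exact Or.inr (Or.inr (Or.inr (Or.inr (Or.inr (Or.inr (Or.inl ⟨h2, hirr, h⟩))))))
  -- `N` is absolutely irreducible
  have habs : ActsAbsolutelyIrreducibly (matrixSet N) := hTD.absIrred_of_one hk1
  have hCN : ⁅N, N⁆ ≤ N := by
    rw [Subgroup.commutator_le]
    intro a ha b hb
    rw [commutatorElement_def]
    exact N.mul_mem (N.mul_mem (N.mul_mem ha hb) (N.inv_mem ha)) (N.inv_mem hb)
  rcases hNmin ⁅N, N⁆ hCN (Helper97.commutator_normalized H N hNn) with hC | hC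
  · -- class two modulo scalars
    have hab : ∀ a ∈ N, ∀ b ∈ N, a * b * a⁻¹ * b⁻¹ ∈ scalars (Fin n) F := by
      intro a ha b hb
      have := Subgroup.commutator_mem_commutator ha hb
      rw [commutatorElement_def] at this
      exact hC this
    obtain ⟨r, hr, hpow⟩ := Helper97.exists_prime_pow_mem (scalars (Fin n) F) H N hZc hNn hNZ hNmin hab
    obtain ⟨j, hj⟩ := sq_eq_prime_pow_of_class_two N habs hab r hr hpow
    have hr0 := Sy.c2_char_ne (by omega) N hNZ habs hab r hr hpow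
    exact Or.inr (Or.inr (Or.inr (Or.inr (Or.inr (Or.inr (Or.inr (Or.inr (Or.inr (Or.inl
      ⟨r, j, N, hr, hj, hr0, hNH, habs, hab, hpow⟩)))))))))
  -- perfect
  have hperf : ⁅N, N⁆ = N := hC
  have hirrN : ActsIrreducibly (matrixSet N) := habs.1
  have hcentN : ∀ c : GL (Fin n) F, (∀ s ∈ N, c * s = s * c) → c ∈ scalars (Fin n) F := by
    intro c hc
    obtain ⟨a, ha⟩ := habs.2 (c : Matrix (Fin n) (Fin n) F) (by
      rintro _ ⟨s, hs, rfl⟩
      rw [← Units.val_mul, ← Units.val_mul, hc s hs])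
    exact (Helper97.scalar_mem_scalars_iff c).mpr ⟨a, ha⟩
  rcases perfect_structure (scalars (Fin n) F) H N hZc hNn hNZ hNmin hperf with
    hsimple | ⟨S, hSN, hSn, hSZ, hSperf, hne, hcomm, hgen⟩
  swap
  · -- central product of conjugates
    have hsc' : ∀ M, ZCent (matrixSet S) M → ∃ c : F, M = c • (1 : Matrix (Fin n) (Fin n) F) := by
      intro M hM
      apply habs.2
      have hyc : ∀ h ∈ H, ∀ y ∈ Helper97.cj h S,
          M * (y : Matrix (Fin n) (Fin n) F) = (y : Matrix (Fin n) (Fin n) F) * M := by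
        intro h hh y hy'
        rcases hcomm h hh with h1 | h1
        · rw [h1] at hy'
          exact hM.1 _ (Helper97.coe_mem_matrixSet hy')
        · apply hM.2
          rintro _ ⟨s', hs', rfl⟩
          rw [← Units.val_mul, ← Units.val_mul, h1 s' hs' y hy']
      have key : ∀ x ∈ Subgroup.closure {x | ∃ h ∈ H, x ∈ Helper97.cj h S},
          M * (x : Matrix (Fin n) (Fin n) F) = (x : Matrix (Fin n) (Fin n) F) * M ∧
          M * ((x⁻¹ : GL (Fin n) F) : Matrix (Fin n) (Fin n) F) =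
            ((x⁻¹ : GL (Fin n) F) : Matrix (Fin n) (Fin n) F) * M := by
        intro x hx
        induction hx using Subgroup.closure_induction with
        | mem y hy =>
          obtain ⟨h, hh, hy'⟩ := hy
          exact ⟨hyc h hh y hy', hyc h hh y⁻¹ (Subgroup.inv_mem _ hy')⟩
        | one =>
          rw [inv_one, Units.val_one, mul_one, one_mul]
          exact ⟨rfl, rfl⟩
        | mul y z _ _ hy hz =>
          rw [_root_.mul_inv_rev, Units.val_mul, Units.val_mul]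
          constructor
          · rw [← mul_assoc, hy.1, mul_assoc, hz.1, ← mul_assoc]
          · rw [← mul_assoc, hz.2, mul_assoc, hy.2, ← mul_assoc]
        | inv y _ hy =>
          rw [inv_inv]
          exact ⟨hy.2, hy.1⟩
      rintro _ ⟨x, hx, rfl⟩
      exact (key x (by rw [hgen]; exact hx)).1
    obtain ⟨d', k', e', P', ρ', hTD'⟩ := tensorData_of_zcent_scalar (by omega) N S hirrN hSn hsc'
    have hd'2 : 2 ≤ d' := by
      have h1 := hTD'.hd
      have h2 : d' ≠ 1 := fun h => hSZ (hTD'.le_scalars_of_one h)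
      omega
    obtain ⟨t, ht, hnt⟩ := eq_pow_of_central_product H N S hTD' habs hne hcomm hgen
    exact Or.inr (Or.inr (Or.inr (Or.inr (Or.inr (Or.inr (Or.inr (Or.inr (Or.inr (Or.inr
      ⟨d', t, k', N, S, e', P', ρ', hd'2, ht, hnt, hNH, hirrN, hSN, hSn, hSperf, hTD'⟩)))))))))
  -- simple modulo scalars
  have hne0 : Nonempty (Fin n) := ⟨⟨0, by omega⟩⟩
  by_cases hsub : ∃ F₀ : Subfield F, F₀ ≠ ⊤ ∧ RealisableOver F₀ (matrixSet N)
  · obtain ⟨F₀, hF₀, B, hB⟩ := hsub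
    obtain ⟨F₁, r, hle, hr, hcard⟩ := Helper97.Gen.exists_prime_index_subfield F₀ hF₀
    obtain ⟨P', ζ, hζ, hnorm, hrat⟩ := Cfsg.Agent.Helper88.o12_subfield_quad Q hQ
      (by rw [Fintype.card_fin]; omega) F₁ N (fun g hg x => hH g (hNH hg) x) habs B
      (fun s hs i j => hle (hB s hs i j))
    exact Or.inr (Or.inr (Or.inr (Or.inr (Or.inr (Or.inr (Or.inr (Or.inl
      ⟨F₁, r, P', ζ, hr, hcard, hζ, hrat, fun h hh => hnorm h (hNn h hh)⟩)))))))
  have hcore : IsResidualCore H N :=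
    { le := hNH
      normal := hNn
      perfect := hperf
      simple := Helper97.isSimpleGroup_quot (scalars (Fin n) F) N hNZ hsimple
      nonabelian := Helper97.not_commutative_quot (scalars (Fin n) F) N hNZ hperf
      centralizer_scalar := fun h _ hh =>
        Helper97.mem_of_centralizes_mod (scalars (Fin n) F) N hZc hperf hcentN h hh
      absIrred := habs
      no_subfield := fun F₀ hF₀ hreal => hsub ⟨F₀, hF₀, hreal⟩ }
  refine Or.inr (Or.inr (Or.inr (Or.inr (Or.inr (Or.inr (Or.inr (Or.inr (Or.inl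
    ⟨N, hcore, ?_⟩))))))))
  rintro ⟨σ, f', hf', hfix⟩
  have hsq := Helper97.Gen.isSesq_of_bilinear hQ.polar_bilinear
  have hdet : (Helper97.Gen.gram (QuadraticMap.polar Q)).det ≠ 0 :=
    hsq.det_gram_ne_zero (fun v hv => (hQ.nondegenerate v hv).1)
  have hgram : ∀ g ∈ N, (g : Matrix (Fin n) (Fin n) F)ᵀ * Helper97.Gen.gram (QuadraticMap.polar Q)
      * (g : Matrix (Fin n) (Fin n) F) = Helper97.Gen.gram (QuadraticMap.polar Q) := by
    intro g hg
    have h1 := hsq.gram_of_similar (g : Matrix (Fin n) (Fin n) F) 1 (fun u v => by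
      rw [one_mul]
      exact polar_fix (hH g (hNH hg)) u v)
    rwa [one_smul, Sy.map_refl'] at h1
  obtain ⟨F₀, hF₀, hreal⟩ := Sy.realisable_of_fixes_unitary_gram
    (Helper97.Gen.gram (QuadraticMap.polar Q)) hdet N hgram habs σ f' hf' hfix
  exact hsub ⟨F₀, hF₀, hreal⟩

/-- A perfect normal subgroup acting on a two-dimensional tensor factor forces plus type. -/
theorem o_cp_two [Fintype F] (hn : 2 ≤ n) (Q : (Fin n → F) → F)
    (hQ : IsNondegenerateQuadraticForm Q) (N S : Subgroup (GL (Fin n) F))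
    (hN : ∀ h ∈ N, ∀ x, Q ((h : Matrix (Fin n) (Fin n) F) *ᵥ x) = Q x)
    (hirr : ActsIrreducibly (matrixSet N)) (hSN : S ≤ N)
    (hSn : ∀ h ∈ N, ∀ x ∈ S, h * x * h⁻¹ ∈ S) (hSperf : ⁅S, S⁆ = S) {k : ℕ}
    {e : Fin n ≃ Fin 2 × Fin k}
    {P : GL (Fin n) F} {ρ : Matrix (Fin n) (Fin n) F → Matrix (Fin 2) (Fin 2) F}
    (hTD : TensorData S 2 k e P ρ) (hk : 2 ≤ k) : IsPlusTypeOn Q ⊤ := by
  classical
  have hN' := le_isoSub N hN
  by_cases h2 : (2 : F) = 0
  · have hf := polar_symplectic h2 hQ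
    rcases Sy.tensor_cases hf N S hN' hirr hSN hSn hTD (le_refl 2) hk with
      ⟨h2', -⟩ | ⟨-, n₁, n₂, e', P', f₁, f₂, hf₁, hf₂, hT, hle⟩
    · exact absurd h2 h2'
    · have hpure := Cfsg.Agent.Helper88.o12_tensor_char2 h2 (by rw [Fintype.card_fin]; exact hn) Q hQ N hN hirr e' P'
        f₁ f₂ hf₁ hf₂ hT hle
      obtain ⟨U₂, hU₂, hdim⟩ := Cfsg.Agent.Helper76.o12_lagrangian f₂ hf₂
      exact Cfsg.Agent.Helper52.o12_tensor_plus Q hQ e' P' f₁ f₂ hf₁.bilinear hf₂.bilinear hT U₂ hU₂ hdim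
        (fun s y _ => hpure s y)
  · have hf := polar_symmetric hQ
    obtain ⟨B₁, C, hG, hB₁det, hCdet, hsym, hB₁fix⟩ :=
      Helper94.OA.tensor_gram hf hTD (hSN.trans hN')
    have hT := Helper94.OA.tensor_form_structure hf e P B₁ C hG
    rcases hsym with ⟨hB, hC⟩ | ⟨hB, hC⟩
    · exact (Cfsg.Agent.Helper81.o12_perfect_two h2 S hSperf hTD B₁ hB₁det hB hB₁fix).elim
    · have hf₁ := Sy.bf_symplectic_odd h2 B₁ hB₁det hB
      have hf₂ := Sy.bf_symplectic_odd h2 C hCdet hC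
      obtain ⟨U₂, hU₂, hdim⟩ := Cfsg.Agent.Helper76.o12_lagrangian (bf C) hf₂
      obtain ⟨c, hc, hpt⟩ := Cfsg.Agent.Helper74.o12_tensor_pure (QuadraticMap.polar Q) e P (bf B₁) (bf C)
        hf₁.bilinear hf₂.bilinear hT
      refine Cfsg.Agent.Helper52.o12_tensor_plus Q hQ e P (bf B₁) (bf C) hf₁.bilinear hf₂.bilinear hT U₂ hU₂ hdim ?_
      intro s y hy
      have h1 := hpt s s y y
      rw [Helper97.polar_self Q hQ, hf₁.alternating, zero_mul, mul_zero] at h1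
      exact (mul_eq_zero.mp h1).resolve_left h2

end Cfsg.Agent.Helper95.O12
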