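-- helper95 library: the maximal subgroups of Ω_12^-(q) — row assembly from the structure theorem
-- `O12.o_core` and the pieces of CALL S5874.
import Cfsg.Agent.Helper95.O12Core
import Cfsg.Agent.Helper94.OA5
import Cfsg.Agent.Helper94.Quad
import Cfsg.Agent.Helper76.O12L2
import Cfsg.Agent.Helper20.O12L3
import Cfsg.Agent.Helper20.O12S1
import Cfsg.Agent.Helper66.O12N2
import Cfsg.Agent.Helper14.O12T3
import Cfsg.Agent.Helper30.OT5
import Cfsg.Agent.Helper14.O12T2
import Cfsg.Agent.Helper66.O12N3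
import Cfsg.Agent.Helper81.O12N5
import Cfsg.Agent.Helper76.O12N1
import Cfsg.Agent.Helper2.O12N4
import Cfsg.Agent.Helper52.O12T4
import Cfsg.Agent.Helper74.O12PT
import Cfsg.Agent.Helper33.O12S2
import Cfsg.Agent.Helper88.O12T4c

set_option autoImplicit false
set_option linter.unusedSectionVars false
set_option linter.unusedVariables false
open Cfsg Cfsg.Geo Matrix
open Cfsg.Agent.Helper96

namespace Cfsg.Agent.Helper95.O12

variable {F : Type*} [Field F] [Fintype F]

/-- The conclusion of the row. -/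
def Goal12 (Q : (Fin 12 → F) → F) (H : Subgroup (Matrix.GeneralLinearGroup (Fin 12) F)) : Prop :=
    (∃ W : Submodule F (Fin 12 → F), W ≠ ⊥ ∧ Cfsg.Geo.IsTotallySingularQuad Q W ∧ H = Cfsg.Geo.subspaceStabilizer W ⊓ Cfsg.Geo.omegaGL Q) ∨
    (Odd (Fintype.card F) ∧ ∃ W : Submodule F (Fin 12 → F), W ≠ ⊥ ∧ W ≠ ⊤ ∧ Odd (Module.finrank F W) ∧ 2 * Module.finrank F W ≠ 12 ∧ Cfsg.Geo.IsNondegenerateOn (QuadraticMap.polar Q) W ∧ H = Cfsg.Geo.subspaceStabilizer W ⊓ Cfsg.Geo.omegaGL Q) ∨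
    (∃ W : Submodule F (Fin 12 → F), Module.finrank F W = 2 ∧ Cfsg.Geo.IsNondegenerateOn (QuadraticMap.polar Q) W ∧ ¬ Cfsg.Geo.IsPlusTypeOn Q W ∧ H = Cfsg.Geo.subspaceStabilizer W ⊓ Cfsg.Geo.omegaGL Q) ∨
    (4 ≤ Fintype.card F ∧ ∃ W : Submodule F (Fin 12 → F), Module.finrank F W = 2 ∧ Cfsg.Geo.IsNondegenerateOn (QuadraticMap.polar Q) W ∧ Cfsg.Geo.IsPlusTypeOn Q W ∧ H = Cfsg.Geo.subspaceStabilizer W ⊓ Cfsg.Geo.omegaGL Q) ∨
    (∃ W : Submodule F (Fin 12 → F), Module.finrank F W = 4 ∧ Cfsg.Geo.IsNondegenerateOn (QuadraticMap.polar Q) W ∧ H = Cfsg.Geo.subspaceStabilizer W ⊓ Cfsg.Geo.omegaGL Q) ∨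
    (∃ W : Submodule F (Fin 12 → F), Module.finrank F W = 6 ∧ Cfsg.Geo.IsNondegenerateOn (QuadraticMap.polar Q) W ∧ H = Cfsg.Geo.subspaceStabilizer W ⊓ Cfsg.Geo.omegaGL Q) ∨
    (¬ Odd (Fintype.card F) ∧ ∃ v : (Fin 12 → F), Q v ≠ 0 ∧ H = Cfsg.Geo.subspaceStabilizer (Submodule.span F {v}) ⊓ Cfsg.Geo.omegaGL Q) ∨
    (∃ D : Fin 3 → Submodule F (Fin 12 → F), Cfsg.Geo.IsOrthogonalMDecomposition Q 4 D ∧ (∀ i, ¬ Cfsg.Geo.IsPlusTypeOn Q (D i)) ∧ H = Cfsg.Geo.decompositionStabilizer D ⊓ Cfsg.Geo.omegaGL Q) ∨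
    (∃ K : Subalgebra F (Matrix (Fin 12) (Fin 12) F), Cfsg.Geo.IsFieldSubalgebra 2 K ∧ H = Cfsg.Geo.subalgebraNormalizer K ⊓ Cfsg.Geo.omegaGL Q) ∨
    (∃ K : Subalgebra F (Matrix (Fin 12) (Fin 12) F), Cfsg.Geo.IsFieldSubalgebra 3 K ∧ H = Cfsg.Geo.subalgebraNormalizer K ⊓ Cfsg.Geo.omegaGL Q) ∨
    (Odd (Fintype.card F) ∧ 5 ≤ Fintype.card F ∧ ∃ (e : Fin 12 ≃ Fin 3 × Fin 4) (P : Matrix.GeneralLinearGroup (Fin 12) F) (f₁ : (Fin 3 → F) → (Fin 3 → F) → F) (f₂ : (Fin 4 → F) → (Fin 4 → F) → F), Cfsg.Geo.IsSymmetricForm f₁ ∧ Cfsg.Geo.IsSymmetricForm f₂ ∧ ¬ Cfsg.Geo.IsPlusTypeOn (fun v : Fin 4 → F => f₂ v v) ⊤ ∧ Cfsg.Geo.IsTensorFormStructure id (QuadraticMap.polar Q) f₁ f₂ e P ∧ H = Cfsg.Geo.tensorProductSubgroup 3 4 e P ⊓ Cfsg.Geo.omegaGL Q) ∨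
    (∃ (F₀ : Subfield F) (r : ℕ) (P : Matrix.GeneralLinearGroup (Fin 12) F) (ζ : F), r.Prime ∧ Odd r ∧ Fintype.card F = Nat.card F₀ ^ r ∧ ζ ≠ 0 ∧ Cfsg.Geo.IsQuadFormRationalStructure (fun v : Fin 12 → F => ζ * Q v) F₀ P ∧ H = Cfsg.Geo.subfieldSubgroup F₀ P ⊓ Cfsg.Geo.omegaGL Q) ∨
    Cfsg.Geo.InOrthogonalResidualClass H

theorem not_odd_of_two_eq_zero (h2 : (2 : F) = 0) : ¬ Odd (Fintype.card F) := by
  have h1 : ringChar F ∣ 2 := ringChar.dvd (by exact_mod_cast h2)
  have h3 : ringChar F = 2 := by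
    rcases (Nat.dvd_prime Nat.prime_two).mp h1 with h | h
    · exact absurd h CharP.ringChar_ne_one
    · exact h
  have := FiniteField.even_card_of_char_two h3
  rw [Nat.odd_iff]
  omega

theorem odd_of_two_ne_zero (h2 : (2 : F) ≠ 0) : Odd (Fintype.card F) := by
  have h3 : ringChar F ≠ 2 := by
    intro h
    apply h2
    have := CharP.cast_eq_zero F (ringChar F)
    rw [h] at this
    exact_mod_cast this
  rw [Nat.odd_iff]
  exact FiniteField.odd_card_of_char_ne_two h3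

theorem q_zero {κ : Type} [Fintype κ] [DecidableEq κ] {Q : (κ → F) → F}
    (hQ : IsNondegenerateQuadraticForm Q) : Q 0 = 0 := by
  have := hQ.smul 0 0
  simpa using this

theorem finrank_top12 : Module.finrank F (⊤ : Submodule F (Fin 12 → F)) = 12 := by
  rw [finrank_top, Module.finrank_fintype_fun_eq_card, Fintype.card_fin]

theorem card12 : Fintype.card (Fin 12) = 12 := Fintype.card_fin 12

section
variable {n : ℕ} {Q : (Fin n → F) → F} {H : Subgroup (GL (Fin n) F)}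
  (hH : IsMaximalIn (omegaGL Q) H)

include hH in
theorem key {M : Subgroup (GL (Fin n) F)} (h1 : H ≤ M) (h2 : ¬ omegaGL Q ≤ M) :
    H = M ⊓ omegaGL Q := Helper97.Gen.eq_inf_of_maxIn hH h1 h2

include hH in
theorem le_iso : H ≤ isometryGroup F Q := fun h hh => Helper94.omega_le_isom (hH.1.le hh)

include hH in
theorem h_iso : ∀ h ∈ H, ∀ x, Q ((h : Matrix (Fin n) (Fin n) F) *ᵥ x) = Q x :=
  fun h hh x => (Helper97.Gen.mem_isometryGroup_iff Q h).mp (le_iso hH hh) x

theorem span_ne_bot {x : Fin n → F} (hx : Q x ≠ 0) (hQ : IsNondegenerateQuadraticForm Q) :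
    Submodule.span F {x} ≠ ⊥ := by
  intro h
  rw [Submodule.span_singleton_eq_bot] at h
  rw [h, q_zero hQ] at hx
  exact hx rfl

theorem span_ne_top_gen (hn : 2 ≤ n) (x : Fin n → F) : Submodule.span F {x} ≠ ⊤ := by
  intro h
  have h1 : Module.finrank F (Submodule.span F {x}) ≤ 1 := by
    by_cases hx : x = 0
    · rw [hx, Submodule.span_zero_singleton, finrank_bot]
      exact Nat.zero_le 1
    · rw [finrank_span_singleton hx]
  rw [h, finrank_top, Module.finrank_fintype_fun_eq_card, Fintype.card_fin] at h1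
  omega

theorem q_of_polar (hQ : IsNondegenerateQuadraticForm Q) (h2 : (2 : F) ≠ 0) {x : Fin n → F}
    (h : QuadraticMap.polar Q x x = 0) : Q x = 0 := by
  rw [Helper97.polar_self Q hQ] at h
  exact (mul_eq_zero.mp h).resolve_left h2

theorem decomp_card_gen {t k : ℕ} (D : Fin t → Submodule F (Fin n → F))
    (hD : IsMDecomposition k D) : t * k = n := by
  classical
  have hint := DirectSum.isInternal_submodule_of_iSupIndep_of_iSup_eq_top hD.indep hD.iSup_eq_top
  have e := LinearEquiv.ofBijective (DirectSum.coeLinearMap D) hint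
  have h1 := e.finrank_eq
  rw [Module.finrank_directSum, Module.finrank_fintype_fun_eq_card, Fintype.card_fin] at h1
  rw [← h1]
  simp [hD.finrank_eq]

theorem ts_ne_top (hn : 0 < n) (hQ : IsNondegenerateQuadraticForm Q)
    (hts : IsTotallySingularQuad Q ⊤) : False := by
  obtain ⟨⟨x, hx⟩, -⟩ := hQ.nondegenerate (Pi.single ⟨0, hn⟩ 1) (by
    intro h
    have := congrFun h ⟨0, hn⟩
    simp at this)
  apply hx
  simp only [QuadraticMap.polar]
  rw [hts _ Submodule.mem_top, hts _ Submodule.mem_top, hts _ Submodule.mem_top]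
  ring

theorem top_ne_of_card (F₁ : Subfield F) {r : ℕ} (hr : r.Prime)
    (hcard : Fintype.card F = Nat.card F₁ ^ r) : F₁ ≠ ⊤ := by
  rintro rfl
  have h1 : Nat.card (⊤ : Subfield F) = Fintype.card F := by
    rw [← Nat.card_eq_fintype_card]
    exact Nat.card_congr Subfield.topEquiv.toEquiv
  rw [h1] at hcard
  have h3 := Fintype.one_lt_card (α := F)
  have h4 : Fintype.card F ^ 1 < Fintype.card F ^ r := Nat.pow_lt_pow_right h3 hr.one_lt
  rw [pow_one] at h4
  omega

end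

section
variable {Q : (Fin 12 → F) → F} (hQ : IsNondegenerateQuadraticForm Q)
  (hminus : ¬ IsPlusTypeOn Q ⊤) {H : Subgroup (GL (Fin 12) F)} (hH : IsMaximalIn (omegaGL Q) H)

theorem span_ne_top (x : Fin 12 → F) : Submodule.span F {x} ≠ ⊤ := by
  intro h
  have h1 : Module.finrank F (Submodule.span F {x}) ≤ 1 := by
    by_cases hx : x = 0
    · rw [hx, Submodule.span_zero_singleton, finrank_bot]
      exact Nat.zero_le 1
    · rw [finrank_span_singleton hx]
  rw [h, finrank_top12] at h1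
  omega

include hQ hminus hH in
/-- A proper non-zero non-degenerate invariant subspace of dimension at most six. -/
theorem sub_case (W : Submodule F (Fin 12 → F)) (hW0 : W ≠ ⊥) (hW1 : W ≠ ⊤)
    (hnd : IsNondegenerateOn (QuadraticMap.polar Q) W) (hle : H ≤ subspaceStabilizer W)
    (hd6 : Module.finrank F W ≤ 6) : Goal12 Q H := by
  classical
  have hN := Cfsg.Agent.Helper76.o12_notOmega_subspace Q hQ (by rw [card12]; norm_num) W hW0 hW1
  have hkey := key hH hle hN
  obtain ⟨d, hd⟩ : ∃ d, Module.finrank F W = d := ⟨_, rfl⟩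
  have hd1 : 1 ≤ d := by
    rw [← hd]
    exact Nat.one_le_iff_ne_zero.mpr (fun h0 => hW0 (Submodule.finrank_eq_zero.mp h0))
  rw [hd] at hd6
  have hoddcase : Odd d → Goal12 Q H := by
    intro hodd
    have h2 := Cfsg.Agent.Helper76.o12_two_ne_of_odd Q hQ W hnd (by rw [hd]; exact hodd)
    refine Or.inr (Or.inl ⟨odd_of_two_ne_zero h2, W, hW0, hW1, by rw [hd]; exact hodd, ?_, hnd, hkey⟩)
    rw [hd]
    intro h12
    have : d = 6 := by omega
    rw [this] at hodd
    exact absurd hodd (by decide)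
  rcases (by omega : d = 1 ∨ d = 2 ∨ d = 3 ∨ d = 4 ∨ d = 5 ∨ d = 6) with rfl | rfl | rfl | rfl | rfl | rfl
  · exact hoddcase (by decide)
  · by_cases hplus : IsPlusTypeOn Q W
    · by_cases hq : 4 ≤ Fintype.card F
      · exact Or.inr (Or.inr (Or.inr (Or.inl ⟨hq, W, hd, hnd, hplus, hkey⟩)))
      · obtain ⟨x, hx, hxle⟩ := Cfsg.Agent.Helper20.o12_plus_plane_small (by omega) Q hQ W hd hnd hplus
        have hle' : H ≤ subspaceStabilizer (Submodule.span F {x}) :=
          fun h hh => hxle ⟨le_iso hH hh, hle hh⟩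
        have hN' := Cfsg.Agent.Helper76.o12_notOmega_subspace Q hQ (by rw [card12]; norm_num) _
          (span_ne_bot hx hQ) (span_ne_top x)
        have hkey' := key hH hle' hN'
        by_cases h2 : (2 : F) = 0
        · exact Or.inr (Or.inr (Or.inr (Or.inr (Or.inr (Or.inr (Or.inl
            ⟨not_odd_of_two_eq_zero h2, x, hx, hkey'⟩))))))
        · have hx0 : x ≠ 0 := by
            rintro rfl
            exact hx (q_zero hQ)
          refine Or.inr (Or.inl ⟨odd_of_two_ne_zero h2, _, span_ne_bot hx hQ, span_ne_top x, ?_, ?_,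
            ?_, hkey'⟩)
          · rw [finrank_span_singleton hx0]
            exact odd_one
          · rw [finrank_span_singleton hx0]
            norm_num
          · intro w hw hw0
            obtain ⟨c, rfl⟩ := Submodule.mem_span_singleton.mp hw
            have hc : c ≠ 0 := by
              rintro rfl
              exact hw0 (zero_smul _ _)
            have hxx : QuadraticMap.polar Q x x ≠ 0 := by
              rw [Helper97.polar_self Q hQ]
              exact mul_ne_zero h2 hx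
            refine ⟨⟨x, Submodule.mem_span_singleton_self x, ?_⟩,
              ⟨x, Submodule.mem_span_singleton_self x, ?_⟩⟩
            · rw [hQ.polar_bilinear.smul_right]
              exact mul_ne_zero hc hxx
            · rw [hQ.polar_bilinear.smul_left]
              exact mul_ne_zero hc hxx
    · exact Or.inr (Or.inr (Or.inl ⟨W, hd, hnd, hplus, hkey⟩))
  · exact hoddcase (by decide)
  · exact Or.inr (Or.inr (Or.inr (Or.inr (Or.inl ⟨W, hd, hnd, hkey⟩))))
  · exact hoddcase (by decide)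
  · exact Or.inr (Or.inr (Or.inr (Or.inr (Or.inr (Or.inl ⟨W, hd, hnd, hkey⟩)))))

theorem decomp_card {t k : ℕ} (D : Fin t → Submodule F (Fin 12 → F)) (hD : IsMDecomposition k D) :
    t * k = 12 := by
  classical
  have hint := DirectSum.isInternal_submodule_of_iSupIndep_of_iSup_eq_top hD.indep hD.iSup_eq_top
  have e := LinearEquiv.ofBijective (DirectSum.coeLinearMap D) hint
  have h1 := e.finrank_eq
  rw [Module.finrank_directSum, Module.finrank_fintype_fun_eq_card, card12] at h1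
  rw [← h1]
  simp [hD.finrank_eq]

include hQ hminus hH in
/-- A non-degenerate decomposition permuted by the (irreducible) group. -/
theorem decomp_case (hirr : ActsIrreducibly (matrixSet H)) {t k : ℕ}
    (D : Fin t → Submodule F (Fin 12 → F))
    (hD : IsNondegenerateMDecomposition (QuadraticMap.polar Q) k D)
    (hle : H ≤ decompositionStabilizer D) : Goal12 Q H := by
  classical
  have hO : IsOrthogonalMDecomposition Q k D :=
    ⟨hD, fun i j => Helper94.OA.decomp_iso H hirr (le_iso hH) D hD.decomp hle i j⟩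
  have htk := decomp_card D hD.decomp
  have ht2 := hD.decomp.two_le
  have hk := hD.decomp.pos
  have ht12 : t ≤ 12 := Nat.le_of_dvd (by norm_num) ⟨k, htk.symm⟩
  have hcases : (t = 2 ∧ k = 6) ∨ (t = 3 ∧ k = 4) ∨ (t = 4 ∧ k = 3) ∨ (t = 6 ∧ k = 2) ∨
      (t = 12 ∧ k = 1) := by
    interval_cases t <;> omega
  rcases hcases with ⟨rfl, rfl⟩ | ⟨rfl, rfl⟩ | ⟨rfl, rfl⟩ | ⟨rfl, rfl⟩ | ⟨rfl, rfl⟩
  · exact absurd (Cfsg.Agent.Helper14.o12_decomp_plus Q hQ D hO (by decide) (by decide)) hminus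
  · exact Or.inr (Or.inr (Or.inr (Or.inr (Or.inr (Or.inr (Or.inr (Or.inl
      ⟨D, hO, fun i hp => hminus (Cfsg.Agent.Helper14.o12_decomp_plus_of_block Q hQ D hO i hp),
        key hH hle (Cfsg.Agent.Helper66.o12_notOmega_decomp Q hQ (by rw [card12]; norm_num) (by norm_num) D hD)⟩)))))))
  · exact absurd (Cfsg.Agent.Helper14.o12_decomp_plus Q hQ D hO (by decide) (by decide)) hminus
  · exact absurd (Cfsg.Agent.Helper14.o12_decomp_plus Q hQ D hO (by decide) (by decide)) hminus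
  · exact absurd (Cfsg.Agent.Helper14.o12_decomp_plus Q hQ D hO (by decide) (by decide)) hminus

include hQ hH in
/-- A field of prime degree normalised by the group. -/
theorem field_case {r : ℕ} (K : Subalgebra F (Matrix (Fin 12) (Fin 12) F)) (hr : r.Prime)
    (hK : IsFieldSubalgebra r K) (hle : H ≤ subalgebraNormalizer K) : Goal12 Q H := by
  classical
  have hdvd : r ∣ 12 := by
    have := (Helper97.finrank_dvd_of_division K hK.inv).1
    rwa [hK.finrank_eq] at this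
  have hr12 : r ≤ 12 := Nat.le_of_dvd (by norm_num) hdvd
  have hcases : r = 2 ∨ r = 3 := by
    interval_cases r <;> first | omega | (exact absurd hr (by decide))
  rcases hcases with rfl | rfl
  · exact Or.inr (Or.inr (Or.inr (Or.inr (Or.inr (Or.inr (Or.inr (Or.inr (Or.inl
      ⟨K, hK, key hH hle (Cfsg.Agent.Helper66.o12_notOmega_field Q hQ (by norm_num) (by rw [card12]; norm_num) K hK)⟩))))))))
  · exact Or.inr (Or.inr (Or.inr (Or.inr (Or.inr (Or.inr (Or.inr (Or.inr (Or.inr (Or.inl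
      ⟨K, hK, key hH hle (Cfsg.Agent.Helper66.o12_notOmega_field Q hQ (by norm_num) (by rw [card12]; norm_num) K hK)⟩)))))))))

include hQ hminus hH in
/-- The tensor case `3 ⊗ 4`. -/
theorem tensor34_case (h2 : (2 : F) ≠ 0) (hirr : ActsIrreducibly (matrixSet H))
    (e : Fin 12 ≃ Fin 3 × Fin 4) (P : GL (Fin 12) F)
    (f₁ : (Fin 3 → F) → (Fin 3 → F) → F) (f₂ : (Fin 4 → F) → (Fin 4 → F) → F)
    (hf₁ : IsSymmetricForm f₁) (hf₂ : IsSymmetricForm f₂)
    (hT : IsTensorFormStructure id (QuadraticMap.polar Q) f₁ f₂ e P)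
    (hle : H ≤ tensorProductSubgroup 3 4 e P) : Goal12 Q H := by
  classical
  by_cases hp : IsPlusTypeOn (fun v : Fin 4 → F => f₂ v v) ⊤
  · exfalso
    apply hminus
    obtain ⟨U, -, hU, hdim⟩ := hp
    have hU' : ∀ u ∈ U, f₂ u u = 0 := hU
    have hdim' : 2 * Module.finrank F U = 4 := by
      rw [hdim, finrank_top, Module.finrank_fin_fun]
    obtain ⟨c, hc, hpt⟩ := Cfsg.Agent.Helper74.o12_tensor_pure (QuadraticMap.polar Q) e P f₁ f₂
      hf₁.bilinear hf₂.bilinear hT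
    refine Cfsg.Agent.Helper52.o12_tensor_plus Q hQ e P f₁ f₂ hf₁.bilinear hf₂.bilinear hT U ?_ hdim' ?_
    · intro u hu v hv
      have h1 := hU' (u + v) (U.add_mem hu hv)
      rw [hf₂.bilinear.add_left, hf₂.bilinear.add_right, hf₂.bilinear.add_right, hU' u hu, hU' v hv,
        hf₂.symm v u] at h1
      have h3 : (2 : F) * f₂ u v = 0 := by linear_combination h1
      exact (mul_eq_zero.mp h3).resolve_left h2
    · intro s y hy
      apply q_of_polar hQ h2
      rw [hpt, hU' y hy, mul_zero, mul_zero]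
  · by_cases hq : 5 ≤ Fintype.card F
    · exact Or.inr (Or.inr (Or.inr (Or.inr (Or.inr (Or.inr (Or.inr (Or.inr (Or.inr (Or.inr (Or.inl
        ⟨odd_of_two_ne_zero h2, hq, e, P, f₁, f₂, hf₁, hf₂, hp, hT,
          key hH hle (Cfsg.Agent.Helper2.o12_notOmega_tensor Q hQ (by norm_num) (by norm_num) e P)⟩))))))))))
    · have hq3 : Fintype.card F = 3 := by
        have h1 := odd_of_two_ne_zero h2
        have h3 := Fintype.one_lt_card (α := F)
        rw [Nat.odd_iff] at h1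
        omega
      obtain ⟨D, hD, hDle⟩ := Cfsg.Agent.Helper33.o12_tensor_three_q3 hq3 Q hQ e P f₁ f₂ hf₁ hf₂ hT (by norm_num)
      exact decomp_case hQ hminus hH hirr D hD (fun h hh => hDle ⟨le_iso hH hh, hle hh⟩)

include hQ hminus hH in
/-- The tensor case `2 ⊗ 6`. -/
theorem tensor26_case (h2 : (2 : F) ≠ 0)
    (e : Fin 12 ≃ Fin 2 × Fin 6) (P : GL (Fin 12) F)
    (f₁ : (Fin 2 → F) → (Fin 2 → F) → F) (f₂ : (Fin 6 → F) → (Fin 6 → F) → F)
    (hf₁ : IsSymmetricForm f₁) (hf₂ : IsSymmetricForm f₂)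
    (hT : IsTensorFormStructure id (QuadraticMap.polar Q) f₁ f₂ e P)
    (hle : H ≤ tensorProductSubgroup 2 6 e P) : Goal12 Q H := by
  classical
  by_cases haniso : ∀ s : Fin 2 → F, f₁ s s = 0 → s = 0
  · obtain ⟨K, hK, hKn⟩ := Cfsg.Agent.Helper88.o12_tensor_two_field h2 (QuadraticMap.polar Q) (polar_symmetric hQ)
      e P f₁ f₂ hf₁ hf₂ hT (by norm_num) haniso
    have hle' : H ≤ subalgebraNormalizer K :=
      fun h hh => hKn h (hle hh) (fun u v => polar_fix (h_iso hH h hh) u v)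
    exact Or.inr (Or.inr (Or.inr (Or.inr (Or.inr (Or.inr (Or.inr (Or.inr (Or.inl
      ⟨K, hK, key hH hle' (Cfsg.Agent.Helper66.o12_notOmega_field Q hQ (by norm_num) (by rw [card12]; norm_num) K hK)⟩))))))))
  · exfalso
    apply hminus
    push Not at haniso
    obtain ⟨s, hs, hs0⟩ := haniso
    obtain ⟨hT', -⟩ := Cfsg.Agent.Helper20.o12_tensor_swap (QuadraticMap.polar Q) e P f₁ f₂ hT
    obtain ⟨c, hc, hpt⟩ := Cfsg.Agent.Helper74.o12_tensor_pure (QuadraticMap.polar Q)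
      (e.trans (Equiv.prodComm (Fin 2) (Fin 6))) P f₂ f₁ hf₂.bilinear hf₁.bilinear hT'
    have hss : ∀ y ∈ Submodule.span F {s}, f₁ y y = 0 := by
      intro y hy
      obtain ⟨a, rfl⟩ := Submodule.mem_span_singleton.mp hy
      rw [hf₁.bilinear.smul_left, hf₁.bilinear.smul_right, hs, mul_zero, mul_zero]
    refine Cfsg.Agent.Helper52.o12_tensor_plus Q hQ (e.trans (Equiv.prodComm (Fin 2) (Fin 6))) P f₂ f₁ hf₂.bilinear
      hf₁.bilinear hT' (Submodule.span F {s}) ?_ ?_ ?_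
    · intro u hu v hv
      obtain ⟨a, rfl⟩ := Submodule.mem_span_singleton.mp hu
      obtain ⟨b, rfl⟩ := Submodule.mem_span_singleton.mp hv
      rw [hf₁.bilinear.smul_left, hf₁.bilinear.smul_right, hs, mul_zero, mul_zero]
    · rw [finrank_span_singleton hs0]
    · intro s' y hy
      apply q_of_polar hQ h2
      rw [hpt, hss y hy, mul_zero, mul_zero]

include hQ hminus hH in
/-- The tensor case. -/
theorem tensor_case (h2 : (2 : F) ≠ 0) (hirr : ActsIrreducibly (matrixSet H)) {n₁ n₂ : ℕ}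
    (e : Fin 12 ≃ Fin n₁ × Fin n₂) (P : GL (Fin 12) F)
    (f₁ : (Fin n₁ → F) → (Fin n₁ → F) → F) (f₂ : (Fin n₂ → F) → (Fin n₂ → F) → F)
    (h1 : 2 ≤ n₁) (h2' : 2 ≤ n₂)
    (hf₁ : IsSymmetricForm f₁) (hf₂ : IsSymmetricForm f₂)
    (hT : IsTensorFormStructure id (QuadraticMap.polar Q) f₁ f₂ e P)
    (hle : H ≤ tensorProductSubgroup n₁ n₂ e P) : Goal12 Q H := by
  classical
  have hcard : n₁ * n₂ = 12 := by
    have := Fintype.card_congr e
    simpa using this.symm
  have hn12 : n₁ ≤ 12 := Nat.le_of_dvd (by norm_num) ⟨n₂, hcard.symm⟩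
  have hcases : (n₁ = 2 ∧ n₂ = 6) ∨ (n₁ = 3 ∧ n₂ = 4) ∨ (n₁ = 4 ∧ n₂ = 3) ∨ (n₁ = 6 ∧ n₂ = 2) := by
    interval_cases n₁ <;> omega
  obtain ⟨hT', heq⟩ := Cfsg.Agent.Helper20.o12_tensor_swap (QuadraticMap.polar Q) e P f₁ f₂ hT
  rcases hcases with ⟨rfl, rfl⟩ | ⟨rfl, rfl⟩ | ⟨rfl, rfl⟩ | ⟨rfl, rfl⟩
  · exact tensor26_case hQ hminus hH h2 e P f₁ f₂ hf₁ hf₂ hT hle
  · exact tensor34_case hQ hminus hH h2 hirr e P f₁ f₂ hf₁ hf₂ hT hle
  · exact tensor34_case hQ hminus hH h2 hirr _ P f₂ f₁ hf₂ hf₁ hT' (heq ▸ hle)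
  · exact tensor26_case hQ hminus hH h2 _ P f₂ f₁ hf₂ hf₁ hT' (heq ▸ hle)

include hQ hminus hH in
/-- The subfield case. -/
theorem subfield_case (F₁ : Subfield F) (r : ℕ) (P : GL (Fin 12) F) (ζ : F) (hr : r.Prime)
    (hcard : Fintype.card F = Nat.card F₁ ^ r) (hζ : ζ ≠ 0)
    (hrat : IsQuadFormRationalStructure (fun v : Fin 12 → F => ζ * Q v) F₁ P)
    (hle : H ≤ subfieldSubgroup F₁ P) : Goal12 Q H := by
  classical
  by_cases hr2 : r = 2
  · subst hr2
    exact absurd (Cfsg.Agent.Helper30.o12_subfield_two_plus Q hQ F₁ hcard P ζ hζ hrat (by rw [card12]; decide)) hminus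
  · have hodd : Odd r := hr.eq_two_or_odd'.resolve_left hr2
    have hF₁ : F₁ ≠ ⊤ := by
      rintro rfl
      have h1 : Nat.card (⊤ : Subfield F) = Fintype.card F := by
        rw [← Nat.card_eq_fintype_card]
        exact Nat.card_congr Subfield.topEquiv.toEquiv
      rw [h1] at hcard
      have h3 := Fintype.one_lt_card (α := F)
      have h4 : Fintype.card F ^ 1 < Fintype.card F ^ r := Nat.pow_lt_pow_right h3 hr.one_lt
      rw [pow_one] at h4
      omega
    exact Or.inr (Or.inr (Or.inr (Or.inr (Or.inr (Or.inr (Or.inr (Or.inr (Or.inr (Or.inr (Or.inr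
      (Or.inl ⟨F₁, r, P, ζ, hr, hodd, hcard, hζ, hrat,
        key hH hle (Cfsg.Agent.Helper81.o12_notOmega_subfield Q hQ (by rw [card12]; norm_num) F₁ hF₁ P)⟩)))))))))))

include hQ hminus hH in
/-- The maximal subgroups of `Ω_12^-(q)`. -/
theorem row12 : Goal12 Q H := by
  classical
  rcases o_core (by norm_num) Q hQ H (h_iso hH) with
    ⟨W, hW0, hts, hle⟩ | ⟨h2, v, hv, hle⟩ | ⟨W, W', hW0, hW'0, hnd, hnd', horth, hinf, hsup, hle, hle'⟩ |
    ⟨hirr, t, k, D, hD, hle⟩ | ⟨r, K, hr, hK, hle⟩ | hplus |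
    ⟨h2, hirr, n₁, n₂, e, P, f₁, f₂, h1, h2', hf₁, hf₂, hT, hle⟩ |
    ⟨F₁, r, P, ζ, hr, hcard, hζ, hrat, hle⟩ | hres | ⟨r, j, -, hr, hrj, -⟩ |
    ⟨d, t, -, -, -, -, -, -, hd, ht, hdt, -⟩
  · -- totally singular subspace
    have hW1 : W ≠ ⊤ := by
      rintro rfl
      obtain ⟨⟨x, hx⟩, -⟩ := hQ.nondegenerate (Pi.single 0 1) (by
        intro h
        have := congrFun h 0
        simp at this)
      apply hx
      simp only [QuadraticMap.polar]
      rw [hts _ Submodule.mem_top, hts _ Submodule.mem_top, hts _ Submodule.mem_top]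
      ring
    exact Or.inl ⟨W, hW0, hts, key hH hle
      (Cfsg.Agent.Helper76.o12_notOmega_subspace Q hQ (by rw [card12]; norm_num) W hW0 hW1)⟩
  · -- non-singular vector, characteristic two
    exact Or.inr (Or.inr (Or.inr (Or.inr (Or.inr (Or.inr (Or.inl
      ⟨not_odd_of_two_eq_zero h2, v, hv, key hH hle
        (Cfsg.Agent.Helper76.o12_notOmega_subspace Q hQ (by rw [card12]; norm_num) _
          (span_ne_bot hv hQ) (span_ne_top v))⟩))))))
  · -- orthogonal pair
    have hsum : Module.finrank F W + Module.finrank F W' = 12 := by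
      have := Submodule.finrank_sup_add_finrank_inf_eq W W'
      rw [hsup, hinf, finrank_bot, finrank_top12] at this
      omega
    have hW1 : W ≠ ⊤ := by
      rintro rfl
      rw [top_inf_eq] at hinf
      exact hW'0 hinf
    have hW'1 : W' ≠ ⊤ := by
      rintro rfl
      rw [inf_top_eq] at hinf
      exact hW0 hinf
    by_cases h6 : Module.finrank F W ≤ 6
    · exact sub_case hQ hminus hH W hW0 hW1 hnd hle h6
    · exact sub_case hQ hminus hH W' hW'0 hW'1 hnd' hle' (by omega)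
  · exact decomp_case hQ hminus hH hirr D hD hle
  · exact field_case hQ hH K hr hK hle
  · exact absurd hplus hminus
  · exact tensor_case hQ hminus hH h2 hirr e P f₁ f₂ h1 h2' hf₁ hf₂ hT hle
  · exact subfield_case hQ hminus hH F₁ r P ζ hr hcard hζ hrat hle
  · exact Or.inr (Or.inr (Or.inr (Or.inr (Or.inr (Or.inr (Or.inr (Or.inr (Or.inr (Or.inr (Or.inr
      (Or.inr hres)))))))))))
  · exfalso
    have h2 : 2 ∣ r ^ j := ⟨72, by rw [← hrj]⟩
    have h3 : 3 ∣ r ^ j := ⟨48, by rw [← hrj]⟩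
    have h2' := (Nat.prime_dvd_prime_iff_eq Nat.prime_two hr).mp (Nat.Prime.dvd_of_dvd_pow Nat.prime_two h2)
    have h3' := (Nat.prime_dvd_prime_iff_eq Nat.prime_three hr).mp (Nat.Prime.dvd_of_dvd_pow Nat.prime_three h3)
    omega
  · exfalso
    have h1 : d ^ 2 ≤ d ^ t := Nat.pow_le_pow_right (by omega) ht
    have hd3 : d ≤ 3 := by
      by_contra hcon
      have : 4 ^ 2 ≤ d ^ 2 := Nat.pow_le_pow_left (by omega) 2
      omega
    have ht4 : t < 4 := by
      by_contra hcon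
      have h4 : 2 ^ 4 ≤ d ^ t := (Nat.pow_le_pow_left hd 4).trans (Nat.pow_le_pow_right (by omega) (by omega))
      omega
    interval_cases d <;> interval_cases t <;> omega

end

end Cfsg.Agent.Helper95.O12
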