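import Mathlib
import Cfsg.Prelude.Def_RootSubgroups

/-!
# Baer–Suzuki for unipotent linear groups (relative version)

`uFil C H i` is the ascending "fixed points modulo" filtration of a subgroup `H ≤ GL(M)`
relative to a subspace `C`.  `H` is unipotent modulo `C` when `uFil C H n = ⊤` for some `n`.
Main result: `unip_family`.
-/

set_option autoImplicit false

namespace Cfsg.Agent.Helper95

section UnipBS

variable {k : Type*} [Field k] {M : Type*} [AddCommGroup M] [Module k M]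

/-- ascending filtration: `uFil C H 0 = C`, `uFil C H (i+1) = {v | ∀ h ∈ H, h v - v ∈ uFil C H i}`. -/
def uFil (C : Submodule k M) (H : Subgroup (LinearMap.GeneralLinearGroup k M)) : ℕ → Submodule k M
  | 0 => C
  | (i+1) => ⨅ h ∈ H, (uFil C H i).comap ((h : M →ₗ[k] M) - 1)

lemma mem_uFil_zero {C : Submodule k M} {H : Subgroup (LinearMap.GeneralLinearGroup k M)} {v : M} :
    v ∈ uFil C H 0 ↔ v ∈ C := Iff.rfl

lemma mem_uFil_succ {C : Submodule k M} {H : Subgroup (LinearMap.GeneralLinearGroup k M)} {i : ℕ} {v : M} :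
    v ∈ uFil C H (i+1) ↔ ∀ h ∈ H, h • v - v ∈ uFil C H i := by
  simp only [uFil, Submodule.mem_iInf, Submodule.mem_comap, LinearMap.sub_apply, Module.End.one_apply]
  rfl

lemma uFil_le_succ {C : Submodule k M} {H : Subgroup (LinearMap.GeneralLinearGroup k M)}
    (hC : ∀ h ∈ H, ∀ c ∈ C, h • c ∈ C) (i : ℕ) : uFil C H i ≤ uFil C H (i+1) := by
  induction i with
  | zero =>
    intro v hv
    rw [mem_uFil_succ]
    intro h hh
    exact C.sub_mem (hC h hh v hv) hv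
  | succ i ih =>
    intro v hv
    rw [mem_uFil_succ] at hv ⊢
    intro h hh
    exact ih (hv h hh)

lemma uFil_monotone {C : Submodule k M} {H : Subgroup (LinearMap.GeneralLinearGroup k M)}
    (hC : ∀ h ∈ H, ∀ c ∈ C, h • c ∈ C) : Monotone (uFil C H) :=
  monotone_nat_of_le_succ (uFil_le_succ hC)

lemma uFil_mono_base {C C' : Submodule k M} (hCC : C ≤ C')
    (H : Subgroup (LinearMap.GeneralLinearGroup k M)) (i : ℕ) : uFil C H i ≤ uFil C' H i := by
  induction i with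
  | zero => exact hCC
  | succ i ih =>
    intro v hv
    rw [mem_uFil_succ] at hv ⊢
    intro h hh
    exact ih (hv h hh)

lemma uFil_anti_group {H H' : Subgroup (LinearMap.GeneralLinearGroup k M)} (hHH : H ≤ H')
    (C : Submodule k M) (i : ℕ) : uFil C H' i ≤ uFil C H i := by
  induction i with
  | zero => exact le_rfl
  | succ i ih =>
    intro v hv
    rw [mem_uFil_succ] at hv ⊢
    intro h hh
    exact ih (hv h (hHH hh))

lemma uFil_shift {C X : Submodule k M} {H : Subgroup (LinearMap.GeneralLinearGroup k M)}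
    (hX : ∀ h ∈ H, ∀ x ∈ X, h • x - x ∈ C) (i : ℕ) : uFil X H i ≤ uFil C H (i+1) := by
  induction i with
  | zero =>
    intro v hv
    rw [mem_uFil_succ]
    intro h hh
    exact hX h hh v hv
  | succ i ih =>
    intro v hv
    rw [mem_uFil_succ] at hv ⊢
    intro h hh
    exact ih (hv h hh)

/-- a group unipotent modulo `C` stabilising `Y ⊄ C` has a vector of `Y ∖ C` fixed modulo `C`. -/
lemma exists_fixed_mod {C : Submodule k M} {H : Subgroup (LinearMap.GeneralLinearGroup k M)}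
    {n : ℕ} (hn : uFil C H n = ⊤) (Y : Submodule k M)
    (hY : ∀ h ∈ H, ∀ y ∈ Y, h • y ∈ Y) (hYC : ¬ Y ≤ C) :
    ∃ v ∈ Y, v ∉ C ∧ ∀ h ∈ H, h • v - v ∈ C := by
  have key : ∀ i : ℕ, ∀ y ∈ Y, y ∈ uFil C H i → y ∉ C →
      ∃ v ∈ Y, v ∉ C ∧ ∀ h ∈ H, h • v - v ∈ C := by
    intro i
    induction i with
    | zero =>
      intro y _ hy hyC
      exact absurd hy hyC
    | succ i ih =>
      intro y hyY hy hyC
      by_cases hall : ∀ h ∈ H, h • y - y ∈ C
      · exact ⟨y, hyY, hyC, hall⟩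
      · push Not at hall
        obtain ⟨h, hh, hne⟩ := hall
        exact ih (h • y - y) (Y.sub_mem (hY h hh y hyY) hyY) (mem_uFil_succ.1 hy h hh) hne
  obtain ⟨y, hyY, hyC⟩ := SetLike.not_le_iff_exists.1 hYC
  exact key n y hyY (hn ▸ Submodule.mem_top) hyC

/-- the product of the endomorphisms `g - 1`, `g ∈ l`. -/
def opProd (l : List (LinearMap.GeneralLinearGroup k M)) : M →ₗ[k] M :=
  (List.map (fun g : LinearMap.GeneralLinearGroup k M => (g : M →ₗ[k] M) - 1) l).prod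

lemma opProd_eq (l : List (LinearMap.GeneralLinearGroup k M)) :
    (l.map fun g => (g : M →ₗ[k] M) - 1).prod = opProd l := by
  unfold opProd
  congr 1
  induction l with
  | nil => rfl
  | cons a l ih => simp_all

lemma opProd_nil (v : M) : opProd ([] : List (LinearMap.GeneralLinearGroup k M)) v = v := by
  simp [opProd]

lemma opProd_concat (L : List (LinearMap.GeneralLinearGroup k M))
    (b : LinearMap.GeneralLinearGroup k M) (v : M) :
    opProd (L ++ [b]) v = opProd L (b • v - v) := by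
  simp only [opProd, List.map_append, List.prod_append, List.map_cons, List.map_nil,
    List.prod_cons, List.prod_nil, mul_one, Module.End.mul_apply, LinearMap.sub_apply,
    Module.End.one_apply]
  rfl

lemma uFil_bot_iff_list (H : Subgroup (LinearMap.GeneralLinearGroup k M)) (n : ℕ) :
    ∀ v : M, v ∈ uFil (⊥ : Submodule k M) H n ↔
      ∀ l : List (LinearMap.GeneralLinearGroup k M), (∀ g ∈ l, g ∈ H) → l.length = n →
        opProd l v = 0 := by
  induction n with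
  | zero =>
    intro v
    rw [mem_uFil_zero, Submodule.mem_bot]
    constructor
    · intro hv l _ hl
      rw [List.length_eq_zero_iff] at hl
      subst hl
      rw [opProd_nil]
      exact hv
    · intro h
      have := h [] (by simp) rfl
      rwa [opProd_nil] at this
  | succ n ih =>
    intro v
    rw [mem_uFil_succ]
    constructor
    · intro h l hl hlen
      rcases List.eq_nil_or_concat l with rfl | ⟨L, b, rfl⟩
      · simp at hlen
      · rw [List.concat_eq_append] at hl hlen ⊢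
        have hb : b ∈ H := hl b (by simp)
        have hL : ∀ g ∈ L, g ∈ H := fun g hg => hl g (by simp [hg])
        have hLlen : L.length = n := by simpa using hlen
        rw [opProd_concat]
        exact (ih (b • v - v)).1 (h b hb) L hL hLlen
    · intro h b hb
      rw [ih]
      intro L hL hLlen
      have := h (L ++ [b]) (by
        intro g hg
        rcases List.mem_append.1 hg with hg | hg
        · exact hL g hg
        · rw [List.mem_singleton] at hg; exact hg ▸ hb) (by simp [hLlen])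
      rwa [opProd_concat] at this

lemma isUnipotentOn_iff (H : Subgroup (LinearMap.GeneralLinearGroup k M)) :
    Cfsg.IsUnipotentOn H ↔ ∃ n : ℕ, uFil (⊥ : Submodule k M) H n = ⊤ := by
  unfold Cfsg.IsUnipotentOn
  refine exists_congr fun n => ?_
  rw [Submodule.eq_top_iff']
  constructor
  · intro h v
    rw [uFil_bot_iff_list]
    intro l hl hlen
    rw [← opProd_eq, h l hl hlen]
    rfl
  · intro h l hl hlen
    rw [opProd_eq]
    ext v
    exact (uFil_bot_iff_list H n v).1 (h v) l hl hlen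

/-- the elements stabilising `C` and acting trivially on `X` modulo `C`. -/
def trivSubgroup (C X : Submodule k M) : Subgroup (LinearMap.GeneralLinearGroup k M) where
  carrier := {g | (∀ c ∈ C, g • c ∈ C ∧ g⁻¹ • c ∈ C) ∧ (∀ x ∈ X, g • x - x ∈ C ∧ g⁻¹ • x - x ∈ C)}
  one_mem' := by
    refine ⟨fun c hc => ?_, fun x _ => ?_⟩
    · simpa using hc
    · simp
  mul_mem' := by
    rintro g h ⟨hg1, hg2⟩ ⟨hh1, hh2⟩
    refine ⟨fun c hc => ⟨?_, ?_⟩, fun x hx => ⟨?_, ?_⟩⟩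
    · rw [mul_smul]; exact (hg1 _ (hh1 c hc).1).1
    · rw [mul_inv_rev, mul_smul]; exact (hh1 _ (hg1 c hc).2).2
    · have : (g * h) • x - x = g • (h • x - x) + (g • x - x) := by
        rw [mul_smul, smul_sub]; abel
      rw [this]
      exact C.add_mem (hg1 _ (hh2 x hx).1).1 (hg2 x hx).1
    · have : (g * h)⁻¹ • x - x = h⁻¹ • (g⁻¹ • x - x) + (h⁻¹ • x - x) := by
        rw [mul_inv_rev, mul_smul, smul_sub]; abel
      rw [this]
      exact C.add_mem (hh1 _ (hg2 x hx).2).2 (hh2 x hx).2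
  inv_mem' := by
    rintro g ⟨hg1, hg2⟩
    refine ⟨fun c hc => ⟨(hg1 c hc).2, ?_⟩, fun x hx => ⟨(hg2 x hx).2, ?_⟩⟩
    · rw [inv_inv]; exact (hg1 c hc).1
    · rw [inv_inv]; exact (hg2 x hx).1

lemma mem_trivSubgroup {C X : Submodule k M} {g : LinearMap.GeneralLinearGroup k M} :
    g ∈ trivSubgroup C X ↔
      (∀ c ∈ C, g • c ∈ C ∧ g⁻¹ • c ∈ C) ∧ (∀ x ∈ X, g • x - x ∈ C ∧ g⁻¹ • x - x ∈ C) := Iff.rfl

lemma le_trivSubgroup {C X : Submodule k M} {A : Subgroup (LinearMap.GeneralLinearGroup k M)}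
    (h1 : ∀ a ∈ A, ∀ c ∈ C, a • c ∈ C) (h2 : ∀ a ∈ A, ∀ x ∈ X, a • x - x ∈ C) :
    A ≤ trivSubgroup C X := fun a ha =>
  ⟨fun c hc => ⟨h1 a ha c hc, h1 a⁻¹ (inv_mem ha) c hc⟩,
   fun x hx => ⟨h2 a ha x hx, h2 a⁻¹ (inv_mem ha) x hx⟩⟩

/-- a subgroup all of whose elements map `Y` into `Y` lies in the "stabiliser" `trivSubgroup Y ⊥`. -/
lemma le_stabSubgroup {Y : Submodule k M} {A : Subgroup (LinearMap.GeneralLinearGroup k M)}
    (h1 : ∀ a ∈ A, ∀ y ∈ Y, a • y ∈ Y) : A ≤ trivSubgroup Y ⊥ :=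
  le_trivSubgroup h1 (fun a _ x hx => by
    rw [Submodule.mem_bot] at hx
    subst hx
    simp)

/-- elements shifting a monotone filtration `V` down by `j` steps. -/
def shiftSubgroup (V : ℕ → Submodule k M) (hV : Monotone V) (j : ℕ) :
    Subgroup (LinearMap.GeneralLinearGroup k M) where
  carrier := {g | ∀ i : ℕ, ∀ v ∈ V (i + j), g • v - v ∈ V i ∧ g⁻¹ • v - v ∈ V i}
  one_mem' := by
    intro i v _
    simp
  mul_mem' := by
    intro g h hg hh i v hv
    have hle : V i ≤ V (i + j) := hV (Nat.le_add_right i j)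
    have hgv : g⁻¹ • v ∈ V (i + j) := by
      have : g⁻¹ • v = (g⁻¹ • v - v) + v := by abel
      rw [this]; exact add_mem (hle (hg i v hv).2) hv
    have hhv : h • v ∈ V (i + j) := by
      have : h • v = (h • v - v) + v := by abel
      rw [this]; exact add_mem (hle (hh i v hv).1) hv
    constructor
    · have : (g * h) • v - v = (g • (h • v) - h • v) + (h • v - v) := by
        rw [mul_smul]; abel
      rw [this]
      exact add_mem (hg i _ hhv).1 (hh i v hv).1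
    · have : (g * h)⁻¹ • v - v = (h⁻¹ • (g⁻¹ • v) - g⁻¹ • v) + (g⁻¹ • v - v) := by
        rw [mul_inv_rev, mul_smul]; abel
      rw [this]
      exact add_mem (hh i _ hgv).2 (hg i v hv).2
  inv_mem' := by
    intro g hg i v hv
    refine ⟨(hg i v hv).2, ?_⟩
    rw [inv_inv]; exact (hg i v hv).1

lemma mem_shiftSubgroup {V : ℕ → Submodule k M} {hV : Monotone V} {j : ℕ}
    {g : LinearMap.GeneralLinearGroup k M} :
    g ∈ shiftSubgroup V hV j ↔ ∀ i : ℕ, ∀ v ∈ V (i + j), g • v - v ∈ V i ∧ g⁻¹ • v - v ∈ V i :=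
  Iff.rfl

lemma shift_smul_mem {V : ℕ → Submodule k M} {hV : Monotone V} {j : ℕ}
    {g : LinearMap.GeneralLinearGroup k M} (hg : g ∈ shiftSubgroup V hV j) {m : ℕ} {v : M}
    (hv : v ∈ V m) : g • v ∈ V m := by
  have h1 : g • v - v ∈ V m := (hg m v (hV (Nat.le_add_right m j) hv)).1
  have : g • v = (g • v - v) + v := by abel
  rw [this]; exact add_mem h1 hv

lemma shift_comm_sub_mem {V : ℕ → Submodule k M} {hV : Monotone V} {a b : ℕ}
    {g u : LinearMap.GeneralLinearGroup k M} (hg : g ∈ shiftSubgroup V hV a)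
    (hu : u ∈ shiftSubgroup V hV b) (i : ℕ) {v : M} (hv : v ∈ V (i + (a + b))) :
    (g * u * g⁻¹ * u⁻¹) • v - v ∈ V i := by
  set w : M := g⁻¹ • u⁻¹ • v with hw
  have hwV : w ∈ V (i + (a + b)) :=
    shift_smul_mem (inv_mem hg) (shift_smul_mem (inv_mem hu) hv)
  have hv' : v = u • g • w := by rw [hw]; simp
  have h1 : (g * u * g⁻¹ * u⁻¹) • v = g • u • w := by rw [hw]; simp [mul_smul]
  have h2 : (g * u * g⁻¹ * u⁻¹) • v - v
      = (g • (u • w - w) - (u • w - w)) - (u • (g • w - w) - (g • w - w)) := by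
    have h3 : (g * u * g⁻¹ * u⁻¹) • v - v = g • u • w - u • g • w := by
      rw [h1, ← hv']
    rw [h3]
    simp only [smul_sub]
    abel
  rw [h2]
  have hw1 : w ∈ V ((i + a) + b) := by rwa [Nat.add_assoc]
  have hw2 : w ∈ V ((i + b) + a) := by
    have : i + b + a = i + (a + b) := by omega
    rwa [this]
  exact sub_mem (hg i _ (hu (i + a) w hw1).1).1 (hu i _ (hg (i + b) w hw2).1).1

lemma shift_comm_mem {V : ℕ → Submodule k M} {hV : Monotone V} {a b : ℕ}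
    {g u : LinearMap.GeneralLinearGroup k M} (hg : g ∈ shiftSubgroup V hV a)
    (hu : u ∈ shiftSubgroup V hV b) : g * u * g⁻¹ * u⁻¹ ∈ shiftSubgroup V hV (a + b) := by
  intro i v hv
  refine ⟨shift_comm_sub_mem hg hu i hv, ?_⟩
  have e : (g * u * g⁻¹ * u⁻¹)⁻¹ = u * g * u⁻¹ * g⁻¹ := by group
  rw [e]
  have hv' : v ∈ V (i + (b + a)) := by rwa [Nat.add_comm b a]
  exact shift_comm_sub_mem hu hg i hv'

lemma shift_conj_mem {V : ℕ → Submodule k M} {hV : Monotone V} {j j' : ℕ}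
    {g s : LinearMap.GeneralLinearGroup k M} (hg : g ∈ shiftSubgroup V hV j')
    (hs : s ∈ shiftSubgroup V hV j) : g * s * g⁻¹ ∈ shiftSubgroup V hV j := by
  have key : ∀ s' ∈ shiftSubgroup V hV j, ∀ i : ℕ, ∀ v ∈ V (i + j),
      (g * s' * g⁻¹) • v - v ∈ V i := by
    intro s' hs' i v hv
    have h1 : g⁻¹ • v ∈ V (i + j) := shift_smul_mem (inv_mem hg) hv
    have h2 : (g * s' * g⁻¹) • v - v = g • (s' • (g⁻¹ • v) - g⁻¹ • v) := by
      simp [mul_smul, smul_sub]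
    rw [h2]
    exact shift_smul_mem hg (hs' i _ h1).1
  intro i v hv
  refine ⟨key s hs i v hv, ?_⟩
  have e : (g * s * g⁻¹)⁻¹ = g * s⁻¹ * g⁻¹ := by group
  rw [e]
  exact key s⁻¹ (inv_mem hs) i v hv

/-- vectors fixed modulo `C` by all members of the family `S`. -/
def fixMod (C : Submodule k M) (S : Set (Subgroup (LinearMap.GeneralLinearGroup k M))) :
    Submodule k M := ⨅ A ∈ S, uFil C A 1

lemma mem_fixMod {C : Submodule k M} {S : Set (Subgroup (LinearMap.GeneralLinearGroup k M))}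
    {v : M} : v ∈ fixMod C S ↔ ∀ A ∈ S, ∀ a ∈ A, a • v - v ∈ C := by
  simp only [fixMod, Submodule.mem_iInf, mem_uFil_succ, mem_uFil_zero]

/-- members of `𝒰` acting trivially on `X` modulo `C`. -/
def trivOn (C : Submodule k M) (𝒰 : Set (Subgroup (LinearMap.GeneralLinearGroup k M)))
    (X : Submodule k M) : Set (Subgroup (LinearMap.GeneralLinearGroup k M)) :=
  {A | A ∈ 𝒰 ∧ ∀ a ∈ A, ∀ x ∈ X, a • x - x ∈ C}

lemma fixMod_anti {C : Submodule k M} {S S' : Set (Subgroup (LinearMap.GeneralLinearGroup k M))}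
    (h : S ⊆ S') : fixMod C S' ≤ fixMod C S := by
  intro v hv
  rw [mem_fixMod] at hv ⊢
  exact fun A hA => hv A (h hA)

lemma trivOn_anti {C : Submodule k M} {𝒰 : Set (Subgroup (LinearMap.GeneralLinearGroup k M))}
    {X X' : Submodule k M} (h : X ≤ X') : trivOn C 𝒰 X' ⊆ trivOn C 𝒰 X :=
  fun _ hA => ⟨hA.1, fun a ha x hx => hA.2 a ha x (h hx)⟩

lemma trivOn_subset {C : Submodule k M} {𝒰 : Set (Subgroup (LinearMap.GeneralLinearGroup k M))}
    {X : Submodule k M} : trivOn C 𝒰 X ⊆ 𝒰 := fun _ hA => hA.1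

lemma le_fixMod_trivOn {C : Submodule k M}
    {𝒰 : Set (Subgroup (LinearMap.GeneralLinearGroup k M))} {X : Submodule k M} :
    X ≤ fixMod C (trivOn C 𝒰 X) := by
  intro x hx
  rw [mem_fixMod]
  exact fun A hA a ha => hA.2 a ha x hx

lemma subset_trivOn_fixMod {C : Submodule k M}
    {𝒰 S : Set (Subgroup (LinearMap.GeneralLinearGroup k M))} (hS : S ⊆ 𝒰) :
    S ⊆ trivOn C 𝒰 (fixMod C S) :=
  fun A hA => ⟨hS hA, fun a ha _ hx => mem_fixMod.1 hx A hA a ha⟩

lemma fixMod_union {C : Submodule k M}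
    {S S' : Set (Subgroup (LinearMap.GeneralLinearGroup k M))} :
    fixMod C (S ∪ S') = fixMod C S ⊓ fixMod C S' := by
  ext v
  simp only [mem_fixMod, Submodule.mem_inf, Set.mem_union]
  constructor
  · intro h
    exact ⟨fun A hA => h A (Or.inl hA), fun A hA => h A (Or.inr hA)⟩
  · rintro ⟨h1, h2⟩ A (hA | hA)
    · exact h1 A hA
    · exact h2 A hA

/-- the standing hypotheses on a family of subgroups relative to `C`. -/
structure Fam (C : Submodule k M) (𝒰 : Set (Subgroup (LinearMap.GeneralLinearGroup k M))) :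
    Prop where
  stab : ∀ A ∈ 𝒰, ∀ a ∈ A, ∀ c ∈ C, a • c ∈ C
  conj : ∀ A ∈ 𝒰, ∀ B ∈ 𝒰, ∀ b ∈ B, Cfsg.conjBy A b ∈ 𝒰
  pair : ∀ A ∈ 𝒰, ∀ B ∈ 𝒰, ∃ n : ℕ, uFil C (A ⊔ B) n = ⊤

lemma mem_conjBy_iff {A : Subgroup (LinearMap.GeneralLinearGroup k M)}
    {b x : LinearMap.GeneralLinearGroup k M} :
    x ∈ Cfsg.conjBy A b ↔ ∃ a ∈ A, b * a * b⁻¹ = x := by
  simp [Cfsg.conjBy, Subgroup.mem_map]

lemma Fam.base_le_fixMod {C : Submodule k M}
    {𝒰 S : Set (Subgroup (LinearMap.GeneralLinearGroup k M))} (hF : Fam C 𝒰) (hS : S ⊆ 𝒰) :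
    C ≤ fixMod C S := by
  intro c hc
  rw [mem_fixMod]
  exact fun A hA a ha => C.sub_mem (hF.stab A (hS hA) a ha c hc) hc

lemma Fam.trivOn {C : Submodule k M} {𝒰 : Set (Subgroup (LinearMap.GeneralLinearGroup k M))}
    (hF : Fam C 𝒰) {X : Submodule k M} (hCX : C ≤ X) : Fam X (trivOn C 𝒰 X) where
  stab := by
    intro A hA a ha x hx
    have : a • x = (a • x - x) + x := by abel
    rw [this]
    exact X.add_mem (hCX (hA.2 a ha x hx)) hx
  conj := by
    intro A hA B hB b hb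
    refine ⟨hF.conj A hA.1 B hB.1 b hb, ?_⟩
    intro a' ha' x hx
    obtain ⟨a, ha, rfl⟩ := mem_conjBy_iff.1 ha'
    have hy : b⁻¹ • x ∈ X := by
      have : b⁻¹ • x = (b⁻¹ • x - x) + x := by abel
      rw [this]
      exact X.add_mem (hCX (hB.2 b⁻¹ (inv_mem hb) x hx)) hx
    have h2 : (b * a * b⁻¹) • x - x = b • (a • (b⁻¹ • x) - b⁻¹ • x) := by
      simp [mul_smul, smul_sub]
    rw [h2]
    exact hF.stab B hB.1 b hb _ (hA.2 a ha _ hy)
  pair := by
    intro A hA B hB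
    obtain ⟨n, hn⟩ := hF.pair A hA.1 B hB.1
    exact ⟨n, top_le_iff.1 (hn ▸ uFil_mono_base hCX (A ⊔ B) n)⟩

lemma Fam.iSup_le_triv {C : Submodule k M}
    {𝒰 : Set (Subgroup (LinearMap.GeneralLinearGroup k M))} (hF : Fam C 𝒰) (X : Submodule k M) :
    (⨆ A ∈ Helper95.trivOn C 𝒰 X, A) ≤ trivSubgroup C X :=
  iSup₂_le fun A hA => le_trivSubgroup (hF.stab A hA.1) hA.2

/-- `X` is closed: it properly contains `C` and equals the fixed space of the members trivial on it. -/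
def IsClosedSp (C : Submodule k M) (𝒰 : Set (Subgroup (LinearMap.GeneralLinearGroup k M)))
    (X : Submodule k M) : Prop := C < X ∧ fixMod C (trivOn C 𝒰 X) ≤ X

/-- a minimal closed subspace. -/
def IsMinClosed (C : Submodule k M) (𝒰 : Set (Subgroup (LinearMap.GeneralLinearGroup k M)))
    (X : Submodule k M) : Prop :=
  IsClosedSp C 𝒰 X ∧ ∀ X', IsClosedSp C 𝒰 X' → X' ≤ X → X' = X

lemma Fam.closed_fixMod {C : Submodule k M}
    {𝒰 S : Set (Subgroup (LinearMap.GeneralLinearGroup k M))} (hF : Fam C 𝒰) (hS : S ⊆ 𝒰)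
    (h : ¬ fixMod C S ≤ C) : IsClosedSp C 𝒰 (fixMod C S) :=
  ⟨lt_of_le_not_ge (hF.base_le_fixMod hS) h, fixMod_anti (subset_trivOn_fixMod hS)⟩

lemma exists_minClosed_le [FiniteDimensional k M] {C : Submodule k M}
    {𝒰 : Set (Subgroup (LinearMap.GeneralLinearGroup k M))} {X : Submodule k M}
    (hX : IsClosedSp C 𝒰 X) : ∃ R, IsMinClosed C 𝒰 R ∧ R ≤ X := by
  obtain ⟨R, ⟨hR1, hR2⟩, hmin⟩ := (wellFounded_lt (α := Submodule k M)).has_min
    {X' | IsClosedSp C 𝒰 X' ∧ X' ≤ X} ⟨X, hX, le_rfl⟩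
  refine ⟨R, ⟨hR1, fun X' hX' hle => ?_⟩, hR2⟩
  by_contra hne
  exact hmin X' ⟨hX', hle.trans hR2⟩ (lt_of_le_of_ne hle hne)

lemma Fam.minClosed_inf {C : Submodule k M}
    {𝒰 S : Set (Subgroup (LinearMap.GeneralLinearGroup k M))} (hF : Fam C 𝒰)
    {X : Submodule k M} (hX : IsMinClosed C 𝒰 X) (hS : S ⊆ 𝒰) :
    X ≤ fixMod C S ∨ X ⊓ fixMod C S ≤ C := by
  have hZ : fixMod C (Helper95.trivOn C 𝒰 X ∪ S) = X ⊓ fixMod C S := by
    rw [fixMod_union]
    congr 1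
    exact le_antisymm hX.1.2 le_fixMod_trivOn
  by_cases h : fixMod C (Helper95.trivOn C 𝒰 X ∪ S) ≤ C
  · right; rw [← hZ]; exact h
  · left
    have hcl := hF.closed_fixMod (Set.union_subset trivOn_subset hS) h
    have := hX.2 _ hcl (by rw [hZ]; exact inf_le_left)
    rw [hZ] at this
    exact inf_eq_left.1 this

/-- the induction hypothesis: the theorem holds relative to every strictly larger subspace. -/
def IHyp (C : Submodule k M) : Prop :=
  ∀ C' : Submodule k M, C < C' →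
    ∀ 𝒰' : Set (Subgroup (LinearMap.GeneralLinearGroup k M)), Fam C' 𝒰' →
      ∃ n : ℕ, uFil C' (⨆ A ∈ 𝒰', A) n = ⊤

lemma Fam.unip_trivOn {C : Submodule k M}
    {𝒰 : Set (Subgroup (LinearMap.GeneralLinearGroup k M))} (hF : Fam C 𝒰) (IH : IHyp C)
    {X : Submodule k M} (hCX : C < X) :
    ∃ n : ℕ, uFil C (⨆ A ∈ Helper95.trivOn C 𝒰 X, A) n = ⊤ := by
  obtain ⟨n, hn⟩ := IH X hCX _ (hF.trivOn hCX.le)
  exact ⟨n + 1, top_le_iff.1
    (hn ▸ uFil_shift (fun h hh x hx => ((hF.iSup_le_triv X hh).2 x hx).1) n)⟩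

/-- "normaliser growth": some member trivial on `X` but not on the closed `Y ⊇ X` stabilises `Y`. -/
lemma Fam.exists_normalizing {C : Submodule k M}
    {𝒰 : Set (Subgroup (LinearMap.GeneralLinearGroup k M))} (hF : Fam C 𝒰)
    {X Y : Submodule k M} (hCX : C ≤ X) {n : ℕ}
    (hn : uFil C (⨆ A ∈ Helper95.trivOn C 𝒰 X, A) n = ⊤) (hXY : X ≤ Y)
    (hYcl : fixMod C (Helper95.trivOn C 𝒰 Y) ≤ Y)
    (hne : ¬ Helper95.trivOn C 𝒰 X ⊆ Helper95.trivOn C 𝒰 Y) :
    ∃ A ∈ Helper95.trivOn C 𝒰 X, A ∉ Helper95.trivOn C 𝒰 Y ∧ ∀ a ∈ A, ∀ y ∈ Y, a • y ∈ Y := by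
  set U := ⨆ A ∈ Helper95.trivOn C 𝒰 X, A with hU
  set D := ⨆ B ∈ Helper95.trivOn C 𝒰 Y, B with hD
  have hUt : U ≤ trivSubgroup C X := hF.iSup_le_triv X
  have hUC : ∀ h ∈ U, ∀ c ∈ C, h • c ∈ C := fun h hh c hc => ((hUt hh).1 c hc).1
  have hV : Monotone (uFil C U) := uFil_monotone hUC
  have hU1 : U ≤ shiftSubgroup (uFil C U) hV 1 := by
    intro u hu i v hv
    exact ⟨mem_uFil_succ.1 hv u hu, mem_uFil_succ.1 hv u⁻¹ (inv_mem hu)⟩
  have hAU : ∀ A ∈ Helper95.trivOn C 𝒰 X, A ≤ U := fun A hA => le_iSup₂_of_le A hA le_rfl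
  have hBD : ∀ B ∈ Helper95.trivOn C 𝒰 Y, B ≤ D := fun B hB => le_iSup₂_of_le B hB le_rfl
  have hDU : D ≤ U := iSup₂_le fun B hB => hAU B (trivOn_anti hXY hB)
  have hDt : D ≤ trivSubgroup C Y := hF.iSup_le_triv Y
  have hn' : uFil C U (n + 1) = ⊤ := top_le_iff.1 (hn ▸ uFil_le_succ hUC n)
  let Near : ℕ → LinearMap.GeneralLinearGroup k M → Prop :=
    fun j a => ∃ d ∈ D, d⁻¹ * a ∈ shiftSubgroup (uFil C U) hV j
  let P : ℕ → Prop := fun j =>
    ∃ A ∈ Helper95.trivOn C 𝒰 X, A ∉ Helper95.trivOn C 𝒰 Y ∧ ∀ a ∈ A, Near j a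
  have hP1 : P 1 := by
    obtain ⟨A, hAX, hAY⟩ := Set.not_subset.1 hne
    exact ⟨A, hAX, hAY, fun a ha => ⟨1, one_mem _, by simpa using hU1 (hAU A hAX ha)⟩⟩
  have hPn : ¬ P (n + 1) := by
    rintro ⟨A, hAX, hAY, hnear⟩
    apply hAY
    refine ⟨hAX.1, fun a ha y hy => ?_⟩
    obtain ⟨d, hd, hs⟩ := hnear a ha
    have h1 : (d⁻¹ * a) • y - y ∈ C :=
      (hs 0 y (by rw [Nat.zero_add, hn']; exact Submodule.mem_top)).1
    have h2 : a • y - y = d • ((d⁻¹ * a) • y - y) + (d • y - y) := by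
      simp [mul_smul, smul_sub]
    rw [h2]
    exact C.add_mem (hUC d (hDU hd) _ h1) ((hDt hd).2 y hy).1
  obtain ⟨j, hPj, hPj1⟩ : ∃ j, P j ∧ ¬ P (j + 1) := by
    by_contra hcon
    push Not at hcon
    have : ∀ m, 1 ≤ m → P m := fun m hm => Nat.le_induction hP1 (fun j _ hj => hcon j hj) m hm
    exact hPn (this (n + 1) (Nat.le_add_left 1 n))
  obtain ⟨A, hAX, hAY, hnear⟩ := hPj
  refine ⟨A, hAX, hAY, fun a ha y hy => hYcl ?_⟩
  rw [mem_fixMod]
  intro B hB b hb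
  have hB' : Cfsg.conjBy B a⁻¹ ∈ Helper95.trivOn C 𝒰 Y := by
    by_contra hcon
    apply hPj1
    refine ⟨Cfsg.conjBy B a⁻¹,
      (hF.trivOn hCX).conj B (trivOn_anti hXY hB) A hAX a⁻¹ (inv_mem ha), hcon, ?_⟩
    intro x hx
    obtain ⟨b', hb', rfl⟩ := mem_conjBy_iff.1 hx
    obtain ⟨d, hd, hs⟩ := hnear a⁻¹ (inv_mem ha)
    have hb'D : b' ∈ D := hBD B hB hb'
    refine ⟨d * b' * d⁻¹, mul_mem (mul_mem hd hb'D) (inv_mem hd), ?_⟩
    have e : (d * b' * d⁻¹)⁻¹ * (a⁻¹ * b' * a⁻¹⁻¹)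
        = d * (b'⁻¹ * (d⁻¹ * a⁻¹) * b'⁻¹⁻¹ * (d⁻¹ * a⁻¹)⁻¹) * d⁻¹ := by group
    rw [e]
    have hc := shift_comm_mem (hU1 (hDU (inv_mem hb'D))) hs
    rw [Nat.add_comm] at hc
    exact shift_conj_mem (hU1 (hDU hd)) hc
  have h1 : (a⁻¹ * b * a) • y - y ∈ C :=
    hB'.2 (a⁻¹ * b * a) (mem_conjBy_iff.2 ⟨b, hb, by simp⟩) y hy
  have h2 : b • a • y - a • y = a • ((a⁻¹ * b * a) • y - y) := by
    simp [mul_smul, smul_sub]
  rw [h2]
  exact hF.stab A hAX.1 a ha _ h1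

/-- the heart of the argument: the members of the family have a common fixed vector modulo `C`. -/
lemma Fam.exists_common_fixed [FiniteDimensional k M] {C : Submodule k M}
    {𝒰 : Set (Subgroup (LinearMap.GeneralLinearGroup k M))} (hF : Fam C 𝒰) (IH : IHyp C)
    (hC : C ≠ ⊤) : ¬ fixMod C 𝒰 ≤ C := by
  intro hfix
  have hne𝒰 : 𝒰.Nonempty := by
    by_contra h
    rw [Set.not_nonempty_iff_eq_empty] at h
    apply hC
    rw [eq_top_iff]
    intro v _
    apply hfix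
    rw [mem_fixMod, h]
    intro A hA
    exact absurd hA (Set.notMem_empty A)
  have hmem : ∀ A ∈ 𝒰, ¬ fixMod C {A} ≤ C := by
    intro A hA hle
    obtain ⟨n, hn⟩ := hF.pair A hA A hA
    rw [sup_idem] at hn
    obtain ⟨v, -, hvC, hv⟩ := exists_fixed_mod hn ⊤ (fun _ _ _ _ => Submodule.mem_top)
      (fun h => hC (top_le_iff.1 h))
    refine hvC (hle (mem_fixMod.2 (fun B hB a ha => ?_)))
    rw [Set.mem_singleton_iff] at hB
    subst hB
    exact hv a ha
  have hmin : ∀ A ∈ 𝒰, ∃ R, IsMinClosed C 𝒰 R ∧ R ≤ fixMod C {A} := fun A hA =>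
    exists_minClosed_le (hF.closed_fixMod (Set.singleton_subset_iff.2 hA) (hmem A hA))
  obtain ⟨A₀, hA₀⟩ := hne𝒰
  obtain ⟨X₀, hX₀, hX₀le⟩ := hmin A₀ hA₀
  have h0 : ¬ X₀ ≤ fixMod C 𝒰 := fun h =>
    (lt_irrefl C) (lt_of_lt_of_le hX₀.1.1 (h.trans hfix))
  obtain ⟨v, hvX, hvF⟩ := SetLike.not_le_iff_exists.1 h0
  rw [mem_fixMod] at hvF
  push Not at hvF
  obtain ⟨A₁, hA₁, a₁, ha₁, hav⟩ := hvF
  obtain ⟨X₁, hX₁, hX₁le⟩ := hmin A₁ hA₁
  have hX01 : X₀ ≠ X₁ := by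
    rintro rfl
    exact hav (mem_fixMod.1 (hX₁le hvX) A₁ rfl a₁ ha₁)
  obtain ⟨d₀, ⟨X, X', hX, hX', hXX', rfl⟩, hdmin⟩ := Nat.lt_wfRel.wf.has_min
    {d | ∃ X X', IsMinClosed C 𝒰 X ∧ IsMinClosed C 𝒰 X' ∧ X ≠ X' ∧
      Module.finrank k (fixMod C (Helper95.trivOn C 𝒰 X ∩ Helper95.trivOn C 𝒰 X')) = d}
    ⟨_, X₀, X₁, hX₀, hX₁, hX01, rfl⟩
  set Y := fixMod C (Helper95.trivOn C 𝒰 X ∩ Helper95.trivOn C 𝒰 X') with hY
  have hXY : X ≤ Y := le_fixMod_trivOn.trans (fixMod_anti Set.inter_subset_left)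
  have hX'Y : X' ≤ Y := le_fixMod_trivOn.trans (fixMod_anti Set.inter_subset_right)
  have hYeq : Helper95.trivOn C 𝒰 Y = Helper95.trivOn C 𝒰 X ∩ Helper95.trivOn C 𝒰 X' := by
    apply Set.Subset.antisymm
    · exact Set.subset_inter (trivOn_anti hXY) (trivOn_anti hX'Y)
    · exact subset_trivOn_fixMod (Set.inter_subset_left.trans trivOn_subset)
  have hYcl : fixMod C (Helper95.trivOn C 𝒰 Y) ≤ Y := by rw [hYeq]
  have hne1 : ¬ Helper95.trivOn C 𝒰 X ⊆ Helper95.trivOn C 𝒰 Y := by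
    intro h
    apply hXX'
    have h1 : X' ≤ X :=
      le_fixMod_trivOn.trans ((fixMod_anti (h.trans (trivOn_anti hX'Y))).trans hX.1.2)
    exact (hX.2 X' hX'.1 h1).symm
  have hne2 : ¬ Helper95.trivOn C 𝒰 X' ⊆ Helper95.trivOn C 𝒰 Y := by
    intro h
    apply hXX'
    have h1 : X ≤ X' :=
      le_fixMod_trivOn.trans ((fixMod_anti (h.trans (trivOn_anti hXY))).trans hX'.1.2)
    exact hX'.2 X hX.1 h1
  obtain ⟨n, hn⟩ := hF.unip_trivOn IH hX.1.1
  obtain ⟨n', hn'⟩ := hF.unip_trivOn IH hX'.1.1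
  obtain ⟨A, hAX, hAY, hAst⟩ := hF.exists_normalizing hX.1.1.le hn hXY hYcl hne1
  obtain ⟨A', hA'X, hA'Y, hA'st⟩ := hF.exists_normalizing hX'.1.1.le hn' hX'Y hYcl hne2
  obtain ⟨m, hm⟩ := hF.pair A hAX.1 A' hA'X.1
  have hst : ∀ h ∈ A ⊔ A', ∀ y ∈ Y, h • y ∈ Y := by
    have : A ⊔ A' ≤ trivSubgroup Y ⊥ := sup_le (le_stabSubgroup hAst) (le_stabSubgroup hA'st)
    exact fun h hh y hy => ((this hh).1 y hy).1
  have hYC : ¬ Y ≤ C := fun h => lt_irrefl C (lt_of_lt_of_le hX.1.1 (hXY.trans h))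
  obtain ⟨v, hvY, hvC, hvfix⟩ := exists_fixed_mod hm Y hst hYC
  have hS𝒰 : Helper95.trivOn C 𝒰 Y ∪ {A, A'} ⊆ 𝒰 := by
    rintro B (hB | hB | hB)
    · exact hB.1
    · rw [hB]; exact hAX.1
    · rw [Set.mem_singleton_iff] at hB; rw [hB]; exact hA'X.1
  have hvS : v ∈ fixMod C (Helper95.trivOn C 𝒰 Y ∪ {A, A'}) := by
    rw [mem_fixMod]
    rintro B (hB | hB | hB) b hb
    · exact hB.2 b hb v hvY
    · rw [hB] at hb; exact hvfix b (Subgroup.mem_sup_left hb)
    · rw [Set.mem_singleton_iff] at hB; rw [hB] at hb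
      exact hvfix b (Subgroup.mem_sup_right hb)
  have hSC : ¬ fixMod C (Helper95.trivOn C 𝒰 Y ∪ {A, A'}) ≤ C := fun h => hvC (h hvS)
  obtain ⟨R, hR, hRle⟩ := exists_minClosed_le (hF.closed_fixMod hS𝒰 hSC)
  have hSR : Helper95.trivOn C 𝒰 Y ∪ {A, A'} ⊆ Helper95.trivOn C 𝒰 R :=
    (subset_trivOn_fixMod hS𝒰).trans (trivOn_anti hRle)
  have key : ∀ X₂ A₂, IsMinClosed C 𝒰 X₂ → A₂ ∈ Helper95.trivOn C 𝒰 X₂ →
      A₂ ∉ Helper95.trivOn C 𝒰 Y → A₂ ∈ Helper95.trivOn C 𝒰 Y ∪ {A, A'} →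
      Helper95.trivOn C 𝒰 Y ⊆ Helper95.trivOn C 𝒰 X₂ → X₂ = R := by
    intro X₂ A₂ hX₂ hA₂X hA₂Y hA₂S hYX₂
    by_contra hneq
    have hsub : Helper95.trivOn C 𝒰 Y ∪ {A₂} ⊆
        Helper95.trivOn C 𝒰 X₂ ∩ Helper95.trivOn C 𝒰 R := by
      rintro B (hB | hB)
      · exact ⟨hYX₂ hB, hSR (Or.inl hB)⟩
      · rw [Set.mem_singleton_iff] at hB
        rw [hB]
        exact ⟨hA₂X, hSR hA₂S⟩
    have hle : fixMod C (Helper95.trivOn C 𝒰 X₂ ∩ Helper95.trivOn C 𝒰 R)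
        ≤ Y ⊓ fixMod C {A₂} := by
      refine (fixMod_anti hsub).trans ?_
      rw [fixMod_union]
      exact inf_le_inf_right _ hYcl
    have hlt : Y ⊓ fixMod C {A₂} < Y := by
      refine lt_of_le_of_ne inf_le_left (fun h => hA₂Y ⟨hA₂X.1, fun a ha y hy => ?_⟩)
      have : y ∈ fixMod C {A₂} := (inf_eq_left.1 h) hy
      exact mem_fixMod.1 this A₂ rfl a ha
    have := Submodule.finrank_lt_finrank_of_lt (lt_of_le_of_lt hle hlt)
    exact hdmin _ ⟨X₂, R, hX₂, hR, hneq, rfl⟩ this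
  have e1 := key X A hX hAX hAY (Or.inr (Or.inl rfl)) (trivOn_anti hXY)
  have e2 := key X' A' hX' hA'X hA'Y (Or.inr (Or.inr rfl)) (trivOn_anti hX'Y)
  exact hXX' (e1.trans e2.symm)

/-- **Baer–Suzuki for unipotent linear groups**, relative version: a family of subgroups of
`GL(M)` stabilising `C`, closed under conjugation by elements of its members and pairwise
generating subgroups that are unipotent modulo `C`, generates a subgroup unipotent modulo `C`. -/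
theorem unip_family [FiniteDimensional k M] : ∀ (m : ℕ) (C : Submodule k M),
    Module.finrank k M - Module.finrank k C = m →
    ∀ 𝒰 : Set (Subgroup (LinearMap.GeneralLinearGroup k M)), Fam C 𝒰 →
      ∃ n : ℕ, uFil C (⨆ A ∈ 𝒰, A) n = ⊤ := by
  intro m
  induction m using Nat.strong_induction_on with
  | _ m ih =>
    intro C hm 𝒰 hF
    by_cases hC : C = ⊤
    · exact ⟨0, hC⟩
    have IH : IHyp C := by
      intro C' hlt 𝒰' hF'
      have h1 := Submodule.finrank_lt_finrank_of_lt hlt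
      have h2 := Submodule.finrank_le C'
      exact ih (Module.finrank k M - Module.finrank k C') (by omega) C' rfl 𝒰' hF'
    have hfix := hF.exists_common_fixed IH hC
    have hlt : C < fixMod C 𝒰 := lt_of_le_not_ge (hF.base_le_fixMod subset_rfl) hfix
    have hF' : Fam (fixMod C 𝒰) 𝒰 := by
      refine ⟨?_, hF.conj, ?_⟩
      · intro A hA a ha x hx
        have : a • x = (a • x - x) + x := by abel
        rw [this]
        exact add_mem (hlt.le (mem_fixMod.1 hx A hA a ha)) hx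
      · intro A hA B hB
        obtain ⟨n, hn⟩ := hF.pair A hA B hB
        exact ⟨n, top_le_iff.1 (hn ▸ uFil_mono_base hlt.le (A ⊔ B) n)⟩
    obtain ⟨n, hn⟩ := IH _ hlt 𝒰 hF'
    refine ⟨n + 1, top_le_iff.1 (hn ▸ uFil_shift ?_ n)⟩
    have hle : (⨆ A ∈ 𝒰, A) ≤ trivSubgroup C (fixMod C 𝒰) :=
      iSup₂_le fun A hA =>
        le_trivSubgroup (hF.stab A hA) (fun a ha x hx => mem_fixMod.1 hx A hA a ha)
    exact fun h hh x hx => ((hle hh).2 x hx).1

end UnipBS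

end Cfsg.Agent.Helper95
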