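import Mathlib
import Cfsg.Prelude.Def_GeometricClasses
import Cfsg.Prelude.Def_Classical
import Cfsg.Agent.Helper58.TSDefs
import Cfsg.Agent.Helper43.PrimeOrdO3
import Cfsg.Agent.Helper33.OType
import Cfsg.Agent.Helper43.OTDefs
import Cfsg.Agent.Helper47.HTHTIB

set_option autoImplicit false

/-!
# Sub-CALL TB (helper43) of CALL TS, piece FULL (double by helper95)

`tb_full`: glue a standard plus/minus space of dimension `2 k₀` and defect `ε₀` to a block.
Self-contained: the level-1 facts it needs (polynomials in a product map, splitting of invariant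
subspaces, totally singular products, nondegeneracy of orthogonal sums) are proved here under the
names `tbf_*`.
-/

namespace Cfsg.Agent.Helper95.TB

open Module Polynomial Cfsg Cfsg.Geo Cfsg.Agent.Helper58.TS
open Cfsg.Agent.Helper43 Cfsg.Agent.Helper43.OrthEven Cfsg.Agent.Helper43.CycFactors
  Cfsg.Agent.Helper43.PrimeOrdMat
open scoped MatrixGroups

universe u

section lin

variable {F : Type*} [Field F] {Va Vb : Type*} [AddCommGroup Va] [Module F Va] [AddCommGroup Vb]
  [Module F Vb]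

/-- polynomials in a product map -/
theorem tbf_aeval_prod (Ta : Module.End F Va) (Tb : Module.End F Vb) (f : F[X]) :
    aeval (Ta.prodMap Tb) f = (aeval Ta f).prodMap (aeval Tb f) := by
  have h := Polynomial.aeval_algHom_apply (LinearMap.prodMapAlgHom F Va Vb) (Ta, Tb) f
  rw [Polynomial.aeval_prod_apply] at h
  exact h

/-- an invariant subspace is invariant under polynomials -/
theorem tbf_aeval_mem {V : Type*} [AddCommGroup V] [Module F V] (T : Module.End F V)
    (W : Submodule F V) (hW : W.map T ≤ W) (g : F[X]) : ∀ w ∈ W, aeval T g w ∈ W := by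
  induction g using Polynomial.induction_on with
  | C a =>
    intro w hw
    rw [aeval_C, Module.algebraMap_end_apply]
    exact W.smul_mem a hw
  | add p q hp hq =>
    intro w hw
    rw [map_add, LinearMap.add_apply]
    exact W.add_mem (hp w hw) (hq w hw)
  | monomial n a ih =>
    intro w hw
    rw [pow_succ, ← mul_assoc, map_mul, aeval_X, Module.End.mul_apply]
    exact ih _ (hW ⟨w, hw, rfl⟩)

/-- an invariant subspace of a product whose factors have coprime annihilating polynomials is a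
product -/
theorem tbf_split (Ta : Module.End F Va) (Tb : Module.End F Vb) (fa fb : F[X])
    (hcop : IsCoprime fa fb) (ha : aeval Ta fa = 0) (hb : aeval Tb fb = 0)
    (W : Submodule F (Va × Vb)) (hW : W.map (Ta.prodMap Tb) ≤ W) :
    ∃ (Ua : Submodule F Va) (Ub : Submodule F Vb), Ua.map Ta ≤ Ua ∧ Ub.map Tb ≤ Ub ∧
      W = Ua.prod Ub := by
  obtain ⟨u, v, huv⟩ := hcop
  have h1 : ∀ w ∈ W, ((w.1, 0) : Va × Vb) ∈ W := by
    intro w hw
    have h := tbf_aeval_mem (Ta.prodMap Tb) W hW (v * fb) w hw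
    rw [tbf_aeval_prod] at h
    have e1 : aeval Ta (v * fb) = 1 := by
      have : v * fb = 1 - u * fa := by rw [← huv]; ring
      rw [this, map_sub, map_one, map_mul, ha, mul_zero, sub_zero]
    have e2 : aeval Tb (v * fb) = 0 := by rw [map_mul, hb, mul_zero]
    rw [e1, e2] at h
    have e3 : ((1 : Module.End F Va).prodMap (0 : Module.End F Vb)) w = (w.1, 0) := rfl
    rw [e3] at h
    exact h
  have h2 : ∀ w ∈ W, ((0, w.2) : Va × Vb) ∈ W := by
    intro w hw
    have h := tbf_aeval_mem (Ta.prodMap Tb) W hW (u * fa) w hw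
    rw [tbf_aeval_prod] at h
    have e1 : aeval Tb (u * fa) = 1 := by
      have : u * fa = 1 - v * fb := by rw [← huv]; ring
      rw [this, map_sub, map_one, map_mul, hb, mul_zero, sub_zero]
    have e2 : aeval Ta (u * fa) = 0 := by rw [map_mul, ha, mul_zero]
    rw [e1, e2] at h
    have e3 : ((0 : Module.End F Va).prodMap (1 : Module.End F Vb)) w = (0, w.2) := rfl
    rw [e3] at h
    exact h
  refine ⟨W.map (LinearMap.fst F Va Vb), W.map (LinearMap.snd F Va Vb), ?_, ?_, ?_⟩
  · rintro _ ⟨_, ⟨w, hw, rfl⟩, rfl⟩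
    exact ⟨(Ta.prodMap Tb) w, hW ⟨w, hw, rfl⟩, rfl⟩
  · rintro _ ⟨_, ⟨w, hw, rfl⟩, rfl⟩
    exact ⟨(Ta.prodMap Tb) w, hW ⟨w, hw, rfl⟩, rfl⟩
  · ext ⟨x, y⟩
    constructor
    · intro h
      exact ⟨⟨(x, y), h, rfl⟩, ⟨(x, y), h, rfl⟩⟩
    · rintro ⟨⟨w, hw, hwx⟩, ⟨w', hw', hwy⟩⟩
      have h3 := W.add_mem (h1 w hw) (h2 w' hw')
      have hwx' : w.1 = x := hwx
      have hwy' : w'.2 = y := hwy
      rw [hwx', hwy'] at h3
      have e : ((x, 0) : Va × Vb) + (0, y) = (x, y) := by
        rw [Prod.mk_add_mk, add_zero, zero_add]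
      rw [e] at h3
      exact h3

/-- a totally singular product subspace -/
theorem tbf_prod_ts [FiniteDimensional F Va] [FiniteDimensional F Vb] (Qa : QuadraticForm F Va)
    (Qb : QuadraticForm F Vb) (Ua : Submodule F Va) (Ub : Submodule F Vb)
    (h : ∀ w ∈ Ua.prod Ub, (Qa.prod Qb) w = 0) :
    (∀ u ∈ Ua, Qa u = 0) ∧ (∀ u ∈ Ub, Qb u = 0) ∧
      finrank F ↥(Ua.prod Ub) = finrank F Ua + finrank F Ub := by
  refine ⟨?_, ?_, ?_⟩
  · intro u hu
    have := h (u, 0) ⟨hu, Ub.zero_mem⟩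
    simpa [QuadraticMap.prod_apply] using this
  · intro u hu
    have := h (0, u) ⟨Ua.zero_mem, hu⟩
    simpa [QuadraticMap.prod_apply] using this
  · have e : Ua.prod Ub = LinearMap.range (Ua.subtype.prodMap Ub.subtype) := by
      rw [LinearMap.range_prodMap, Submodule.range_subtype, Submodule.range_subtype]
    rw [e, LinearMap.finrank_range_of_inj, Module.finrank_prod]
    rw [LinearMap.coe_prodMap]
    exact Function.Injective.prodMap Ua.subtype_injective Ub.subtype_injective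

/-- the orthogonal sum of two spaces with nondegenerate polar forms -/
theorem tbf_prod_nd (Qa : QuadraticForm F Va) (Qb : QuadraticForm F Vb) (ha : PolarNondeg Qa)
    (hb : PolarNondeg Qb) : PolarNondeg (Qa.prod Qb) := by
  rintro ⟨a, b⟩ hv
  have h1 : a = 0 := ha a (fun w => by
    have := hv (w, 0)
    rw [QuadraticMap.polar_prod] at this
    simpa using this)
  have h2 : b = 0 := hb b (fun w => by
    have := hv (0, w)
    rw [QuadraticMap.polar_prod] at this
    simpa using this)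
  rw [h1, h2]
  rfl

/-- totally singular subspaces of a nondegenerate space have at most half the dimension -/
theorem tbf_ts_bound {V : Type*} [AddCommGroup V] [Module F V] [FiniteDimensional F V]
    (Q : QuadraticForm F V) (hnd : PolarNondeg Q) (U : Submodule F V) (hU : ∀ u ∈ U, Q u = 0) :
    2 * finrank F U ≤ finrank F V := by
  have h := Cfsg.Agent.Helper47.HT5953.ht_bound (RingHom.id F) (Cfsg.Agent.Helper43.OT.ph Q)
    (Cfsg.Agent.Helper43.OT.isHerm_ph Q) ⊤ U (fun v _ hv => hnd v (fun w => hv w trivial)) le_top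
    (fun u hu v hv => by
      show QuadraticMap.polar Q u v = 0
      unfold QuadraticMap.polar
      rw [hU _ (U.add_mem hu hv), hU u hu, hU v hv]
      simp)
  rwa [finrank_top] at h

/-- a monic quadratic without roots over a finite field -/
theorem tbf_exists_zeta (K : Type*) [Field K] [Finite K] :
    ∃ ζ : K, ∀ t : K, t ^ 2 + t + ζ ≠ 0 := by
  by_contra hcon
  push_neg at hcon
  have hsurj : Function.Surjective (fun t : K => t ^ 2 + t) := by
    intro y
    obtain ⟨t, ht⟩ := hcon (-y)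
    exact ⟨t, by show t ^ 2 + t = y; linear_combination ht⟩
  have hinj := Finite.injective_iff_surjective.2 hsurj
  have h1 : (fun t : K => t ^ 2 + t) 0 = (fun t : K => t ^ 2 + t) (-1) := by
    show (0 : K) ^ 2 + 0 = (-1) ^ 2 + (-1)
    ring
  have h2 := hinj h1
  have h3 : (1 : K) = 0 := by linear_combination h2
  exact one_ne_zero h3

end lin

section fin

variable {F : Type u} [Field F] [Fintype F]

/-- the standard space of dimension `2 k₀` and defect `ε₀` -/
theorem tbf_std (k₀ ε₀ : ℕ) (hε : ε₀ ≤ 1) (hεk : ε₀ ≤ k₀) :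
    ∃ (V₀ : Type u) (_ : AddCommGroup V₀) (_ : Module F V₀) (_ : FiniteDimensional F V₀)
      (Q₀ : QuadraticForm F V₀), PolarNondeg Q₀ ∧ finrank F V₀ = 2 * k₀ ∧
      (HasTS Q₀ k₀ ↔ ε₀ = 0) ∧
      ∀ U : Submodule F V₀, (∀ u ∈ U, Q₀ u = 0) → finrank F U + ε₀ ≤ k₀ := by
  classical
  rcases Nat.eq_zero_or_pos ε₀ with h0 | h1
  · subst h0
    have hdim : finrank F (Fin k₀ ⊕ Fin k₀ → F) = 2 * k₀ := by
      rw [Module.finrank_fintype_fun_eq_card, Fintype.card_sum, Fintype.card_fin]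
      omega
    have hnd : PolarNondeg (plusQF k₀ F) :=
      polarNondeg_of_nondegenerate _ (plusQF_nondeg k₀)
    refine ⟨(Fin k₀ ⊕ Fin k₀ → F), inferInstance, inferInstance, inferInstance, plusQF k₀ F,
      hnd, hdim, ?_, ?_⟩
    · simp only [iff_true]
      exact hasTS_plus k₀
    · intro U hU
      have := tbf_ts_bound (plusQF k₀ F) hnd U hU
      omega
  · have he : ε₀ = 1 := by omega
    subst he
    obtain ⟨ζ, hζ⟩ := tbf_exists_zeta F
    have hac : ∀ z₁ z₂ : F, z₁ ^ 2 + 1 * z₁ * z₂ + ζ * z₂ ^ 2 = 0 → z₁ = 0 ∧ z₂ = 0 :=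
      fun z₁ z₂ h => Cfsg.Agent.S2617.aniso ζ hζ z₁ z₂ h
    have hdim : finrank F ((Fin (k₀ - 1) ⊕ Fin (k₀ - 1)) ⊕ Fin 2 → F) = 2 * k₀ := by
      rw [Module.finrank_fintype_fun_eq_card, Fintype.card_sum, Fintype.card_sum, Fintype.card_fin,
        Fintype.card_fin]
      omega
    have hnd : PolarNondeg (minusQF (k₀ - 1) F 1 ζ) :=
      polarNondeg_of_nondegenerate _ (minusQF_nondeg (k₀ - 1) 1 ζ hac)
    have hno : ¬ HasTS (minusQF (k₀ - 1) F 1 ζ) k₀ := not_hasTS_minus hεk 1 ζ hac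
    refine ⟨((Fin (k₀ - 1) ⊕ Fin (k₀ - 1)) ⊕ Fin 2 → F), inferInstance, inferInstance,
      inferInstance, minusQF (k₀ - 1) F 1 ζ, hnd, hdim, ?_, ?_⟩
    · simp only [one_ne_zero, iff_false]
      exact hno
    · intro U hU
      by_contra hcon
      exact hno ⟨U, by omega, hU⟩

/-- FULL: glue a fixed space of dimension `2 k₀` and type defect `ε₀` to a block. -/
theorem tb_full (r : ℕ) [Fact r.Prime] (hrF : (r : F) ≠ 0) {V₁ : Type u} [AddCommGroup V₁]
    [Module F V₁] [FiniteDimensional F V₁] (Q₁ : QuadraticForm F V₁) (T₁ : Module.End F V₁)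
    (hnd : PolarNondeg Q₁) (hT : ∀ v, Q₁ (T₁ v) = Q₁ v) (hcyc : aeval T₁ (cyclotomic r F) = 0)
    (l : ℕ) (hl : 1 ≤ l) (hV₁ : finrank F V₁ = 2 * l) (k₀ ε₀ : ℕ) (hε : ε₀ ≤ 1) (hεk : ε₀ ≤ k₀) :
    ∃ (V' : Type u) (_ : AddCommGroup V') (_ : Module F V') (_ : FiniteDimensional F V')
      (Q' : QuadraticForm F V') (T : Module.End F V'),
      PolarNondeg Q' ∧ finrank F V' = 2 * (k₀ + l) ∧
      (HasTS Q' (k₀ + l) ↔ (ε₀ = 0 ↔ HasTS Q₁ l)) ∧ (∀ v, Q' (T v) = Q' v) ∧ T ^ r = 1 ∧ T ≠ 1 ∧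
      ∀ W : Submodule F V', W.map T ≤ W → (∀ w ∈ W, Q' w = 0) →
        ∃ (w : ℕ) (U₁ : Submodule F V₁), U₁.map T₁ ≤ U₁ ∧ (∀ u ∈ U₁, Q₁ u = 0) ∧ w + ε₀ ≤ k₀ ∧
          finrank F W = w + finrank F U₁ := by
  classical
  -- `T₁ ^ r = 1`
  have hT₁r : T₁ ^ r = 1 := by
    have h := congrArg (aeval T₁) (cyclotomic_prime_mul_X_sub_one F r)
    rw [map_mul, hcyc, zero_mul, map_sub, map_pow, aeval_X, map_one] at h
    exact (sub_eq_zero.1 h.symm)
  -- `T₁ ≠ 1`
  have hT₁ne : T₁ ≠ 1 := by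
    intro h1
    have hpos : 0 < finrank F V₁ := by omega
    obtain ⟨v, hv⟩ := (Module.finrank_pos_iff_exists_ne_zero (R := F) (M := V₁)).1 hpos
    have h2 : aeval (1 : Module.End F V₁) (cyclotomic r F) =
        algebraMap F (Module.End F V₁) ((cyclotomic r F).eval 1) := by
      have := Polynomial.aeval_algebraMap_apply_eq_algebraMap_eval (A := Module.End F V₁) (1 : F)
        (cyclotomic r F)
      rwa [map_one] at this
    rw [h1, h2, eval_one_cyclotomic_prime] at hcyc
    have h3 := congrArg (fun f : Module.End F V₁ => f v) hcyc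
    simp only [Module.algebraMap_end_apply, LinearMap.zero_apply] at h3
    rcases smul_eq_zero.1 h3 with h4 | h4
    · exact hrF h4
    · exact hv h4
  rcases Nat.eq_zero_or_pos k₀ with hk0 | hkpos
  · -- no fixed part
    subst hk0
    have he0 : ε₀ = 0 := by omega
    subst he0
    refine ⟨V₁, inferInstance, inferInstance, inferInstance, Q₁, T₁, hnd, by omega, ?_, hT, hT₁r,
      hT₁ne, ?_⟩
    · rw [Nat.zero_add]
      simp
    · intro W hW hW0
      exact ⟨0, W, hW, hW0, le_refl _, by omega⟩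
  · obtain ⟨V₀, _, _, _, Q₀, hnd₀, hdim₀, htype₀, hbd₀⟩ := tbf_std (F := F) k₀ ε₀ hε hεk
    refine ⟨V₀ × V₁, inferInstance, inferInstance, inferInstance, Q₀.prod Q₁,
      (1 : Module.End F V₀).prodMap T₁, tbf_prod_nd Q₀ Q₁ hnd₀ hnd, ?_, ?_, ?_, ?_, ?_, ?_⟩
    · rw [Module.finrank_prod, hdim₀, hV₁]
      ring
    · rw [Cfsg.Agent.Helper33.OType.hasTS_prod_iff hkpos hl hdim₀ hV₁ Q₀ Q₁ hnd₀ hnd, htype₀]
    · intro v
      rw [QuadraticMap.prod_apply, QuadraticMap.prod_apply]
      show Q₀ v.1 + Q₁ (T₁ v.2) = Q₀ v.1 + Q₁ v.2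
      rw [hT]
    · have h := tbf_aeval_prod (1 : Module.End F V₀) T₁ (X ^ r)
      rw [map_pow, map_pow, map_pow, aeval_X, aeval_X, aeval_X, hT₁r, one_pow] at h
      rw [h]
      exact LinearMap.prodMap_one
    · intro h1
      apply hT₁ne
      apply LinearMap.ext
      intro v
      have h2 := congrArg (fun f : Module.End F (V₀ × V₁) => (f (0, v)).2) h1
      exact h2
    · intro W hW hW0
      have hcop : IsCoprime (X - 1 : F[X]) (cyclotomic r F) := by
        have hirr : Irreducible (X - 1 : F[X]) := by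
          have := Polynomial.irreducible_X_sub_C (1 : F)
          rwa [map_one] at this
        exact (Irreducible.coprime_iff_not_dvd hirr).2
          (X_sub_one_not_dvd_cyclotomic (Fact.out : r.Prime) hrF)
      have ha : aeval (1 : Module.End F V₀) (X - 1 : F[X]) = 0 := by
        rw [map_sub, aeval_X, map_one, sub_self]
      obtain ⟨Ua, Ub, _, hUb, hWeq⟩ := tbf_split (1 : Module.End F V₀) T₁ (X - 1)
        (cyclotomic r F) hcop ha hcyc W hW
      subst hWeq
      obtain ⟨hUa0, hUb0, hfin⟩ := tbf_prod_ts Q₀ Q₁ Ua Ub hW0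
      exact ⟨finrank F Ua, Ub, hUb, hUb0, hbd₀ Ua hUa0, hfin⟩

end fin

end Cfsg.Agent.Helper95.TB
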