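import Mathlib

set_option autoImplicit false
set_option linter.style.haveILetI false

/-!
# A 2-transitivity criterion for a simple group of order 2520 on 15 points (helper95)
-/

namespace Cfsg.Agent.Helper95

open MulAction

/-- If an involution `t ∉ K` normalizes the subgroup `K`, then `2 * |K|` divides `|G|`. -/
theorem two_mul_card_dvd_of_involution {G : Type*} [Group G] [Finite G] (K : Subgroup G) (t : G)
    (ht2 : t * t = 1) (htK : t ∉ K) (aux : ∀ k ∈ K, t * k * t ∈ K) :
    2 * Nat.card K ∣ Nat.card G := by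
  haveI : Fact (Nat.Prime 2) := ⟨Nat.prime_two⟩
  have tinv : t⁻¹ = t := inv_eq_of_mul_eq_one_left ht2
  have htN : t ∈ Subgroup.normalizer (K : Set G) := by
    rw [Subgroup.mem_normalizer_iff]
    intro k
    rw [tinv]
    constructor
    · exact aux k
    · intro hk
      have h1 := aux _ hk
      have e : t * (t * k * t) * t = k := by
        calc t * (t * k * t) * t = (t * t) * k * (t * t) := by group
          _ = k := by rw [ht2, one_mul, mul_one]
      rwa [e] at h1
  haveI : (K.subgroupOf (Subgroup.normalizer (K : Set G))).Normal :=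
    Subgroup.normal_in_normalizer
  have hq2 : (QuotientGroup.mk (⟨t, htN⟩ : Subgroup.normalizer (K : Set G)) :
      Subgroup.normalizer (K : Set G) ⧸ K.subgroupOf (Subgroup.normalizer (K : Set G))) ^ 2
        = 1 := by
    rw [← QuotientGroup.mk_pow, QuotientGroup.eq_one_iff]
    have e1 : (⟨t, htN⟩ : Subgroup.normalizer (K : Set G)) ^ 2 = 1 := by
      apply Subtype.ext
      show t ^ 2 = 1
      rw [pow_two, ht2]
    rw [e1]
    exact one_mem _
  have hq1 : (QuotientGroup.mk (⟨t, htN⟩ : Subgroup.normalizer (K : Set G)) :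
      Subgroup.normalizer (K : Set G) ⧸ K.subgroupOf (Subgroup.normalizer (K : Set G))) ≠ 1 := by
    intro h
    rw [QuotientGroup.eq_one_iff, Subgroup.mem_subgroupOf] at h
    exact htK h
  have hord := orderOf_eq_prime hq2 hq1
  have hd : 2 ∣ K.relIndex (Subgroup.normalizer (K : Set G)) := by
    have h1 := orderOf_dvd_natCard (QuotientGroup.mk
      (⟨t, htN⟩ : Subgroup.normalizer (K : Set G)) :
      Subgroup.normalizer (K : Set G) ⧸ K.subgroupOf (Subgroup.normalizer (K : Set G)))
    rw [hord] at h1
    exact h1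
  have hrel : Nat.card K * K.relIndex (Subgroup.normalizer (K : Set G)) =
      Nat.card (Subgroup.normalizer (K : Set G)) := by
    have h1 := Subgroup.relIndex_mul_relIndex ⊥ K (Subgroup.normalizer (K : Set G)) bot_le
      Subgroup.le_normalizer
    rwa [Subgroup.relIndex_bot_left, Subgroup.relIndex_bot_left] at h1
  have hN : Nat.card (Subgroup.normalizer (K : Set G)) ∣ Nat.card G :=
    Subgroup.card_subgroup_dvd_card _
  have h2 : 2 * Nat.card K ∣ Nat.card (Subgroup.normalizer (K : Set G)) := by
    rw [← hrel, mul_comm]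
    exact Nat.mul_dvd_mul_left _ hd
  exact dvd_trans h2 hN

/-- A simple group of order `2520` acting on `15` points, in which no element of order `5` has a
fixed point and every element of order `7` has at most one, is `2`-transitive. -/
theorem twoTrans_2520_15 {G X : Type*} [Group G] [Finite G] [MulAction G X] [Finite X]
    [IsSimpleGroup G]
    (hG : Nat.card G = 2520) (hX : Nat.card X = 15)
    (h5 : ∀ g : G, orderOf g = 5 → ∀ x : X, g • x ≠ x)
    (h7 : ∀ g : G, orderOf g = 7 → ∀ x y : X, g • x = x → g • y = y → x = y) :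
    ∀ x y x' y' : X, x ≠ y → x' ≠ y' → ∃ g : G, g • x = x' ∧ g • y = y' := by
  classical
  haveI : Fact (Nat.Prime 5) := ⟨by norm_num⟩
  haveI : Fact (Nat.Prime 7) := ⟨by norm_num⟩
  haveI : Fact (Nat.Prime 2) := ⟨Nat.prime_two⟩
  obtain ⟨g5, hg5⟩ := exists_prime_orderOf_dvd_card' (G := G) 5 (by rw [hG]; norm_num)
  -- every orbit has at least 10 points
  have hidx : ∀ x : X, 10 ≤ (stabilizer G x).index := by
    intro x
    have hcm : Nat.card (stabilizer G x) * (stabilizer G x).index = 2520 := by
      rw [Subgroup.card_mul_index, hG]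
    have h5S : ¬ 5 ∣ Nat.card (stabilizer G x) := by
      intro hd
      obtain ⟨s, hs⟩ := exists_prime_orderOf_dvd_card' (G := stabilizer G x) 5 hd
      have h1 := h5 (s : G) (by rw [Subgroup.orderOf_coe]; exact hs) x
      exact h1 (mem_stabilizer_iff.mp s.2)
    have h7S : 7 ≤ (stabilizer G x).index := by
      by_contra hlt
      push Not at hlt
      have hker : (MulAction.toPermHom G (G ⧸ stabilizer G x)).ker = ⊥ := by
        rcases (MonoidHom.normal_ker
          (MulAction.toPermHom G (G ⧸ stabilizer G x))).eq_bot_or_eq_top with h | h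
        · exact h
        · exfalso
          rw [← Subgroup.normalCore_eq_ker] at h
          have htop : stabilizer G x = ⊤ :=
            top_le_iff.mp (h ▸ Subgroup.normalCore_le (stabilizer G x))
          have hmem : g5 ∈ stabilizer G x := by rw [htop]; trivial
          exact h5 g5 hg5 x (mem_stabilizer_iff.mp hmem)
      have hinj : Function.Injective (MulAction.toPermHom G (G ⧸ stabilizer G x)) :=
        (MonoidHom.ker_eq_bot_iff _).mp hker
      have hdvd := Subgroup.card_dvd_of_injective _ hinj
      rw [hG, Nat.card_perm] at hdvd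
      have h6 : (Nat.card (G ⧸ stabilizer G x)).factorial ∣ Nat.factorial 6 :=
        Nat.factorial_dvd_factorial (by
          show (stabilizer G x).index ≤ 6
          omega)
      have h720 := dvd_trans hdvd h6
      norm_num [Nat.factorial] at h720
    have h5i : 5 ∣ (stabilizer G x).index := by
      have h1 : 5 ∣ Nat.card (stabilizer G x) * (stabilizer G x).index := by
        rw [hcm]; norm_num
      exact ((Nat.Prime.dvd_mul (by norm_num)).mp h1).resolve_left h5S
    omega
  -- transitivity
  have htrans : ∀ x y : X, ∃ g : G, g • x = y := by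
    intro x y
    by_contra hne
    have hdisj : Disjoint (orbit G x) (orbit G y) := by
      rw [Set.disjoint_left]
      intro z hzx hzy
      apply hne
      obtain ⟨a, rfl⟩ := hzx
      obtain ⟨b, hb⟩ := hzy
      refine ⟨b⁻¹ * a, ?_⟩
      have hb' : b • y = a • x := hb
      rw [mul_smul, ← hb', inv_smul_smul]
    have h1 := hidx x
    have h2 := hidx y
    rw [index_stabilizer] at h1 h2
    have h3 : (orbit G x ∪ orbit G y).ncard = (orbit G x).ncard + (orbit G y).ncard :=
      Set.ncard_union_eq hdisj (Set.toFinite _) (Set.toFinite _)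
    have h4 : (orbit G x ∪ orbit G y).ncard ≤ Nat.card X := Set.ncard_le_card _
    omega
  have hstab : ∀ x : X, Nat.card (stabilizer G x) = 168 := by
    intro x
    haveI hpre : IsPretransitive G X := ⟨htrans⟩
    have h1 := index_stabilizer_of_transitive G x
    have h2 := Subgroup.card_mul_index (stabilizer G x)
    rw [h1, hX, hG] at h2
    omega
  -- an involution moving a point
  obtain ⟨t, ht⟩ := exists_prime_orderOf_dvd_card' (G := G) 2 (by rw [hG]; norm_num)
  have ht2 : t * t = 1 := by
    rw [← pow_two, ← ht]; exact pow_orderOf_eq_one t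
  have tinv : t⁻¹ = t := inv_eq_of_mul_eq_one_left ht2
  obtain ⟨v, hv⟩ : ∃ v : X, t • v ≠ v := by
    by_contra hall
    push Not at hall
    have htk : t ∈ (MulAction.toPermHom G X).ker := by
      rw [MonoidHom.mem_ker]
      ext z
      simp [hall z]
    rcases (MonoidHom.normal_ker (MulAction.toPermHom G X)).eq_bot_or_eq_top with h | h
    · rw [h, Subgroup.mem_bot] at htk
      rw [htk, orderOf_one] at ht
      norm_num at ht
    · have h5k : g5 ∈ (MulAction.toPermHom G X).ker := by rw [h]; trivial
      rw [MonoidHom.mem_ker] at h5k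
      haveI : Nonempty X := by
        by_contra hemp
        rw [not_nonempty_iff] at hemp
        rw [Nat.card_of_isEmpty] at hX
        norm_num at hX
      obtain ⟨x0⟩ := ‹Nonempty X›
      apply h5 g5 hg5 x0
      have h1 := congrArg (fun σ : Equiv.Perm X => σ x0) h5k
      simpa using h1
  -- the two-point stabilizer
  have htw : t • (t • v) = v := by rw [smul_smul, ht2, one_smul]
  have hKmem : ∀ k : G, k ∈ stabilizer G v ⊓ stabilizer G (t • v) ↔ k • v = v ∧ k • (t • v) = t • v := by
    intro k
    rw [Subgroup.mem_inf, mem_stabilizer_iff, mem_stabilizer_iff]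
  have hK1 : Nat.card ↥(stabilizer G v ⊓ stabilizer G (t • v)) ∣ 168 := by
    rw [← hstab v]; exact Subgroup.card_dvd_of_le inf_le_left
  have hK7 : ¬ 7 ∣ Nat.card ↥(stabilizer G v ⊓ stabilizer G (t • v)) := by
    intro hd
    obtain ⟨s, hs⟩ := exists_prime_orderOf_dvd_card'
      (G := ↥(stabilizer G v ⊓ stabilizer G (t • v))) 7 hd
    have hs' : orderOf (s : G) = 7 := by rw [Subgroup.orderOf_coe]; exact hs
    have hmem := (hKmem _).mp s.2
    exact hv (h7 (s : G) hs' _ _ hmem.2 hmem.1)
  have hK2 : 2 * Nat.card ↥(stabilizer G v ⊓ stabilizer G (t • v)) ∣ 2520 := by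
    rw [← hG]
    refine two_mul_card_dvd_of_involution _ t ht2 (fun h => hv ((hKmem t).mp h).1) ?_
    intro k hk
    rw [hKmem] at hk ⊢
    refine ⟨?_, ?_⟩
    · rw [mul_smul, mul_smul, hk.2, htw]
    · rw [mul_smul, mul_smul, htw, hk.1]
  have hK12 : Nat.card ↥(stabilizer G v ⊓ stabilizer G (t • v)) ∣ 12 := by
    have key : ∀ k ∈ Nat.divisors 168, ¬ 7 ∣ k → 2 * k ∣ 2520 → k ∣ 12 := by decide
    exact key _ (Nat.mem_divisors.mpr ⟨hK1, by norm_num⟩) hK7 hK2
  -- the orbit of the pair
  have hstabP : stabilizer G ((v, t • v) : X × X) = stabilizer G v ⊓ stabilizer G (t • v) := by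
    ext g
    rw [hKmem, mem_stabilizer_iff, Prod.smul_mk, Prod.mk.injEq]
  have hidxP : 210 ≤ (orbit G ((v, t • v) : X × X)).ncard := by
    rw [← index_stabilizer, hstabP]
    have h1 := Subgroup.card_mul_index (stabilizer G v ⊓ stabilizer G (t • v))
    rw [hG] at h1
    have h2 : Nat.card ↥(stabilizer G v ⊓ stabilizer G (t • v)) ≤ 12 :=
      Nat.le_of_dvd (by norm_num) hK12
    by_contra hlt
    push Not at hlt
    have h3 : Nat.card ↥(stabilizer G v ⊓ stabilizer G (t • v)) *
        (stabilizer G v ⊓ stabilizer G (t • v)).index ≤ 12 * 209 :=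
      Nat.mul_le_mul h2 (by omega)
    omega
  have hsub : orbit G ((v, t • v) : X × X) ⊆ {p : X × X | p.1 ≠ p.2} := by
    rintro _ ⟨g, rfl⟩
    show g • v ≠ g • (t • v)
    intro h
    exact hv (smul_left_cancel g h).symm
  have hP : ({p : X × X | p.1 ≠ p.2} : Set (X × X)).ncard = 210 := by
    haveI := Fintype.ofFinite X
    have e : ({p : X × X | p.1 ≠ p.2} : Set (X × X)) = ↑((Finset.univ : Finset X).offDiag) := by
      ext p; simp
    rw [e, Set.ncard_coe_finset, Finset.offDiag_card, Finset.card_univ,
      ← Nat.card_eq_fintype_card, hX]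
  have heq : orbit G ((v, t • v) : X × X) = {p : X × X | p.1 ≠ p.2} :=
    Set.eq_of_subset_of_ncard_le hsub (by rw [hP]; exact hidxP) (Set.toFinite _)
  intro x y x' y' hxy hxy'
  have h1 : ((x, y) : X × X) ∈ orbit G ((v, t • v) : X × X) := by rw [heq]; exact hxy
  have h2 : ((x', y') : X × X) ∈ orbit G ((v, t • v) : X × X) := by rw [heq]; exact hxy'
  obtain ⟨a, ha⟩ := h1
  obtain ⟨b, hb⟩ := h2
  have ha1 : a • v = x := congrArg Prod.fst ha
  have ha2 : a • (t • v) = y := congrArg Prod.snd ha
  have hb1 : b • v = x' := congrArg Prod.fst hb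
  have hb2 : b • (t • v) = y' := congrArg Prod.snd hb
  refine ⟨b * a⁻¹, ?_, ?_⟩
  · rw [← ha1, mul_smul, inv_smul_smul, hb1]
  · rw [← ha2, mul_smul, inv_smul_smul, hb2]

end Cfsg.Agent.Helper95
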