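import Mathlib
import Cfsg.Agent.S0256
import Cfsg.Agent.Helper95.TwoTrans

set_option autoImplicit false
set_option linter.style.haveILetI false

/-!
# `A₇ ≤ GL₄(2)` and its 2-transitivity on the non-zero vectors (helper95)
-/

namespace Cfsg.Agent.Helper95

open Matrix

/-- The action of `GL₄(F)` on the non-zero vectors. -/
@[reducible] def glNzAction (F : Type*) [Field F] :
    MulAction (GL (Fin 4) F) {v : Fin 4 → F // v ≠ 0} where
  smul g v := ⟨(g : Matrix (Fin 4) (Fin 4) F).mulVec v.1, fun h => v.2 (by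
    have h1 := congrArg (fun u => ((g⁻¹ : GL (Fin 4) F) : Matrix (Fin 4) (Fin 4) F).mulVec u) h
    simp only [Matrix.mulVec_mulVec, Matrix.mulVec_zero] at h1
    rw [Units.inv_mul, Matrix.one_mulVec] at h1
    exact h1)⟩
  one_smul v := Subtype.ext (Matrix.one_mulVec _)
  mul_smul g h v := Subtype.ext (by
    show ((g * h : GL (Fin 4) F) : Matrix (Fin 4) (Fin 4) F).mulVec v.1 =
      (g : Matrix (Fin 4) (Fin 4) F).mulVec ((h : Matrix (Fin 4) (Fin 4) F).mulVec v.1)
    rw [Matrix.mulVec_mulVec, Units.val_mul])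

/-- Fixed vectors of an element of prime order `p` of `GL₄(F)`, `|F| = 2`: their number divides
`16`, is congruent to `16` mod `p`, and is not `16`. -/
theorem gl4_two_fix {F : Type*} [Field F] [Fintype F] (hF : Fintype.card F = 2) (p : ℕ)
    [Fact p.Prime] (g : GL (Fin 4) F) (hg : orderOf g = p) :
    ({v : Fin 4 → F | (g : Matrix (Fin 4) (Fin 4) F).mulVec v = v} : Set (Fin 4 → F)).ncard ∣ 16 ∧
    16 ≡ ({v : Fin 4 → F | (g : Matrix (Fin 4) (Fin 4) F).mulVec v = v} :
      Set (Fin 4 → F)).ncard [MOD p] ∧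
    ({v : Fin 4 → F | (g : Matrix (Fin 4) (Fin 4) F).mulVec v = v} : Set (Fin 4 → F)).ncard ≠ 16 := by
  classical
  have hV : Nat.card (Fin 4 → F) = 16 := by
    rw [Nat.card_eq_fintype_card, Fintype.card_fun, hF, Fintype.card_fin]
    norm_num
  refine ⟨?_, ?_, ?_⟩
  · let W : AddSubgroup (Fin 4 → F) :=
      { carrier := {v : Fin 4 → F | (g : Matrix (Fin 4) (Fin 4) F).mulVec v = v}
        add_mem' := by
          intro a b ha hb
          show (g : Matrix (Fin 4) (Fin 4) F).mulVec (a + b) = a + b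
          rw [Matrix.mulVec_add, ha, hb]
        zero_mem' := Matrix.mulVec_zero _
        neg_mem' := by
          intro a ha
          show (g : Matrix (Fin 4) (Fin 4) F).mulVec (-a) = -a
          rw [Matrix.mulVec_neg, ha] }
    have h1 := AddSubgroup.card_addSubgroup_dvd_card W
    rw [hV] at h1
    have h2 : Nat.card W = ({v : Fin 4 → F | (g : Matrix (Fin 4) (Fin 4) F).mulVec v = v} :
        Set (Fin 4 → F)).ncard := Nat.card_coe_set_eq _
    rw [← h2]
    exact h1
  · let f : Function.End (Fin 4 → F) := fun v => (g : Matrix (Fin 4) (Fin 4) F).mulVec v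
    have hpow : ∀ n : ℕ, f ^ n =
        fun v => ((g ^ n : GL (Fin 4) F) : Matrix (Fin 4) (Fin 4) F).mulVec v := by
      intro n
      induction n with
      | zero =>
        funext v
        rw [pow_zero, pow_zero, Units.val_one, Matrix.one_mulVec]
        rfl
      | succ n ih =>
        rw [pow_succ, ih]
        funext v
        show ((g ^ n : GL (Fin 4) F) : Matrix (Fin 4) (Fin 4) F).mulVec
          ((g : Matrix (Fin 4) (Fin 4) F).mulVec v) = _
        rw [Matrix.mulVec_mulVec, pow_succ, Units.val_mul]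
    have hf : f ^ p ^ 1 = 1 := by
      rw [pow_one, hpow, ← hg, pow_orderOf_eq_one]
      funext v
      rw [Units.val_one, Matrix.one_mulVec]
      rfl
    have h1 := Equiv.Perm.card_fixedPoints_modEq (p := p) (n := 1) hf
    rw [← Nat.card_eq_fintype_card, ← Nat.card_eq_fintype_card, hV] at h1
    have h2 : Nat.card (Function.fixedPoints f) =
        ({v : Fin 4 → F | (g : Matrix (Fin 4) (Fin 4) F).mulVec v = v} :
        Set (Fin 4 → F)).ncard := Nat.card_coe_set_eq _
    rw [← h2]
    exact h1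
  · intro h16
    have huniv : ({v : Fin 4 → F | (g : Matrix (Fin 4) (Fin 4) F).mulVec v = v} :
        Set (Fin 4 → F)) = Set.univ :=
      Set.eq_of_subset_of_ncard_le (Set.subset_univ _)
        (by rw [Set.ncard_univ, hV, h16]) (Set.toFinite _)
    have hg1 : g = 1 := by
      apply Units.ext
      apply Matrix.mulVec_injective
      funext v
      have hv : v ∈ ({v : Fin 4 → F | (g : Matrix (Fin 4) (Fin 4) F).mulVec v = v} :
          Set (Fin 4 → F)) := by rw [huniv]; trivial
      rw [Units.val_one, Matrix.one_mulVec]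
      exact hv
    rw [hg1, orderOf_one] at hg
    exact (Fact.out : p.Prime).one_lt.ne hg

/-- An element of order `5` of `GL₄(2)` fixes no non-zero vector. -/
theorem gl4_two_fix_five {F : Type*} [Field F] [Fintype F] (hF : Fintype.card F = 2)
    (g : GL (Fin 4) F) (hg : orderOf g = 5) (v : Fin 4 → F) (hv : v ≠ 0) :
    (g : Matrix (Fin 4) (Fin 4) F).mulVec v ≠ v := by
  haveI : Fact (Nat.Prime 5) := ⟨by norm_num⟩
  obtain ⟨h1, h2, h3⟩ := gl4_two_fix hF 5 g hg
  intro hfix
  have key : ∀ c ∈ Nat.divisors 16, 16 ≡ c [MOD 5] → c ≠ 16 → c = 1 := by decide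
  have hc := key _ (Nat.mem_divisors.mpr ⟨h1, by norm_num⟩) h2 h3
  have hsub : ({0, v} : Set (Fin 4 → F)) ⊆
      {v : Fin 4 → F | (g : Matrix (Fin 4) (Fin 4) F).mulVec v = v} := by
    intro u hu
    rcases hu with rfl | rfl
    · exact Matrix.mulVec_zero _
    · exact hfix
  have h4 := Set.ncard_le_ncard hsub (Set.toFinite _)
  rw [Set.ncard_pair (Ne.symm hv), hc] at h4
  omega

/-- An element of order `7` of `GL₄(2)` fixes at most one non-zero vector. -/
theorem gl4_two_fix_seven {F : Type*} [Field F] [Fintype F] (hF : Fintype.card F = 2)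
    (g : GL (Fin 4) F) (hg : orderOf g = 7) (v w : Fin 4 → F) (hv : v ≠ 0) (hw : w ≠ 0)
    (hfv : (g : Matrix (Fin 4) (Fin 4) F).mulVec v = v)
    (hfw : (g : Matrix (Fin 4) (Fin 4) F).mulVec w = w) : v = w := by
  haveI : Fact (Nat.Prime 7) := ⟨by norm_num⟩
  obtain ⟨h1, h2, h3⟩ := gl4_two_fix hF 7 g hg
  by_contra hne
  have key : ∀ c ∈ Nat.divisors 16, 16 ≡ c [MOD 7] → c ≠ 16 → c = 2 := by decide
  have hc := key _ (Nat.mem_divisors.mpr ⟨h1, by norm_num⟩) h2 h3
  have hsub : ({0, v, w} : Set (Fin 4 → F)) ⊆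
      {v : Fin 4 → F | (g : Matrix (Fin 4) (Fin 4) F).mulVec v = v} := by
    intro u hu
    rcases hu with rfl | rfl | rfl
    · exact Matrix.mulVec_zero _
    · exact hfv
    · exact hfw
  have h4 := Set.ncard_le_ncard hsub (Set.toFinite _)
  have h5 : ({0, v, w} : Set (Fin 4 → F)).ncard = 3 :=
    Set.ncard_eq_three.mpr ⟨0, v, w, Ne.symm hv, Ne.symm hw, hne, rfl⟩
  rw [h5, hc] at h4
  omega

/-- Every subgroup of `GL₄(2)` isomorphic to `A₇` is 2-transitive on the non-zero vectors. -/
theorem alt7_gl4_two_trans {F : Type*} [Field F] [Fintype F] (hF : Fintype.card F = 2)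
    (H : Subgroup (GL (Fin 4) F)) (e : H ≃* alternatingGroup (Fin 7))
    (v w v' w' : Fin 4 → F) (hv : v ≠ 0) (hw : w ≠ 0) (hvw : v ≠ w) (hv' : v' ≠ 0) (hw' : w' ≠ 0)
    (hvw' : v' ≠ w') :
    ∃ g ∈ H, (g : Matrix (Fin 4) (Fin 4) F).mulVec v = v' ∧
      (g : Matrix (Fin 4) (Fin 4) F).mulVec w = w' := by
  classical
  letI := glNzAction F
  haveI : IsSimpleGroup (alternatingGroup (Fin 7)) :=
    alternatingGroup.isSimpleGroup (by rw [Nat.card_eq_fintype_card, Fintype.card_fin]; norm_num)
  haveI : IsSimpleGroup H := e.isSimpleGroup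
  have hG : Nat.card H = 2520 := by
    rw [Nat.card_congr e.toEquiv, nat_card_alternatingGroup, Nat.card_eq_fintype_card,
      Fintype.card_fin]
    decide
  have hX : Nat.card {v : Fin 4 → F // v ≠ 0} = 15 := by
    have hV : Fintype.card (Fin 4 → F) = 16 := by
      rw [Fintype.card_fun, hF, Fintype.card_fin]
      norm_num
    rw [Nat.card_eq_fintype_card, Fintype.card_subtype_compl, Fintype.card_subtype_eq, hV]
  have key := twoTrans_2520_15 (G := H) (X := {v : Fin 4 → F // v ≠ 0}) hG hX
    (by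
      intro g hg x hx
      have h1 : orderOf (g : GL (Fin 4) F) = 5 := by rw [Subgroup.orderOf_coe]; exact hg
      exact gl4_two_fix_five hF _ h1 x.1 x.2 (congrArg Subtype.val hx))
    (by
      intro g hg x y hx hy
      have h1 : orderOf (g : GL (Fin 4) F) = 7 := by rw [Subgroup.orderOf_coe]; exact hg
      exact Subtype.ext (gl4_two_fix_seven hF _ h1 x.1 y.1 x.2 y.2 (congrArg Subtype.val hx)
        (congrArg Subtype.val hy)))
    ⟨v, hv⟩ ⟨w, hw⟩ ⟨v', hv'⟩ ⟨w', hw'⟩
    (fun h => hvw (congrArg Subtype.val h)) (fun h => hvw' (congrArg Subtype.val h))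
  obtain ⟨g, h1, h2⟩ := key
  exact ⟨g.1, g.2, congrArg Subtype.val h1, congrArg Subtype.val h2⟩

/-- `GL₄(2)` has a subgroup isomorphic to `A₇`. -/
theorem exists_alt7_in_gl4 {F : Type*} [Field F] [Fintype F] (hF : Fintype.card F = 2) :
    ∃ H : Subgroup (GL (Fin 4) F), Nonempty (H ≃* alternatingGroup (Fin 7)) := by
  classical
  obtain ⟨e⟩ := Cfsg.Agent.S0256.result hF
  have hc : Subgroup.center (Matrix.SpecialLinearGroup (Fin 4) F) = ⊥ := by
    rw [eq_bot_iff]
    intro A hA
    rw [Matrix.SpecialLinearGroup.mem_center_iff] at hA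
    obtain ⟨r, hr, hrA⟩ := hA
    have hr0 : r ≠ 0 := by
      rintro rfl
      simp at hr
    have hr1 : r = 1 := by
      have := FiniteField.pow_card_sub_one_eq_one r hr0
      rw [hF] at this
      simpa using this
    rw [Subgroup.mem_bot]
    apply Subtype.ext
    rw [← hrA, hr1]
    simp
  let π : Matrix.SpecialLinearGroup (Fin 4) F →*
      Matrix.ProjectiveSpecialLinearGroup (Fin 4) F :=
    QuotientGroup.mk' (Subgroup.center (Matrix.SpecialLinearGroup (Fin 4) F))
  have hπi : Function.Injective π := by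
    rw [← MonoidHom.ker_eq_bot_iff]
    show (QuotientGroup.mk' (Subgroup.center (Matrix.SpecialLinearGroup (Fin 4) F))).ker = ⊥
    rw [QuotientGroup.ker_mk', hc]
  have hπs : Function.Surjective π := QuotientGroup.mk'_surjective _
  let πe : Matrix.SpecialLinearGroup (Fin 4) F ≃*
      Matrix.ProjectiveSpecialLinearGroup (Fin 4) F := MulEquiv.ofBijective π ⟨hπi, hπs⟩
  let s : Finset (Fin 8) := Finset.univ.erase 7
  have hs : Fintype.card s = 7 := by
    rw [Fintype.card_coe]
    decide
  let e7 : Fin 7 ≃ s := (Fintype.equivFinOfCardEq hs).symm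
  let ι : alternatingGroup (Fin 7) →* alternatingGroup (Fin 8) :=
    (alternatingGroup.ofSubtype s).comp (Equiv.altCongrHom e7).toMonoidHom
  have hι : Function.Injective ι :=
    alternatingGroup.ofSubtype_injective.comp (Equiv.altCongrHom e7).injective
  let f : alternatingGroup (Fin 7) →* GL (Fin 4) F :=
    Matrix.SpecialLinearGroup.toGL.comp
      (πe.symm.toMonoidHom.comp (e.symm.toMonoidHom.comp ι))
  have hf : Function.Injective f :=
    Matrix.SpecialLinearGroup.toGL_injective.comp
      (πe.symm.injective.comp (e.symm.injective.comp hι))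
  exact ⟨f.range, ⟨(MonoidHom.ofInjective hf).symm⟩⟩

end Cfsg.Agent.Helper95
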