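import Mathlib
import Cfsg.Agent.Helper4.C3OFD
import Cfsg.Agent.Helper4.C3OZDEC
import Cfsg.Agent.Helper47.C3OFROBPOW
import Cfsg.Agent.Helper47.C3OGLUE
import Cfsg.Agent.Helper84.C3OEVEN
import Cfsg.Agent.Helper84.C3OZEX
import Cfsg.Agent.Helper69.C3OJEX
import Cfsg.Agent.Helper84.C3OZJ
import Cfsg.Agent.Helper84.C3OPOLY
import Cfsg.Agent.Helper82.C3OPOLY1
import Cfsg.Agent.Helper82.C3OPOLYCRT
import Cfsg.Agent.Helper82.C3OZADJ

/-!
# CALL C3O piece IND (helper95, for helper43's S5977 + S5978)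

Every `r`-group of isometries of an even-dimensional nondegenerate symmetric space over a finite
field of odd order `q` centralizes a self-adjoint `J` with `J² = n` (`n` a nonsquare), when
`4 ∣ ord_r(q)`.  Strong induction on the exponent of the group order.
-/

set_option autoImplicit false

namespace Cfsg.Agent.Helper95

open Matrix Module Polynomial
open Cfsg.Agent.Helper69 (c3o_jex)
open Cfsg.Agent.Helper84 (c3o_zj c3o_poly)
open Cfsg.Agent.Helper82 (c3o_poly1 c3o_polycrt c3o_zadj)

universe u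

section res

variable {F : Type*} [Field F] {V : Type*} [AddCommGroup V] [Module F V]

/-- restriction of a group of linear automorphisms to an invariant submodule -/
noncomputable def c3oRes (S : Subgroup (V ≃ₗ[F] V)) (W : Submodule F V)
    (hW : ∀ s ∈ S, ∀ w ∈ W, s w ∈ W) : ↥S →* (W ≃ₗ[F] W) where
  toFun s := LinearEquiv.ofLinearMap
    ((s.1 : V →ₗ[F] V).restrict (p := W) (q := W) (hW s.1 s.2))
    (((s.1⁻¹ : V ≃ₗ[F] V) : V →ₗ[F] V).restrict (p := W) (q := W) (hW _ (S.inv_mem s.2)))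
    (by
      ext w
      show s.1 (s.1.symm (w : V)) = (w : V)
      simp)
    (by
      ext w
      show s.1.symm (s.1 (w : V)) = (w : V)
      simp)
  map_one' := by
    ext w
    rfl
  map_mul' := by
    intro a b
    ext w
    rfl

theorem c3oRes_apply (S : Subgroup (V ≃ₗ[F] V)) (W : Submodule F V)
    (hW : ∀ s ∈ S, ∀ w ∈ W, s w ∈ W) (s : ↥S) (w : W) :
    ((c3oRes S W hW s) w : V) = s.1 (w : V) := rfl

end res

/-- PIECE IND -/
theorem c3o_ind {F : Type u} [Field F] [Fintype F] {p : ℕ} [Fact p.Prime] [CharP F p] {q : ℕ}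
    (hq : Fintype.card F = q) (hodd : Odd q) (r : ℕ) (hr : r.Prime) (hr2 : r ≠ 2) (hrp : r ≠ p)
    (h4 : 4 ∣ orderOf (q : ZMod r)) (n : F) (hn : ¬ IsSquare n) (k : ℕ) :
    ∀ (V : Type u) [AddCommGroup V] [Module F V] [FiniteDimensional F V]
      (B : LinearMap.BilinForm F V), B.Nondegenerate → B.IsSymm → Even (Module.finrank F V) →
      ∀ S : Subgroup (V ≃ₗ[F] V), (∀ s ∈ S, ∀ u v, B (s u) (s v) = B u v) →
        Nat.card S = r ^ k →
        ∃ J : V →ₗ[F] V, (∀ v, J (J v) = n • v) ∧ (∀ u v, B (J u) v = B u (J v)) ∧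
          ∀ s ∈ S, ∀ v, J (s v) = s (J v) := by
  have h2 : (2 : F) ≠ 0 := by
    intro h
    have h2' : ringChar F = 2 :=
      CharP.ringChar_of_prime_eq_zero Nat.prime_two (by exact_mod_cast h)
    have h3 := FiniteField.even_card_iff_char_two.mp h2'
    rw [hq] at h3
    rcases hodd with ⟨a, ha⟩
    omega
  have hpP : p.Prime := Fact.out
  have hrF : (r : F) ≠ 0 := by
    intro h
    have h1 := (CharP.cast_eq_zero_iff F p r).mp h
    rcases (Nat.dvd_prime hr).mp h1 with h1 | h1
    · exact hpP.one_lt.ne' h1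
    · exact hrp h1.symm
  have hrq : ¬ r ∣ q := by
    intro h
    obtain ⟨e, -, he⟩ := FiniteField.card F p
    rw [hq] at he
    rw [he] at h
    have h1 := hr.dvd_of_dvd_pow h
    exact hrp ((Nat.prime_dvd_prime_iff_eq hr hpP).mp h1)
  have hn0 : n ≠ 0 := by
    rintro rfl
    exact hn ⟨0, by simp⟩
  have hfd := Cfsg.Agent.Helper4.c3o_fd4 q r hr hr2 hrq h4
  have hi : Even (orderOf (q : ZMod r)) := by
    obtain ⟨m, hm⟩ := h4
    exact ⟨2 * m, by omega⟩
  have hpoly : ∃ f : F[X], cyclotomic r F ∣ f ^ 2 - C n :=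
    c3o_poly hq hodd r hr hrp hi n (fun P hP hdeg => c3o_poly1 (hq ▸ hodd) P hP hdeg n)
      (fun s hs h => c3o_polycrt s hs n h)
  induction k using Nat.strong_induction_on with
  | _ k ih =>
    intro V _ _ _ B hB hs hev S hiso hcard
    rcases Nat.eq_zero_or_pos k with hk | hk
    · subst hk
      obtain ⟨J, hJ1, hJ2⟩ := c3o_jex h2 B hB hs hev n
      refine ⟨J, hJ1, hJ2, ?_⟩
      intro s hsS v
      have hs1 : s = 1 := by
        rw [pow_zero] at hcard
        have hbot := Subgroup.card_eq_one.mp hcard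
        rw [hbot] at hsS
        simpa using hsS
      subst hs1
      simp
    · obtain ⟨k', rfl⟩ : ∃ k', k = k' + 1 := ⟨k - 1, by omega⟩
      have : Fact r.Prime := ⟨hr⟩
      obtain ⟨z, hzS, hz1, hzr, hzc⟩ := Cfsg.Agent.Helper84.c3o_zex S r k' hcard
      set zl : V →ₗ[F] V := (z : V →ₗ[F] V) with hzl
      have hpow : ∀ m : ℕ, ∀ v, (zl ^ m) v = (z ^ m) v := by
        intro m
        induction m with
        | zero => intro v; simp
        | succ m ihm =>
          intro v
          rw [pow_succ, pow_succ, Module.End.mul_apply, LinearEquiv.mul_apply, ihm]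
          rfl
      have hz : zl ^ r = 1 := by
        ext v
        rw [hpow, hzr]
        simp
      have hisoz : ∀ u v, B (zl u) (zl v) = B u v := fun u v => hiso z hzS u v
      obtain ⟨hcompl, horth⟩ := Cfsg.Agent.Helper4.c3o_zdec B r hrF zl hz hisoz
      have hfrob : ∀ (R : F[X]) (m : ℕ), (aeval zl R) ^ (q ^ m) = aeval (zl ^ (q ^ m)) R := by
        intro R m
        rw [← hq]
        exact Cfsg.Agent.Helper47.c3o_frobpow zl R m
      have hadj := c3o_zadj B r hr.pos zl hz hisoz
      obtain ⟨A, hAc, hA2, hAs⟩ := c3o_zj hq hodd r hr hr2 n hn0 B zl hz hpoly hfrob hfd hadj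
      set W₀ : Submodule F V := LinearMap.ker (zl - 1) with hW₀
      set W₁ : Submodule F V := LinearMap.range (zl - 1) with hW₁
      have hAz : ∀ v, A (zl v) = zl (A v) := by
        intro v
        have h1 := hAc zl rfl
        have h2 := congrArg (fun T : V →ₗ[F] V => T v) h1
        simpa using h2.symm
      have hAW₁ : ∀ w ∈ W₁, A w ∈ W₁ := by
        rintro w ⟨v, rfl⟩
        refine ⟨A v, ?_⟩
        simp [hAz]
      let J₁ : W₁ →ₗ[F] W₁ := A.restrict hAW₁
      have hmemW₁ : ∀ w : W₁, ∃ v, (w : V) = zl v - v := by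
        rintro ⟨w, v, rfl⟩
        exact ⟨v, by simp⟩
      have h₁ : ∀ w : W₁, J₁ (J₁ w) = n • w := by
        intro w
        obtain ⟨v, hv⟩ := hmemW₁ w
        apply Subtype.ext
        show A (A (w : V)) = n • (w : V)
        rw [hv]
        exact hA2 v
      have hs₁ : ∀ u v : W₁, B (J₁ u : V) (v : V) = B (u : V) (J₁ v : V) := by
        intro u v
        obtain ⟨u', hu⟩ := hmemW₁ u
        obtain ⟨v', hv⟩ := hmemW₁ v
        show B (A (u : V)) (v : V) = B (u : V) (A (v : V))
        rw [hu, hv]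
        exact hAs u' v'
      have hevW₁ : Even (finrank F W₁) := Cfsg.Agent.Helper84.c3o_even n hn J₁ h₁
      have hdim := Submodule.finrank_add_eq_of_isCompl hcompl
      have hevW₀ : Even (finrank F W₀) := by
        rcases hev with ⟨a, ha⟩
        rcases hevW₁ with ⟨b, hb⟩
        exact ⟨a - b, by omega⟩
      let B₀ : LinearMap.BilinForm F W₀ := B.restrict W₀
      have hB₀s : B₀.IsSymm := hs.restrict W₀
      have hsplit : ∀ v : V, ∃ a ∈ W₀, ∃ b ∈ W₁, a + b = v := by
        intro v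
        have hv : v ∈ W₀ ⊔ W₁ := by
          rw [hcompl.sup_eq_top]
          trivial
        exact Submodule.mem_sup.mp hv
      have hB₀ : B₀.Nondegenerate := by
        have hleft : ∀ x : W₀, (∀ y : W₀, B₀ x y = 0) → x = 0 := by
          intro x hx
          apply Subtype.ext
          apply hB.1 (x : V)
          intro v
          obtain ⟨a, ha, b, hb, rfl⟩ := hsplit v
          rw [map_add, horth x x.2 b hb, add_zero]
          exact hx ⟨a, ha⟩
        refine ⟨hleft, ?_⟩
        intro y hy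
        apply hleft y
        intro x
        rw [hB₀s.eq]
        exact hy x
      have hSz : ∀ s ∈ S, ∀ v, s (zl v) = zl (s v) := by
        intro s hsS v
        have h1 := hzc s hsS
        have h2 : (s * z) v = (z * s) v := by rw [h1]
        exact h2
      have hSW₀ : ∀ s ∈ S, ∀ w ∈ W₀, s w ∈ W₀ := by
        intro s hsS w hw
        have hw1 : w ∈ LinearMap.ker (zl - 1) := hw
        rw [LinearMap.mem_ker] at hw1
        have hw' : zl w = w := by simpa [sub_eq_zero] using hw1
        show s w ∈ LinearMap.ker (zl - 1)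
        rw [LinearMap.mem_ker]
        simp [← hSz s hsS, hw']
      have hSW₁ : ∀ s ∈ S, ∀ w ∈ W₁, s w ∈ W₁ := by
        rintro s hsS w ⟨v, rfl⟩
        refine ⟨s v, ?_⟩
        simp [hSz s hsS]
      let φ := c3oRes S W₀ hSW₀
      have hφ : ∀ (s : ↥S) (w : W₀), ((φ s) w : V) = s.1 (w : V) := fun s w => rfl
      have hcardR : ∃ j ≤ k', Nat.card φ.range = r ^ j := by
        have h1 : Nat.card φ.ker * φ.ker.index = Nat.card S := Subgroup.card_mul_index _
        rw [Subgroup.index_ker, hcard] at h1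
        have hdvd : Nat.card φ.range ∣ r ^ (k' + 1) := ⟨Nat.card φ.ker, by rw [← h1, mul_comm]⟩
        obtain ⟨j, hj, hj'⟩ := (Nat.dvd_prime_pow hr).mp hdvd
        refine ⟨j, ?_, hj'⟩
        by_contra hlt
        have hjk : j = k' + 1 := by omega
        rw [hj', hjk] at h1
        have hker1 : Nat.card φ.ker = 1 := by
          have hpos : 0 < r ^ (k' + 1) := pow_pos hr.pos _
          exact Nat.eq_of_mul_eq_mul_right hpos (by rw [h1, one_mul])
        have hkerbot : φ.ker = ⊥ := Subgroup.card_eq_one.mp hker1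
        have hzker : (⟨z, hzS⟩ : ↥S) ∈ φ.ker := by
          rw [MonoidHom.mem_ker]
          ext w
          rw [hφ]
          have hw : (w : V) ∈ LinearMap.ker (zl - 1) := w.2
          rw [LinearMap.mem_ker] at hw
          rw [LinearMap.sub_apply, Module.End.one_apply, sub_eq_zero] at hw
          exact hw
        rw [hkerbot, Subgroup.mem_bot] at hzker
        exact hz1 (congrArg Subtype.val hzker)
      obtain ⟨j, hj, hcj⟩ := hcardR
      obtain ⟨J₀, h₀, hs₀, hc₀⟩ := ih j (by omega) W₀ B₀ hB₀ hB₀s hevW₀ φ.range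
        (by
          rintro _ ⟨s, rfl⟩ u v
          show B ((φ s u : W₀) : V) ((φ s v : W₀) : V) = B (u : V) (v : V)
          rw [hφ, hφ]
          exact hiso s.1 s.2 _ _) hcj
      obtain ⟨J, hJ2, hJs, hJ₀, hJ₁⟩ :=
        Cfsg.Agent.Helper47.c3o_glue B hs W₀ W₁ hcompl horth n J₀ J₁ h₀ h₁
          (fun u v => hs₀ u v) hs₁
      refine ⟨J, hJ2, hJs, ?_⟩
      intro s hsS v
      obtain ⟨a, ha, b, hb, rfl⟩ := hsplit v
      rw [map_add, map_add, map_add, map_add]
      congr 1
      · have e1 : s a = ((φ ⟨s, hsS⟩ ⟨a, ha⟩ : W₀) : V) := rfl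
        have e2 : J a = ((J₀ ⟨a, ha⟩ : W₀) : V) := hJ₀ ⟨a, ha⟩
        rw [e1, hJ₀, hc₀ (φ ⟨s, hsS⟩) ⟨⟨s, hsS⟩, rfl⟩ ⟨a, ha⟩, hφ, e2]
      · have e1 : J (s b) = A (s b) := hJ₁ ⟨s b, hSW₁ s hsS b hb⟩
        have e2 : J b = A b := hJ₁ ⟨b, hb⟩
        rw [e1, e2]
        have h1 := hAc (s : V →ₗ[F] V) (by ext v; simp [hSz s hsS])
        have h2 := congrArg (fun T : V →ₗ[F] V => T b) h1
        simpa using h2.symm

end Cfsg.Agent.Helper95
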