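import Mathlib

/-!
# Pairs of norm-one elements `a`, `2 - a` in finite fields (B&G Appendix C, Peterfalvi)

* `exists_norm_pair_of_card`: for `p` odd and `#F ≥ p⁴` there is `a ≠ 1` in `F` with
  `N(a) = N(2 - a) = 1` (norm to `ZMod p`); proof by Jacobi sums of the lifted characters `χ ∘ N`.
* `exists_norm_pair_three`: the same in `GaloisField p 3`, via an irreducible cubic
  `X³ + aX² - a`.
-/

set_option autoImplicit false
set_option linter.style.haveILetI false

namespace Cfsg.Agent.Helper95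

open Finset

section lift

variable (p : ℕ) [Fact p.Prime] (F : Type*) [Field F] [Fintype F] [Algebra (ZMod p) F]

/-- The lift `χ ∘ N` of a character of `ZMod p` to the extension `F`. -/
noncomputable def liftChar (χ : MulChar (ZMod p) ℂ) : MulChar F ℂ where
  toFun a := χ (Algebra.norm (ZMod p) a)
  map_one' := by simp
  map_mul' a b := by simp
  map_nonunit' a ha := by
    have h0 : a = 0 := by
      by_contra h
      exact ha (isUnit_iff_ne_zero.mpr h)
    subst h0
    rw [Algebra.norm_zero]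
    exact χ.map_nonunit not_isUnit_zero

variable {p F}

theorem liftChar_apply (χ : MulChar (ZMod p) ℂ) (a : F) :
    liftChar p F χ a = χ (Algebra.norm (ZMod p) a) := rfl

theorem liftChar_mul (χ φ : MulChar (ZMod p) ℂ) :
    liftChar p F (χ * φ) = liftChar p F χ * liftChar p F φ := by
  ext a
  simp [liftChar_apply, MulChar.mul_apply]

theorem liftChar_one : liftChar p F (1 : MulChar (ZMod p) ℂ) = 1 := by
  ext a
  rw [liftChar_apply, MulChar.one_apply_coe]
  have : IsUnit (Algebra.norm (ZMod p) (a : F)) := by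
    rw [isUnit_iff_ne_zero, Algebra.norm_ne_zero_iff]
    exact a.ne_zero
  exact MulChar.one_apply this

theorem liftChar_inv (χ : MulChar (ZMod p) ℂ) :
    liftChar p F χ⁻¹ = (liftChar p F χ)⁻¹ := by
  apply eq_inv_of_mul_eq_one_left
  rw [← liftChar_mul, inv_mul_cancel, liftChar_one]

theorem liftChar_ne_one {χ : MulChar (ZMod p) ℂ} (hχ : χ ≠ 1) : liftChar p F χ ≠ 1 := by
  obtain ⟨y, hy⟩ := MulChar.ne_one_iff.mp hχ
  obtain ⟨a, ha⟩ := FiniteField.norm_surjective (ZMod p) F (y : ZMod p)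
  intro h
  apply hy
  have h1 : liftChar p F χ a = (1 : MulChar F ℂ) a := by rw [h]
  rw [liftChar_apply, ha] at h1
  rw [h1]
  apply MulChar.one_apply
  rw [isUnit_iff_ne_zero]
  intro h0
  rw [h0, Algebra.norm_zero] at ha
  exact y.ne_zero ha.symm

end lift

end Cfsg.Agent.Helper95

namespace Cfsg.Agent.Helper95

open Finset

section count

variable {p : ℕ} [Fact p.Prime] {F : Type*} [Field F] [Fintype F] [Algebra (ZMod p) F]

theorem sum_liftChar (a : F) :
    ∑ χ : DirichletCharacter ℂ p, liftChar p F χ a =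
      if Algebra.norm (ZMod p) a = 1 then ((p : ℂ) - 1) else 0 := by
  simp only [liftChar_apply]
  rw [DirichletCharacter.sum_characters_eq, Nat.totient_prime (Fact.out : p.Prime),
    Nat.cast_sub (Fact.out : p.Prime).one_lt.le, Nat.cast_one]

theorem sum_liftChar_pair (h2 : (2 : F) ≠ 0) (χ φ : DirichletCharacter ℂ p) :
    ∑ a : F, liftChar p F χ a * liftChar p F φ (2 - a) =
      liftChar p F χ 2 * liftChar p F φ 2 * jacobiSum (liftChar p F χ) (liftChar p F φ) := by
  unfold jacobiSum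
  rw [Finset.mul_sum]
  rw [← Fintype.sum_equiv (Equiv.mulLeft₀ (2 : F) h2) (fun b => liftChar p F χ 2 * liftChar p F φ 2 *
    (liftChar p F χ b * liftChar p F φ (1 - b))) (fun a => liftChar p F χ a * liftChar p F φ (2 - a))]
  intro b
  simp only [Equiv.mulLeft₀_apply]
  have : (2 : F) - 2 * b = 2 * (1 - b) := by ring
  rw [this, map_mul, map_mul]
  ring

theorem count_eq (h2 : (2 : F) ≠ 0) :
    ((p : ℂ) - 1) ^ 2 * ((Finset.univ.filter (fun a : F => Algebra.norm (ZMod p) a = 1 ∧
      Algebra.norm (ZMod p) (2 - a) = 1)).card : ℂ) =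
    ∑ x : DirichletCharacter ℂ p × DirichletCharacter ℂ p,
      liftChar p F x.1 2 * liftChar p F x.2 2 * jacobiSum (liftChar p F x.1) (liftChar p F x.2) := by
  rw [Fintype.sum_prod_type]
  simp_rw [← sum_liftChar_pair h2]
  have e : ∀ a : F, (∑ χ : DirichletCharacter ℂ p, liftChar p F χ a) *
      (∑ φ : DirichletCharacter ℂ p, liftChar p F φ (2 - a)) =
      if (Algebra.norm (ZMod p) a = 1 ∧ Algebra.norm (ZMod p) (2 - a) = 1) then ((p : ℂ) - 1) ^ 2
        else 0 := by
    intro a
    rw [sum_liftChar, sum_liftChar]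
    by_cases h1 : Algebra.norm (ZMod p) a = 1 <;> by_cases h3 : Algebra.norm (ZMod p) (2 - a) = 1 <;>
      simp [h1, h3, sq]
  calc ((p : ℂ) - 1) ^ 2 * ((Finset.univ.filter (fun a : F => Algebra.norm (ZMod p) a = 1 ∧
      Algebra.norm (ZMod p) (2 - a) = 1)).card : ℂ)
      = ∑ a : F, if (Algebra.norm (ZMod p) a = 1 ∧ Algebra.norm (ZMod p) (2 - a) = 1) then
          ((p : ℂ) - 1) ^ 2 else 0 := by
        rw [Finset.sum_ite, Finset.sum_const_zero, add_zero, Finset.sum_const, nsmul_eq_mul, mul_comm]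
    _ = ∑ a : F, (∑ χ : DirichletCharacter ℂ p, liftChar p F χ a) *
      (∑ φ : DirichletCharacter ℂ p, liftChar p F φ (2 - a)) := by
        exact Finset.sum_congr rfl fun a _ => (e a).symm
    _ = _ := by
        simp_rw [Finset.sum_mul_sum]
        rw [Finset.sum_comm]
        refine Finset.sum_congr rfl fun χ _ => ?_
        rw [Finset.sum_comm]


theorem star_jacobiSum (χ φ : MulChar F ℂ) : star (jacobiSum χ φ) = jacobiSum χ⁻¹ φ⁻¹ := by
  unfold jacobiSum
  rw [star_sum]
  refine Finset.sum_congr rfl fun x _ => ?_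
  rw [star_mul', MulChar.star_apply', MulChar.star_apply']

theorem norm_jacobiSum_sq {χ φ : MulChar F ℂ} (hχ : χ ≠ 1) (hφ : φ ≠ 1) (hχφ : χ * φ ≠ 1) :
    ‖jacobiSum χ φ‖ ^ 2 = Fintype.card F := by
  have hch : ringChar ℂ ≠ ringChar F := by
    rw [ringChar.eq_zero]
    exact (CharP.char_ne_zero_of_finite F (ringChar F)).symm
  have h := jacobiSum_mul_jacobiSum_inv hch hχ hφ hχφ
  rw [← star_jacobiSum] at h
  have h2 : (jacobiSum χ φ) * star (jacobiSum χ φ) = ((‖jacobiSum χ φ‖ ^ 2 : ℝ) : ℂ) := by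
    rw [Complex.star_def, Complex.mul_conj, Complex.normSq_eq_norm_sq]
  rw [h2] at h
  exact_mod_cast h

theorem norm_jacobiSum_lift_le (χ φ : DirichletCharacter ℂ p) (h : ¬ (χ = 1 ∧ φ = 1)) :
    ‖jacobiSum (liftChar p F χ) (liftChar p F φ)‖ ≤ Real.sqrt (Fintype.card F) := by
  have h1 : (1 : ℝ) ≤ Real.sqrt (Fintype.card F) := by
    rw [Real.one_le_sqrt]
    exact_mod_cast Fintype.card_pos
  by_cases hχ : χ = 1
  · subst hχ
    have hφ : φ ≠ 1 := fun e => h ⟨rfl, e⟩
    rw [liftChar_one, jacobiSum_one_nontrivial (liftChar_ne_one hφ)]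
    simpa using h1
  by_cases hφ : φ = 1
  · subst hφ
    rw [liftChar_one, jacobiSum_comm, jacobiSum_one_nontrivial (liftChar_ne_one hχ)]
    simpa using h1
  by_cases hχφ : χ * φ = 1
  · have e : φ = χ⁻¹ := eq_inv_of_mul_eq_one_right hχφ
    subst e
    rw [liftChar_inv, jacobiSum_nontrivial_inv (liftChar_ne_one hχ), norm_neg, liftChar_apply]
    exact (DirichletCharacter.norm_le_one χ _).trans h1
  · have := norm_jacobiSum_sq (liftChar_ne_one (F := F) hχ) (liftChar_ne_one hφ)
      (by rw [← liftChar_mul]; exact liftChar_ne_one hχφ)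
    rw [← this, Real.sqrt_sq (norm_nonneg _)]

theorem card_dirichlet : Fintype.card (DirichletCharacter ℂ p) = p - 1 := by
  rw [← Nat.card_eq_fintype_card, DirichletCharacter.card_eq_totient_of_hasEnoughRootsOfUnity ℂ p,
    Nat.totient_prime (Fact.out : p.Prime)]

/-- If `#F ≥ p⁴` (and `p` is odd) there is `a ≠ 1` in `F` with `N(a) = N(2 - a) = 1`. -/
theorem exists_norm_pair_of_card (hp2 : p ≠ 2) (hcard : p ^ 4 ≤ Fintype.card F) :
    ∃ a : F, a ≠ 1 ∧ Algebra.norm (ZMod p) a = 1 ∧ Algebra.norm (ZMod p) (2 - a) = 1 := by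
  by_contra hne
  push Not at hne
  have hpp : p.Prime := Fact.out
  have h2 : (2 : F) ≠ 0 := by
    have h2' : (2 : ZMod p) ≠ 0 := by
      intro h0
      have : ((2 : ℕ) : ZMod p) = 0 := by exact_mod_cast h0
      rw [ZMod.natCast_eq_zero_iff] at this
      have := (Nat.prime_dvd_prime_iff_eq hpp Nat.prime_two).mp this
      exact hp2 this
    intro h0
    apply h2'
    apply (algebraMap (ZMod p) F).injective
    rw [map_ofNat, map_zero]
    exact h0
  set S := Finset.univ.filter (fun a : F => Algebra.norm (ZMod p) a = 1 ∧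
      Algebra.norm (ZMod p) (2 - a) = 1) with hSdef
  have hS : S.card ≤ 1 := by
    apply Finset.card_le_one.mpr
    intro a ha b hb
    have ha' := (Finset.mem_filter.mp ha).2
    have hb' := (Finset.mem_filter.mp hb).2
    have e1 : a = 1 := by
      by_contra h
      exact hne a h ha'.1 ha'.2
    have e2 : b = 1 := by
      by_contra h
      exact hne b h hb'.1 hb'.2
    rw [e1, e2]
  have key := count_eq (p := p) (F := F) h2
  rw [← hSdef, ← Finset.add_sum_erase Finset.univ _
    (Finset.mem_univ ((1, 1) : DirichletCharacter ℂ p × DirichletCharacter ℂ p))] at key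
  have h12 : (1 : MulChar F ℂ) 2 = 1 := MulChar.one_apply (isUnit_iff_ne_zero.mpr h2)
  simp only [liftChar_one] at key
  rw [h12, jacobiSum_one_one] at key
  set R := ∑ x ∈ (Finset.univ : Finset (DirichletCharacter ℂ p × DirichletCharacter ℂ p)).erase (1, 1),
    liftChar p F x.1 2 * liftChar p F x.2 2 * jacobiSum (liftChar p F x.1) (liftChar p F x.2) with hRdef
  set s := Real.sqrt (Fintype.card F) with hsdef
  have hp1 : 1 ≤ p := hpp.one_lt.le
  have hR : ‖R‖ ≤ (((p : ℝ) - 1) ^ 2 - 1) * s := by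
    refine (norm_sum_le _ _).trans ?_
    have hb : ∀ x ∈ (Finset.univ : Finset (DirichletCharacter ℂ p × DirichletCharacter ℂ p)).erase (1, 1),
        ‖liftChar p F x.1 2 * liftChar p F x.2 2 * jacobiSum (liftChar p F x.1) (liftChar p F x.2)‖
          ≤ s := by
      intro x hx
      have hx1 : x ≠ (1, 1) := (Finset.mem_erase.mp hx).1
      have hx2 : ¬ (x.1 = 1 ∧ x.2 = 1) := fun h => hx1 (Prod.ext h.1 h.2)
      rw [norm_mul, norm_mul]
      have a1 : ‖liftChar p F x.1 2‖ ≤ 1 := by
        rw [liftChar_apply]; exact DirichletCharacter.norm_le_one _ _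
      have a2 : ‖liftChar p F x.2 2‖ ≤ 1 := by
        rw [liftChar_apply]; exact DirichletCharacter.norm_le_one _ _
      have a3 := norm_jacobiSum_lift_le (F := F) x.1 x.2 hx2
      calc ‖liftChar p F x.1 2‖ * ‖liftChar p F x.2 2‖ *
            ‖jacobiSum (liftChar p F x.1) (liftChar p F x.2)‖
          ≤ 1 * 1 * s := by
            apply mul_le_mul (mul_le_mul a1 a2 (norm_nonneg _) zero_le_one) a3 (norm_nonneg _)
              (by norm_num)
        _ = s := by ring
    refine (Finset.sum_le_card_nsmul _ _ _ hb).trans ?_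
    rw [Finset.card_erase_of_mem (Finset.mem_univ _), Finset.card_univ, Fintype.card_prod,
      card_dirichlet, nsmul_eq_mul]
    apply le_of_eq
    congr 1
    have : 1 ≤ (p - 1) * (p - 1) := by
      have : 2 ≤ p := hpp.two_le
      have : 3 ≤ p := by omega
      have : 2 ≤ p - 1 := by omega
      nlinarith
    rw [Nat.cast_sub this, Nat.cast_mul, Nat.cast_sub hp1]
    push_cast
    ring
  have hRe : R = ((((p : ℝ) - 1) ^ 2 * (S.card : ℝ) - ((Fintype.card F : ℝ) - 2) : ℝ) : ℂ) := by
    have : R = ((p : ℂ) - 1) ^ 2 * (S.card : ℂ) - 1 * 1 * ((Fintype.card F : ℂ) - 2) := by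
      rw [key]; ring
    rw [this]
    push_cast
    ring
  rw [hRe, Complex.norm_real, Real.norm_eq_abs] at hR
  have hs2 : s ^ 2 = (Fintype.card F : ℝ) := Real.sq_sqrt (by positivity)
  have hsp : (p : ℝ) ^ 2 ≤ s := by
    rw [hsdef]
    apply Real.le_sqrt_of_sq_le
    have : ((p ^ 4 : ℕ) : ℝ) ≤ (Fintype.card F : ℝ) := by exact_mod_cast hcard
    push_cast at this
    nlinarith
  have hT : (S.card : ℝ) ≤ 1 := by exact_mod_cast hS
  have hT0 : (0 : ℝ) ≤ (S.card : ℝ) := by positivity
  have hp3 : (3 : ℝ) ≤ p := by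
    have : 2 ≤ p := hpp.two_le
    have : 3 ≤ p := by omega
    exact_mod_cast this
  have h3 := neg_abs_le (((p : ℝ) - 1) ^ 2 * (S.card : ℝ) - ((Fintype.card F : ℝ) - 2))
  rw [← hs2] at hR h3
  have h4 : s ^ 2 - 2 - ((p : ℝ) - 1) ^ 2 ≤ (((p : ℝ) - 1) ^ 2 - 1) * s := by
    have : ((p : ℝ) - 1) ^ 2 * (S.card : ℝ) ≤ ((p : ℝ) - 1) ^ 2 := by
      have : 0 ≤ ((p : ℝ) - 1) ^ 2 := by positivity
      nlinarith
    linarith
  have h5 : (p : ℝ) ^ 2 * (2 * p) ≤ s * (s - (p : ℝ) ^ 2 + 2 * p) := by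
    have : (0 : ℝ) ≤ 2 * p := by positivity
    have h6 : 2 * (p : ℝ) ≤ s - (p : ℝ) ^ 2 + 2 * p := by linarith
    have h7 : (0 : ℝ) ≤ (p : ℝ) ^ 2 := by positivity
    nlinarith
  nlinarith

end count

end Cfsg.Agent.Helper95

namespace Cfsg.Agent.Helper95

open Polynomial

section cubic

variable {p : ℕ} [Fact p.Prime]

/-- The cubic `X³ + aX² - a`. -/
noncomputable def cubicPoly (p : ℕ) (a : ZMod p) : Polynomial (ZMod p) :=
  X ^ 3 + C a * X ^ 2 - C a

theorem cubicPoly_eval (a x : ZMod p) : (cubicPoly p a).eval x = x ^ 3 + a * x ^ 2 - a := by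
  simp [cubicPoly]

theorem cubicPoly_natDegree (a : ZMod p) : (cubicPoly p a).natDegree = 3 := by
  unfold cubicPoly
  have : (X ^ 3 + C a * X ^ 2 - C a : Polynomial (ZMod p)) = X ^ 3 + (C a * X ^ 2 - C a) := by ring
  rw [this]
  have hlt : (C a * X ^ 2 - C a : Polynomial (ZMod p)).degree < (X ^ 3 : Polynomial (ZMod p)).degree := by
    rw [degree_X_pow]
    calc (C a * X ^ 2 - C a : Polynomial (ZMod p)).degree ≤ 2 := by
          compute_degree
      _ < ((3 : ℕ) : WithBot ℕ) := by norm_num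
  apply natDegree_eq_of_degree_eq_some
  rw [degree_add_eq_left_of_degree_lt hlt, degree_X_pow]

theorem cubicPoly_monic (a : ZMod p) : (cubicPoly p a).Monic := by
  unfold cubicPoly
  have : (X ^ 3 + C a * X ^ 2 - C a : Polynomial (ZMod p)) = X ^ 3 + (C a * X ^ 2 - C a) := by ring
  rw [this]
  apply monic_X_pow_add
  calc (C a * X ^ 2 - C a : Polynomial (ZMod p)).degree ≤ 2 := by
        compute_degree
    _ < ((3 : ℕ) : WithBot ℕ) := by norm_num

theorem exists_cubic_no_root (p : ℕ) [Fact p.Prime] :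
    ∃ a : ZMod p, ∀ x : ZMod p, (cubicPoly p a).eval x ≠ 0 := by
  have hni : ¬ Function.Injective (fun x : ZMod p => x ^ 3 / (1 - x ^ 2)) := by
    intro h
    have h01 : (fun x : ZMod p => x ^ 3 / (1 - x ^ 2)) 0 = (fun x : ZMod p => x ^ 3 / (1 - x ^ 2)) 1 := by
      simp
    exact zero_ne_one (h h01)
  have hns : ¬ Function.Surjective (fun x : ZMod p => x ^ 3 / (1 - x ^ 2)) :=
    fun h => hni (Finite.injective_iff_surjective.mpr h)
  simp only [Function.Surjective, not_forall, not_exists] at hns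
  obtain ⟨a, ha⟩ := hns
  refine ⟨a, fun x hx => ?_⟩
  rw [cubicPoly_eval] at hx
  have hx' : x ^ 3 = a * (1 - x ^ 2) := by linear_combination hx
  by_cases h1 : 1 - x ^ 2 = 0
  · rw [h1, mul_zero] at hx'
    have hx0 : x = 0 := pow_eq_zero_iff (n := 3) (by norm_num) |>.mp hx'
    rw [hx0] at h1
    simp at h1
  · apply ha x
    show x ^ 3 / (1 - x ^ 2) = a
    rw [div_eq_iff h1]
    exact hx'


theorem norm_sub_root {K : Type*} [Field K] {f : K[X]} (hf : f.Monic) (c : K) :
    Algebra.norm K (algebraMap K (AdjoinRoot f) c - AdjoinRoot.root f) = f.eval c := by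
  classical
  have hmin : minpoly K (AdjoinRoot.root f) = f := by
    rw [AdjoinRoot.minpoly_root hf.ne_zero, hf.leadingCoeff, inv_one, C_1, mul_one]
  rw [Algebra.norm_eq_matrix_det (AdjoinRoot.powerBasis' hf).basis, map_sub, AlgHom.commutes]
  have h1 : Algebra.leftMulMatrix (AdjoinRoot.powerBasis' hf).basis (AdjoinRoot.root f) =
      Algebra.leftMulMatrix (AdjoinRoot.powerBasis' hf).basis (AdjoinRoot.powerBasis' hf).gen := rfl
  rw [h1, Matrix.algebraMap_eq_diagonal]
  have h2 := Matrix.eval_charpoly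
    (Algebra.leftMulMatrix (AdjoinRoot.powerBasis' hf).basis (AdjoinRoot.powerBasis' hf).gen) c
  rw [charpoly_leftMulMatrix] at h2
  have h3 : (AdjoinRoot.powerBasis' hf).gen = AdjoinRoot.root f := rfl
  rw [h3, hmin] at h2
  rw [h2]
  rfl

theorem exists_norm_pair_three (p : ℕ) [Fact p.Prime] :
    ∃ a : GaloisField p 3, a ≠ 1 ∧ Algebra.norm (ZMod p) a = 1 ∧
      Algebra.norm (ZMod p) (2 - a) = 1 := by
  obtain ⟨a, ha⟩ := exists_cubic_no_root p
  set f := cubicPoly p a with hfdef
  have hmon : f.Monic := cubicPoly_monic a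
  have hdeg : f.natDegree = 3 := cubicPoly_natDegree a
  have hirr : Irreducible f := by
    rw [hmon.irreducible_iff_roots_eq_zero_of_degree_le_three (by omega) (by omega)]
    rw [Multiset.eq_zero_iff_forall_notMem]
    intro x hx
    exact ha x ((mem_roots hmon.ne_zero).mp hx)
  haveI : Fact (Irreducible f) := ⟨hirr⟩
  haveI : Module.Finite (ZMod p) (AdjoinRoot f) := (AdjoinRoot.powerBasis' hmon).finite
  haveI : Finite (AdjoinRoot f) := Module.finite_of_finite (ZMod p)
  have hfin : Module.finrank (ZMod p) (AdjoinRoot f) = 3 := by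
    rw [(AdjoinRoot.powerBasis' hmon).finrank, AdjoinRoot.powerBasis'_dim, hdeg]
  have hcard : Nat.card (AdjoinRoot f) = p ^ 3 := by
    rw [Module.natCard_eq_pow_finrank (K := ZMod p), Nat.card_zmod, hfin]
  let e : AdjoinRoot f ≃ₐ[ZMod p] GaloisField p 3 := GaloisField.algEquivGaloisField p 3 hcard
  set r : AdjoinRoot f := AdjoinRoot.root f with hr
  refine ⟨e (1 + r), ?_, ?_, ?_⟩
  · intro h
    have h1 : e (1 + r) = e 1 := by rw [h, map_one]
    have h2 : 1 + r = 1 := e.injective h1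
    have hr0 : r = 0 := by simpa using h2
    have h3 := AdjoinRoot.eval₂_root f
    rw [← hr, hr0, eval₂_at_zero] at h3
    have h4 : f.coeff 0 = 0 := (AdjoinRoot.of f).injective (by rw [h3, map_zero])
    apply ha 0
    rw [← coeff_zero_eq_eval_zero]
    exact h4
  · rw [Algebra.norm_eq_of_algEquiv]
    have h1 : (1 + r : AdjoinRoot f) = algebraMap (ZMod p) (AdjoinRoot f) (-1) *
        (algebraMap (ZMod p) (AdjoinRoot f) (-1) - r) := by
      rw [map_neg, map_one]; ring
    rw [h1, map_mul, Algebra.norm_algebraMap, norm_sub_root hmon, hfin, cubicPoly_eval]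
    ring
  · have h1 : (2 : GaloisField p 3) - e (1 + r) = e (algebraMap (ZMod p) (AdjoinRoot f) 1 - r) := by
      rw [map_one, map_sub, map_add, map_one]; ring
    rw [h1, Algebra.norm_eq_of_algEquiv, norm_sub_root hmon, cubicPoly_eval]
    ring

end cubic

end Cfsg.Agent.Helper95
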