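-- helper95 library: the maximal subgroups of Ω_8^-(q) — row assembly from the structure theorem
-- `O12.o_core` and the pieces of CALL S5874.
import Cfsg.Agent.Helper95.O12Row
import Cfsg.Agent.Helper14.O12T2
import Cfsg.Agent.Helper66.O12N3
import Cfsg.Agent.Helper81.O12N5
import Cfsg.Agent.Helper76.O12N1
import Cfsg.Agent.Helper52.O12T4
import Cfsg.Agent.Helper74.O12PT
import Cfsg.Agent.Helper88.O12T4c
import Cfsg.Agent.Helper76.O12C6

set_option autoImplicit false
set_option linter.unusedSectionVars false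
set_option linter.unusedVariables false
open Cfsg Cfsg.Geo Matrix
open Cfsg.Agent.Helper96

namespace Cfsg.Agent.Helper95.O12

variable {F : Type*} [Field F] [Fintype F]

/-- The conclusion of the row `Ω_8^-(q)`. -/
def Goal8 (Q : (Fin 8 → F) → F) (H : Subgroup (Matrix.GeneralLinearGroup (Fin 8) F)) : Prop :=
    (∃ W : Submodule F (Fin 8 → F), W ≠ ⊥ ∧ Cfsg.Geo.IsTotallySingularQuad Q W ∧ H = Cfsg.Geo.subspaceStabilizer W ⊓ Cfsg.Geo.omegaGL Q) ∨
    (Odd (Fintype.card F) ∧ ∃ W : Submodule F (Fin 8 → F), W ≠ ⊥ ∧ W ≠ ⊤ ∧ Odd (Module.finrank F W) ∧ Cfsg.Geo.IsNondegenerateOn (QuadraticMap.polar Q) W ∧ H = Cfsg.Geo.subspaceStabilizer W ⊓ Cfsg.Geo.omegaGL Q) ∨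
    (∃ W : Submodule F (Fin 8 → F), Module.finrank F W = 2 ∧ Cfsg.Geo.IsNondegenerateOn (QuadraticMap.polar Q) W ∧ ¬ Cfsg.Geo.IsPlusTypeOn Q W ∧ H = Cfsg.Geo.subspaceStabilizer W ⊓ Cfsg.Geo.omegaGL Q) ∨
    (4 ≤ Fintype.card F ∧ ∃ W : Submodule F (Fin 8 → F), Module.finrank F W = 2 ∧ Cfsg.Geo.IsNondegenerateOn (QuadraticMap.polar Q) W ∧ Cfsg.Geo.IsPlusTypeOn Q W ∧ H = Cfsg.Geo.subspaceStabilizer W ⊓ Cfsg.Geo.omegaGL Q) ∨
    (∃ W : Submodule F (Fin 8 → F), Module.finrank F W = 4 ∧ Cfsg.Geo.IsNondegenerateOn (QuadraticMap.polar Q) W ∧ H = Cfsg.Geo.subspaceStabilizer W ⊓ Cfsg.Geo.omegaGL Q) ∨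
    (¬ Odd (Fintype.card F) ∧ ∃ v : (Fin 8 → F), Q v ≠ 0 ∧ H = Cfsg.Geo.subspaceStabilizer (Submodule.span F {v}) ⊓ Cfsg.Geo.omegaGL Q) ∨
    (∃ K : Subalgebra F (Matrix (Fin 8) (Fin 8) F), Cfsg.Geo.IsFieldSubalgebra 2 K ∧ H = Cfsg.Geo.subalgebraNormalizer K ⊓ Cfsg.Geo.omegaGL Q) ∨
    (∃ (F₀ : Subfield F) (r : ℕ) (P : Matrix.GeneralLinearGroup (Fin 8) F) (ζ : F), r.Prime ∧ Odd r ∧ Fintype.card F = Nat.card F₀ ^ r ∧ ζ ≠ 0 ∧ Cfsg.Geo.IsQuadFormRationalStructure (fun v : Fin 8 → F => ζ * Q v) F₀ P ∧ H = Cfsg.Geo.subfieldSubgroup F₀ P ⊓ Cfsg.Geo.omegaGL Q) ∨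
    Cfsg.Geo.InOrthogonalResidualClass H

theorem finrank_top8 : Module.finrank F (⊤ : Submodule F (Fin 8 → F)) = 8 := by
  rw [finrank_top, Module.finrank_fintype_fun_eq_card, Fintype.card_fin]

theorem card8 : Fintype.card (Fin 8) = 8 := Fintype.card_fin 8

section
variable {Q : (Fin 8 → F) → F} (hQ : IsNondegenerateQuadraticForm Q)
  (hminus : ¬ IsPlusTypeOn Q ⊤) {H : Subgroup (GL (Fin 8) F)} (hH : IsMaximalIn (omegaGL Q) H)

include hQ hminus hH in
/-- A proper non-zero non-degenerate invariant subspace of dimension at most four. -/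
theorem sub_case8 (W : Submodule F (Fin 8 → F)) (hW0 : W ≠ ⊥) (hW1 : W ≠ ⊤)
    (hnd : IsNondegenerateOn (QuadraticMap.polar Q) W) (hle : H ≤ subspaceStabilizer W)
    (hd4 : Module.finrank F W ≤ 4) : Goal8 Q H := by
  classical
  have hN := Cfsg.Agent.Helper76.o12_notOmega_subspace Q hQ (by rw [card8]; norm_num) W hW0 hW1
  have hkey := key hH hle hN
  obtain ⟨d, hd⟩ : ∃ d, Module.finrank F W = d := ⟨_, rfl⟩
  have hd1 : 1 ≤ d := by
    rw [← hd]
    exact Nat.one_le_iff_ne_zero.mpr (fun h0 => hW0 (Submodule.finrank_eq_zero.mp h0))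
  rw [hd] at hd4
  have hoddcase : Odd d → Goal8 Q H := by
    intro hodd
    have h2 := Cfsg.Agent.Helper76.o12_two_ne_of_odd Q hQ W hnd (by rw [hd]; exact hodd)
    exact Or.inr (Or.inl ⟨odd_of_two_ne_zero h2, W, hW0, hW1, by rw [hd]; exact hodd, hnd, hkey⟩)
  rcases (by omega : d = 1 ∨ d = 2 ∨ d = 3 ∨ d = 4) with rfl | rfl | rfl | rfl
  · exact hoddcase (by decide)
  · by_cases hplus : IsPlusTypeOn Q W
    · by_cases hq : 4 ≤ Fintype.card F
      · exact Or.inr (Or.inr (Or.inr (Or.inl ⟨hq, W, hd, hnd, hplus, hkey⟩)))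
      · obtain ⟨x, hx, hxle⟩ := Cfsg.Agent.Helper20.o12_plus_plane_small (by omega) Q hQ W hd hnd hplus
        have hle' : H ≤ subspaceStabilizer (Submodule.span F {x}) :=
          fun h hh => hxle ⟨le_iso hH hh, hle hh⟩
        have hN' := Cfsg.Agent.Helper76.o12_notOmega_subspace Q hQ (by rw [card8]; norm_num) _
          (span_ne_bot hx hQ) (span_ne_top_gen (by norm_num) x)
        have hkey' := key hH hle' hN'
        by_cases h2 : (2 : F) = 0
        · exact Or.inr (Or.inr (Or.inr (Or.inr (Or.inr (Or.inl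
            ⟨not_odd_of_two_eq_zero h2, x, hx, hkey'⟩)))))
        · have hx0 : x ≠ 0 := by
            rintro rfl
            exact hx (q_zero hQ)
          refine Or.inr (Or.inl ⟨odd_of_two_ne_zero h2, _, span_ne_bot hx hQ,
            span_ne_top_gen (by norm_num) x, ?_, ?_, hkey'⟩)
          · rw [finrank_span_singleton hx0]
            exact odd_one
          · intro w hw hw0
            obtain ⟨c, rfl⟩ := Submodule.mem_span_singleton.mp hw
            have hc : c ≠ 0 := by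
              rintro rfl
              exact hw0 (zero_smul _ _)
            have hxx : QuadraticMap.polar Q x x ≠ 0 := by
              rw [Helper97.polar_self Q hQ]
              exact mul_ne_zero h2 hx
            refine ⟨⟨x, Submodule.mem_span_singleton_self x, ?_⟩,
              ⟨x, Submodule.mem_span_singleton_self x, ?_⟩⟩
            · rw [hQ.polar_bilinear.smul_right]
              exact mul_ne_zero hc hxx
            · rw [hQ.polar_bilinear.smul_left]
              exact mul_ne_zero hc hxx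
    · exact Or.inr (Or.inr (Or.inl ⟨W, hd, hnd, hplus, hkey⟩))
  · exact hoddcase (by decide)
  · exact Or.inr (Or.inr (Or.inr (Or.inr (Or.inl ⟨W, hd, hnd, hkey⟩))))

include hQ hminus hH in
/-- A non-degenerate decomposition permuted by the (irreducible) group: impossible in minus type. -/
theorem decomp_case8 (hirr : ActsIrreducibly (matrixSet H)) {t k : ℕ}
    (D : Fin t → Submodule F (Fin 8 → F))
    (hD : IsNondegenerateMDecomposition (QuadraticMap.polar Q) k D)
    (hle : H ≤ decompositionStabilizer D) : False := by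
  classical
  have hO : IsOrthogonalMDecomposition Q k D :=
    ⟨hD, fun i j => Helper94.OA.decomp_iso H hirr (le_iso hH) D hD.decomp hle i j⟩
  have htk := decomp_card_gen D hD.decomp
  have ht2 := hD.decomp.two_le
  have hk := hD.decomp.pos
  have ht8 : t ≤ 8 := Nat.le_of_dvd (by norm_num) ⟨k, htk.symm⟩
  have hcases : (t = 2 ∧ k = 4) ∨ (t = 4 ∧ k = 2) ∨ (t = 8 ∧ k = 1) := by
    interval_cases t <;> omega
  rcases hcases with ⟨rfl, rfl⟩ | ⟨rfl, rfl⟩ | ⟨rfl, rfl⟩
  · exact hminus (Cfsg.Agent.Helper14.o12_decomp_plus Q hQ D hO (by decide) (by decide))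
  · exact hminus (Cfsg.Agent.Helper14.o12_decomp_plus Q hQ D hO (by decide) (by decide))
  · exact hminus (Cfsg.Agent.Helper14.o12_decomp_plus Q hQ D hO (by decide) (by decide))

include hQ hH in
/-- A field of prime degree normalised by the group. -/
theorem field_case8 {r : ℕ} (K : Subalgebra F (Matrix (Fin 8) (Fin 8) F)) (hr : r.Prime)
    (hK : IsFieldSubalgebra r K) (hle : H ≤ subalgebraNormalizer K) : Goal8 Q H := by
  classical
  have hdvd : r ∣ 8 := by
    have := (Helper97.finrank_dvd_of_division K hK.inv).1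
    rwa [hK.finrank_eq] at this
  have hr8 : r ≤ 8 := Nat.le_of_dvd (by norm_num) hdvd
  have hcases : r = 2 := by
    interval_cases r <;> first | omega | (exact absurd hr (by decide))
  subst hcases
  exact Or.inr (Or.inr (Or.inr (Or.inr (Or.inr (Or.inr (Or.inl
    ⟨K, hK, key hH hle (Cfsg.Agent.Helper66.o12_notOmega_field Q hQ (by norm_num) (by rw [card8]; norm_num) K hK)⟩))))))

include hQ hminus hH in
/-- The tensor case `2 ⊗ 4`. -/
theorem tensor24_case (h2 : (2 : F) ≠ 0)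
    (e : Fin 8 ≃ Fin 2 × Fin 4) (P : GL (Fin 8) F)
    (f₁ : (Fin 2 → F) → (Fin 2 → F) → F) (f₂ : (Fin 4 → F) → (Fin 4 → F) → F)
    (hf₁ : IsSymmetricForm f₁) (hf₂ : IsSymmetricForm f₂)
    (hT : IsTensorFormStructure id (QuadraticMap.polar Q) f₁ f₂ e P)
    (hle : H ≤ tensorProductSubgroup 2 4 e P) : Goal8 Q H := by
  classical
  by_cases haniso : ∀ s : Fin 2 → F, f₁ s s = 0 → s = 0
  · obtain ⟨K, hK, hKn⟩ := Cfsg.Agent.Helper88.o12_tensor_two_field h2 (QuadraticMap.polar Q) (polar_symmetric hQ)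
      e P f₁ f₂ hf₁ hf₂ hT (by norm_num) haniso
    have hle' : H ≤ subalgebraNormalizer K :=
      fun h hh => hKn h (hle hh) (fun u v => polar_fix (h_iso hH h hh) u v)
    exact Or.inr (Or.inr (Or.inr (Or.inr (Or.inr (Or.inr (Or.inl
      ⟨K, hK, key hH hle' (Cfsg.Agent.Helper66.o12_notOmega_field Q hQ (by norm_num) (by rw [card8]; norm_num) K hK)⟩))))))
  · exfalso
    apply hminus
    push Not at haniso
    obtain ⟨s, hs, hs0⟩ := haniso
    obtain ⟨hT', -⟩ := Cfsg.Agent.Helper20.o12_tensor_swap (QuadraticMap.polar Q) e P f₁ f₂ hT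
    obtain ⟨c, hc, hpt⟩ := Cfsg.Agent.Helper74.o12_tensor_pure (QuadraticMap.polar Q)
      (e.trans (Equiv.prodComm (Fin 2) (Fin 4))) P f₂ f₁ hf₂.bilinear hf₁.bilinear hT'
    have hss : ∀ y ∈ Submodule.span F {s}, f₁ y y = 0 := by
      intro y hy
      obtain ⟨a, rfl⟩ := Submodule.mem_span_singleton.mp hy
      rw [hf₁.bilinear.smul_left, hf₁.bilinear.smul_right, hs, mul_zero, mul_zero]
    refine Cfsg.Agent.Helper52.o12_tensor_plus Q hQ (e.trans (Equiv.prodComm (Fin 2) (Fin 4))) P f₂ f₁ hf₂.bilinear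
      hf₁.bilinear hT' (Submodule.span F {s}) ?_ ?_ ?_
    · intro u hu v hv
      obtain ⟨a, rfl⟩ := Submodule.mem_span_singleton.mp hu
      obtain ⟨b, rfl⟩ := Submodule.mem_span_singleton.mp hv
      rw [hf₁.bilinear.smul_left, hf₁.bilinear.smul_right, hs, mul_zero, mul_zero]
    · rw [finrank_span_singleton hs0]
    · intro s' y hy
      apply q_of_polar hQ h2
      rw [hpt, hss y hy, mul_zero, mul_zero]

include hQ hminus hH in
/-- The tensor case. -/
theorem tensor_case8 (h2 : (2 : F) ≠ 0) {n₁ n₂ : ℕ}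
    (e : Fin 8 ≃ Fin n₁ × Fin n₂) (P : GL (Fin 8) F)
    (f₁ : (Fin n₁ → F) → (Fin n₁ → F) → F) (f₂ : (Fin n₂ → F) → (Fin n₂ → F) → F)
    (h1 : 2 ≤ n₁) (h2' : 2 ≤ n₂)
    (hf₁ : IsSymmetricForm f₁) (hf₂ : IsSymmetricForm f₂)
    (hT : IsTensorFormStructure id (QuadraticMap.polar Q) f₁ f₂ e P)
    (hle : H ≤ tensorProductSubgroup n₁ n₂ e P) : Goal8 Q H := by
  classical
  have hcard : n₁ * n₂ = 8 := by
    have := Fintype.card_congr e
    simpa using this.symm
  have hn8 : n₁ ≤ 8 := Nat.le_of_dvd (by norm_num) ⟨n₂, hcard.symm⟩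
  have hcases : (n₁ = 2 ∧ n₂ = 4) ∨ (n₁ = 4 ∧ n₂ = 2) := by
    interval_cases n₁ <;> omega
  obtain ⟨hT', heq⟩ := Cfsg.Agent.Helper20.o12_tensor_swap (QuadraticMap.polar Q) e P f₁ f₂ hT
  rcases hcases with ⟨rfl, rfl⟩ | ⟨rfl, rfl⟩
  · exact tensor24_case hQ hminus hH h2 e P f₁ f₂ hf₁ hf₂ hT hle
  · exact tensor24_case hQ hminus hH h2 _ P f₂ f₁ hf₂ hf₁ hT' (heq ▸ hle)

include hQ hminus hH in
/-- The subfield case. -/
theorem subfield_case8 (F₁ : Subfield F) (r : ℕ) (P : GL (Fin 8) F) (ζ : F) (hr : r.Prime)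
    (hcard : Fintype.card F = Nat.card F₁ ^ r) (hζ : ζ ≠ 0)
    (hrat : IsQuadFormRationalStructure (fun v : Fin 8 → F => ζ * Q v) F₁ P)
    (hle : H ≤ subfieldSubgroup F₁ P) : Goal8 Q H := by
  classical
  by_cases hr2 : r = 2
  · subst hr2
    exact absurd (Cfsg.Agent.Helper30.o12_subfield_two_plus Q hQ F₁ hcard P ζ hζ hrat
      (by rw [card8]; decide)) hminus
  · have hodd : Odd r := hr.eq_two_or_odd'.resolve_left hr2
    have hF₁ : F₁ ≠ ⊤ := top_ne_of_card F₁ hr hcard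
    exact Or.inr (Or.inr (Or.inr (Or.inr (Or.inr (Or.inr (Or.inr (Or.inl
      ⟨F₁, r, P, ζ, hr, hodd, hcard, hζ, hrat,
        key hH hle (Cfsg.Agent.Helper81.o12_notOmega_subfield Q hQ (by rw [card8]; norm_num) F₁ hF₁ P)⟩)))))))

include hQ hminus hH in
/-- The maximal subgroups of `Ω_8^-(q)`. -/
theorem row8 : Goal8 Q H := by
  classical
  rcases o_core (by norm_num) Q hQ H (h_iso hH) with
    ⟨W, hW0, hts, hle⟩ | ⟨h2, v, hv, hle⟩ | ⟨W, W', hW0, hW'0, hnd, hnd', horth, hinf, hsup, hle, hle'⟩ |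
    ⟨hirr, t, k, D, hD, hle⟩ | ⟨r, K, hr, hK, hle⟩ | hplus |
    ⟨h2, hirr, n₁, n₂, e, P, f₁, f₂, h1, h2', hf₁, hf₂, hT, hle⟩ |
    ⟨F₁, r, P, ζ, hr, hcard, hζ, hrat, hle⟩ | hres | ⟨r, j, N, hr, hrj, hr0, hNH, habs, hab, hpow⟩ |
    ⟨d, t, k, N, S, e, P, ρ, hd, ht, hdt, hNH, hirrN, hSN, hSn, hSperf, hTD⟩
  · -- totally singular subspace
    have hW1 : W ≠ ⊤ := by
      rintro rfl
      exact ts_ne_top (by norm_num) hQ hts
    exact Or.inl ⟨W, hW0, hts, key hH hle
      (Cfsg.Agent.Helper76.o12_notOmega_subspace Q hQ (by rw [card8]; norm_num) W hW0 hW1)⟩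
  · -- non-singular vector, characteristic two
    exact Or.inr (Or.inr (Or.inr (Or.inr (Or.inr (Or.inl
      ⟨not_odd_of_two_eq_zero h2, v, hv, key hH hle
        (Cfsg.Agent.Helper76.o12_notOmega_subspace Q hQ (by rw [card8]; norm_num) _
          (span_ne_bot hv hQ) (span_ne_top_gen (by norm_num) v))⟩)))))
  · -- orthogonal pair
    have hsum : Module.finrank F W + Module.finrank F W' = 8 := by
      have := Submodule.finrank_sup_add_finrank_inf_eq W W'
      rw [hsup, hinf, finrank_bot, finrank_top8] at this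
      omega
    have hW1 : W ≠ ⊤ := by
      rintro rfl
      rw [top_inf_eq] at hinf
      exact hW'0 hinf
    have hW'1 : W' ≠ ⊤ := by
      rintro rfl
      rw [inf_top_eq] at hinf
      exact hW0 hinf
    by_cases h4 : Module.finrank F W ≤ 4
    · exact sub_case8 hQ hminus hH W hW0 hW1 hnd hle h4
    · exact sub_case8 hQ hminus hH W' hW'0 hW'1 hnd' hle' (by omega)
  · exact (decomp_case8 hQ hminus hH hirr D hD hle).elim
  · exact field_case8 hQ hH K hr hK hle
  · exact absurd hplus hminus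
  · exact tensor_case8 hQ hminus hH h2 e P f₁ f₂ h1 h2' hf₁ hf₂ hT hle
  · exact subfield_case8 hQ hminus hH F₁ r P ζ hr hcard hζ hrat hle
  · exact Or.inr (Or.inr (Or.inr (Or.inr (Or.inr (Or.inr (Or.inr (Or.inr hres)))))))
  · -- class two: `r = 2`
    exfalso
    have h2 : 2 ∣ r ^ j := ⟨32, by rw [← hrj]⟩
    have hr2 := (Nat.prime_dvd_prime_iff_eq Nat.prime_two hr).mp (Nat.Prime.dvd_of_dvd_pow Nat.prime_two h2)
    subst hr2
    have h2F : (2 : F) ≠ 0 := by exact_mod_cast hr0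
    exact hminus (Cfsg.Agent.Helper76.o12_class_two_plus h2F (by norm_num) (le_refl 8) Q hQ N
      (fun g hg x => h_iso hH g (hNH hg) x) habs hab hpow)
  · -- central product: `d = 2`, `t = 3`
    exfalso
    have h1 : d ^ 2 ≤ d ^ t := Nat.pow_le_pow_right (by omega) ht
    have hd2 : d = 2 := by
      by_contra hcon
      have : 3 ^ 2 ≤ d ^ 2 := Nat.pow_le_pow_left (by omega) 2
      omega
    subst hd2
    have hk : 2 * k = 8 := hTD.card_eq
    exact hminus (o_cp_two (by norm_num) Q hQ N S (fun g hg x => h_iso hH g (hNH hg) x) hirrN hSN hSn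
      hSperf hTD (by omega))

end

end Cfsg.Agent.Helper95.O12
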