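import Mathlib
import Cfsg.Prelude.Def_GeometricClasses
import Cfsg.Prelude.Def_Classical
import Cfsg.Agent.Helper35.S88Defs
import Cfsg.Agent.Helper58.TSDefs
import Cfsg.Agent.Helper43.PrimeOrdO3
import Cfsg.Agent.Helper33.OType
import Cfsg.Agent.Helper43.S88OEDefs
import Cfsg.Agent.Helper43.TBPAR

set_option autoImplicit false

/-!
# Sub-CALL S88OE (helper43) of CALL S88, piece BLKTYPE (double by helper95)

`oe_blk_type`: dimension and type of a block when `i = ord_r(q)` is even.
-/

namespace Cfsg.Agent.Helper95.S88OE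

open Module Polynomial Cfsg Cfsg.Geo Cfsg.Agent.Helper58.TS Cfsg.Agent.Helper35.S88
open Cfsg.Agent.Helper43 Cfsg.Agent.Helper43.OrthEven Cfsg.Agent.Helper43.CycFactors
  Cfsg.Agent.Helper43.PrimeOrdMat Cfsg.Agent.Helper43.S88OE
open scoped MatrixGroups

universe u

section fin

variable {F : Type u} [Field F] [Fintype F]

/-- the characteristic polynomial of a block (own copy of BLKCHAR) -/
theorem oe95_blk_char (p : ℕ) [Fact p.Prime] [CharP F p] (r : ℕ) [Fact r.Prime] (hrp : r ≠ p)
    {V : Type u} [AddCommGroup V] [Module F V] [FiniteDimensional F V] (T : Module.End F V)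
    (hcyc : aeval T (cyclotomic r F) = 0) :
    ∃ c : F[X] → ℕ, T.charpoly = ∏ P ∈ cycJ F r, P ^ c P := by
  classical
  have hr : r.Prime := Fact.out
  have hrF : (r : F) ≠ 0 := natCast_ne_zero_of_ne (p := p) hr hrp
  have hTr : T ^ r = 1 := by
    have h := congrArg (aeval T) (cyclotomic_prime_mul_X_sub_one F r)
    rw [map_mul, hcyc, zero_mul, map_sub, map_pow, aeval_X, map_one] at h
    exact (sub_eq_zero.1 h.symm)
  have hM : (LinearMap.toMatrix (Module.finBasis F V) (Module.finBasis F V) T) ^ r = 1 := by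
    have h := map_pow (LinearMap.toMatrixAlgEquiv (Module.finBasis F V)) T r
    rw [hTr, map_one] at h
    exact h.symm
  obtain ⟨c₀, c, hc⟩ := charpoly_eq_psi p hr hrp
    (LinearMap.toMatrix (Module.finBasis F V) (Module.finBasis F V) T) hM
  rw [LinearMap.charpoly_toMatrix] at hc
  refine ⟨c, ?_⟩
  rcases Nat.eq_zero_or_pos c₀ with h0 | hpos
  · rw [hc, psi, h0, pow_zero, one_mul]
  · exfalso
    have hroot : T.charpoly.IsRoot 1 := by
      have h1 : (X - C (1 : F) : F[X]) ∣ T.charpoly := by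
        rw [hc, psi, map_one]
        exact Dvd.dvd.mul_right (dvd_pow_self _ (by omega)) _
      exact Polynomial.dvd_iff_isRoot.1 h1
    have hev : T.HasEigenvalue 1 := (Module.End.hasEigenvalue_iff_isRoot_charpoly T 1).2 hroot
    obtain ⟨v, hv⟩ := hev.exists_hasEigenvector
    have h3 := Module.End.aeval_apply_of_hasEigenvector (p := cyclotomic r F) hv
    rw [hcyc, eval_one_cyclotomic_prime, LinearMap.zero_apply] at h3
    rcases smul_eq_zero.1 h3.symm with h4 | h4
    · exact hrF h4
    · exact hv.2 h4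

/-- BLKTYPE: dimension and type of a block, `i` even. -/
theorem oe_blk_type (p : ℕ) [Fact p.Prime] [CharP F p] (r : ℕ) [Fact r.Prime] (hr2 : 2 < r)
    (hrp : r ≠ p) (heven : Even (orderOf ((Fintype.card F : ℕ) : ZMod r))) {V : Type u}
    [AddCommGroup V] [Module F V] [FiniteDimensional F V] (Q : QuadraticForm F V)
    (T : Module.End F V) (hblk : Blk r Q T) :
    ∃ n, finrank F V = 2 * (orderOf ((Fintype.card F : ℕ) : ZMod r) / 2 * n) ∧
      (HasTS Q (orderOf ((Fintype.card F : ℕ) : ZMod r) / 2 * n) ↔ Even n) := by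
  classical
  obtain ⟨hnd, hT, hcyc⟩ := hblk
  have hr : r.Prime := Fact.out
  obtain ⟨c, hc⟩ := oe95_blk_char p r hrp T hcyc
  have hdim : finrank F V =
      2 * (orderOf ((Fintype.card F : ℕ) : ZMod r) / 2 * ∑ P ∈ cycJ F r, c P) := by
    have h1 := LinearMap.charpoly_natDegree T
    have hch' : T.charpoly = psi r 0 c := by rw [hc, psi, pow_zero, one_mul]
    rw [hch', psi_natDegree (p := p) rfl hr hrp, zero_add] at h1
    obtain ⟨j, hj⟩ := heven
    rw [← h1, hj]
    have h2 : (j + j) / 2 = j := by omega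
    rw [h2]
    ring
  exact ⟨∑ P ∈ cycJ F r, c P, hdim,
    Cfsg.Agent.Helper43.TB.tb_par p r hr2 hrp heven Q T hnd hT hcyc c hc _ hdim⟩

end fin

end Cfsg.Agent.Helper95.S88OE
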