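import Mathlib
import Cfsg.Prelude.Def_GeometricClasses
import Cfsg.Prelude.Def_Classical
import Cfsg.Agent.Helper35.S88Defs
import Cfsg.Agent.Helper58.TSDefs
import Cfsg.Agent.Helper43.PrimeOrdO3
import Cfsg.Agent.Helper33.OType
import Cfsg.Agent.Helper43.S88OEDefs
import Cfsg.Agent.Helper5.TBBLKE
import Cfsg.Agent.Helper93.TBTYPEPROD
import Cfsg.Agent.Helper95.TBFULL
import Cfsg.Agent.Helper98.S88OEBSPLIT

set_option autoImplicit false

/-!
# CALL S90 (row S5990), stage OEB support (helper95): the bad model with a fixed space of ANY type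

`bm_type`: the model `V₀ × (tb_blk_even P A)` where the fixed space `V₀` has dimension `2 k₀` and
type `b` (`HasTS Q₀ k₀ ↔ b`, any `b` with `k₀ = 0 → b`): the ambient type is `b ↔ Even A`, and the
type of every invariant nondegenerate subspace is known in the two boundary cases `w₂ = 0`,
`w₂ = k₀`.  `minus_ell_bad_model`: ambient MINUS type (`b := ¬ Even A`), invariant ELLIPTIC
subspaces.  `minus_hyp_bad_model`: ambient minus type, invariant hyperbolic subspaces.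
-/

namespace Cfsg.Agent.Helper95.S90

open Module Polynomial Cfsg Cfsg.Geo Cfsg.Agent.Helper58.TS Cfsg.Agent.Helper35.S88
open Cfsg.Agent.Helper43 Cfsg.Agent.Helper43.OrthEven Cfsg.Agent.Helper43.CycFactors
  Cfsg.Agent.Helper43.PrimeOrdMat Cfsg.Agent.Helper43.S88OE
open scoped MatrixGroups

universe u

section fin

variable {F : Type u} [Field F] [Fintype F]

/-- the bad model of the profile `(A, k₀)` with a fixed space of type `b` -/
theorem bm_type (p : ℕ) [Fact p.Prime] [CharP F p] (r : ℕ) [Fact r.Prime] (hr2 : 2 < r)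
    (hrp : r ≠ p) (heven : Even (orderOf ((Fintype.card F : ℕ) : ZMod r))) (A k₀ : ℕ)
    (hA : 1 ≤ A) (b : Prop) (hk₀ : k₀ = 0 → b) :
    ∃ (V' : Type u) (_ : AddCommGroup V') (_ : Module F V') (_ : FiniteDimensional F V')
      (Q' : QuadraticForm F V') (T' : Module.End F V'),
      PolarNondeg Q' ∧
      finrank F V' = 2 * (k₀ + orderOf ((Fintype.card F : ℕ) : ZMod r) / 2 * A) ∧
      (HasTS Q' (k₀ + orderOf ((Fintype.card F : ℕ) : ZMod r) / 2 * A) ↔ (b ↔ Even A)) ∧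
      (∀ v, Q' (T' v) = Q' v) ∧ T' ^ r = 1 ∧ T' ≠ 1 ∧
      ∀ (l : ℕ) (W : Submodule F V'), W.map T' ≤ W → finrank F W = 2 * l →
        PolarNondeg (Q'.comp W.subtype) →
        ∃ s w₂, s ≤ A ∧ w₂ ≤ k₀ ∧
          l = orderOf ((Fintype.card F : ℕ) : ZMod r) / 2 * s + w₂ ∧
          (w₂ = 0 → (HasTS (Q'.comp W.subtype) l ↔ Even s)) ∧
          (w₂ = k₀ → (HasTS (Q'.comp W.subtype) l ↔ (b ↔ Even s))) := by
  classical
  have hr : r.Prime := Fact.out
  have hrF : (r : F) ≠ 0 := natCast_ne_zero_of_ne (p := p) hr hrp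
  have hipos : 0 < orderOf ((Fintype.card F : ℕ) : ZMod r) :=
    orderOf_pos_of_card (p := p) (F := F) rfl hr hrp
  have hjpos : 1 ≤ orderOf ((Fintype.card F : ℕ) : ZMod r) / 2 := by
    obtain ⟨j, hj⟩ := heven
    omega
  have hne : (cycJ F r).Nonempty := by
    have h := cycJ_card_mul (p := p) (F := F) rfl hr hrp
    rw [Finset.nonempty_iff_ne_empty]
    intro h0
    rw [h0, Finset.card_empty, zero_mul] at h
    omega
  obtain ⟨P, hP⟩ := hne
  obtain ⟨V₁, _, _, _, Q₁, T₁, hnd₁, hT₁, hcyc, -, hdim₁, htype₁, -⟩ :=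
    Cfsg.Agent.Helper5.TB.tb_blk_even p r hr2 hrp heven P hP A
  -- `T₁ ^ r = 1`
  have hT₁r : T₁ ^ r = 1 := by
    have h := congrArg (aeval T₁) (cyclotomic_prime_mul_X_sub_one F r)
    rw [map_mul, hcyc, zero_mul, map_sub, map_pow, aeval_X, map_one] at h
    exact (sub_eq_zero.1 h.symm)
  -- `T₁ ≠ 1`
  have hT₁ne : T₁ ≠ 1 := by
    intro h1
    have hpos : 0 < finrank F V₁ := by
      rw [hdim₁]
      have := Nat.mul_le_mul hjpos hA
      omega
    obtain ⟨v, hv⟩ := (Module.finrank_pos_iff_exists_ne_zero (R := F) (M := V₁)).1 hpos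
    have h2 : aeval (1 : Module.End F V₁) (cyclotomic r F) =
        algebraMap F (Module.End F V₁) ((cyclotomic r F).eval 1) := by
      have := Polynomial.aeval_algebraMap_apply_eq_algebraMap_eval (A := Module.End F V₁) (1 : F)
        (cyclotomic r F)
      rwa [map_one] at this
    rw [h1, h2, eval_one_cyclotomic_prime] at hcyc
    have h3 := congrArg (fun f : Module.End F V₁ => f v) hcyc
    simp only [Module.algebraMap_end_apply, LinearMap.zero_apply] at h3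
    rcases smul_eq_zero.1 h3 with h4 | h4
    · exact hrF h4
    · exact hv h4
  -- the fixed space
  obtain ⟨ε₀, hε₀⟩ : ∃ ε₀ : ℕ, ε₀ = if b then 0 else 1 := ⟨_, rfl⟩
  have hε1 : ε₀ ≤ 1 := by
    rw [hε₀]
    split_ifs <;> omega
  have hεk : ε₀ ≤ k₀ := by
    rw [hε₀]
    split_ifs with h
    · omega
    · have : k₀ ≠ 0 := fun h0 => h (hk₀ h0)
      omega
  have hε0 : ε₀ = 0 ↔ b := by
    rw [hε₀]
    split_ifs with h <;> simp [h]
  obtain ⟨V₀, _, _, _, Q₀, hnd₀, hdim₀, htype₀, -⟩ :=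
    Cfsg.Agent.Helper95.TB.tbf_std (F := F) k₀ ε₀ hε1 hεk
  have htype₀' : HasTS Q₀ k₀ ↔ b := by rw [htype₀, hε0]
  refine ⟨V₀ × V₁, inferInstance, inferInstance, inferInstance, Q₀.prod Q₁,
    (1 : Module.End F V₀).prodMap T₁, Cfsg.Agent.Helper95.TB.tbf_prod_nd Q₀ Q₁ hnd₀ hnd₁,
    ?_, ?_, ?_, ?_, ?_, ?_⟩
  · rw [Module.finrank_prod, hdim₀, hdim₁]
    ring
  · rw [Cfsg.Agent.Helper93.TB.tb_type_prod Q₀ Q₁ hnd₀ hnd₁ k₀ _ hdim₀ hdim₁, htype₀', htype₁]
  · intro v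
    rw [QuadraticMap.prod_apply, QuadraticMap.prod_apply]
    show Q₀ v.1 + Q₁ (T₁ v.2) = Q₀ v.1 + Q₁ v.2
    rw [hT₁]
  · have h := Cfsg.Agent.Helper95.TB.tbf_aeval_prod (1 : Module.End F V₀) T₁ (X ^ r)
    rw [map_pow, map_pow, map_pow, aeval_X, aeval_X, aeval_X, hT₁r, one_pow] at h
    rw [h]
    exact LinearMap.prodMap_one
  · intro h1
    apply hT₁ne
    apply LinearMap.ext
    intro v
    have h2 := congrArg (fun f : Module.End F (V₀ × V₁) => (f (0, v)).2) h1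
    exact h2
  · intro l W hWinv hWdim hWnd
    obtain ⟨Ua, s, w₂, hUand, hUadim, hl, hs, htype⟩ :=
      Cfsg.Agent.Helper98.S88OE.oe_bad_split p r hr2 hrp heven Q₀ Q₁ T₁ ⟨hnd₁, hT₁, hcyc⟩ l W
        hWinv hWdim hWnd
    have hw₂ : w₂ ≤ k₀ := by
      have := Submodule.finrank_le Ua
      rw [hUadim, hdim₀] at this
      omega
    refine ⟨s, w₂, ?_, hw₂, hl, ?_, ?_⟩
    · rw [hdim₁] at hs
      by_contra hcon
      rw [not_le] at hcon
      have h1 : orderOf ((Fintype.card F : ℕ) : ZMod r) / 2 * (A + 1) ≤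
          orderOf ((Fintype.card F : ℕ) : ZMod r) / 2 * s := Nat.mul_le_mul_left _ hcon
      rw [Nat.mul_add, Nat.mul_one] at h1
      omega
    · intro h0
      subst h0
      have hts0 : HasTS (Q₀.comp Ua.subtype) 0 :=
        ⟨⊥, Nat.zero_le _, fun u hu => by rw [(Submodule.mem_bot F).1 hu, map_zero]⟩
      rw [htype]
      exact ⟨fun h => h.1 hts0, fun h => ⟨fun _ => h, fun _ => hts0⟩⟩
    · intro hk
      subst hk
      have htop : Ua = ⊤ := Submodule.eq_top_of_finrank_eq (by rw [hUadim, hdim₀])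
      subst htop
      have hts : HasTS (Q₀.comp (⊤ : Submodule F V₀).subtype) w₂ ↔ b := by
        rw [← htype₀']
        constructor
        · intro h
          exact hasTS_equiv Q₀ (fun z => (Q₀.comp (⊤ : Submodule F V₀).subtype) z)
            (Submodule.topEquiv (R := F) (M := V₀)) (fun z => rfl) h
        · intro h
          exact hasTS_equiv (Q₀.comp (⊤ : Submodule F V₀).subtype) (fun z => Q₀ z)
            (Submodule.topEquiv (R := F) (M := V₀)).symm (fun z => rfl) h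
      rw [htype, hts]

/-- ambient MINUS type, invariant ELLIPTIC subspaces -/
theorem minus_ell_bad_model (p : ℕ) [Fact p.Prime] [CharP F p] (r : ℕ) [Fact r.Prime]
    (hr2 : 2 < r) (hrp : r ≠ p) (heven : Even (orderOf ((Fintype.card F : ℕ) : ZMod r)))
    (A k₀ : ℕ) (hA : 1 ≤ A) (hk₀ : k₀ = 0 → Odd A) :
    ∃ (V' : Type u) (_ : AddCommGroup V') (_ : Module F V') (_ : FiniteDimensional F V')
      (Q' : QuadraticForm F V') (T' : Module.End F V'),
      PolarNondeg Q' ∧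
      finrank F V' = 2 * (k₀ + orderOf ((Fintype.card F : ℕ) : ZMod r) / 2 * A) ∧
      ¬ HasTS Q' (k₀ + orderOf ((Fintype.card F : ℕ) : ZMod r) / 2 * A) ∧
      (∀ v, Q' (T' v) = Q' v) ∧ T' ^ r = 1 ∧ T' ≠ 1 ∧
      ∀ (l : ℕ) (W : Submodule F V'), W.map T' ≤ W → finrank F W = 2 * l →
        PolarNondeg (Q'.comp W.subtype) → ¬ HasTS (Q'.comp W.subtype) l →
        ∃ s w₂, (s ≤ A ∧ w₂ ≤ k₀ ∧
            ((0 < w₂ ∧ w₂ < k₀) ∨ (w₂ = 0 ∧ Odd s) ∨ (w₂ = k₀ ∧ Even (s + A)))) ∧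
          l = orderOf ((Fintype.card F : ℕ) : ZMod r) / 2 * s + w₂ := by
  obtain ⟨V', i1, i2, i3, Q', T', h1, h2, h3, h4, h5, h6, h7⟩ :=
    bm_type (F := F) p r hr2 hrp heven A k₀ hA (¬ Even A)
      (fun h0 => Nat.not_even_iff_odd.2 (hk₀ h0))
  refine ⟨V', i1, i2, i3, Q', T', h1, h2, ?_, h4, h5, h6, ?_⟩
  · rw [h3]
    intro h
    by_cases hA' : Even A
    · exact h.2 hA' hA'
    · exact hA' (h.1 hA')
  · intro l W hW hdim hnd hts
    obtain ⟨s, w₂, hs, hw, hl, hb0, hbk⟩ := h7 l W hW hdim hnd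
    refine ⟨s, w₂, ⟨hs, hw, ?_⟩, hl⟩
    rcases Nat.eq_zero_or_pos w₂ with h0 | hpos
    · exact Or.inr (Or.inl ⟨h0, Nat.not_even_iff_odd.1 (fun h => hts ((hb0 h0).2 h))⟩)
    · by_cases hk : w₂ = k₀
      · refine Or.inr (Or.inr ⟨hk, ?_⟩)
        rw [hbk hk] at hts
        rw [Nat.even_add]
        constructor
        · intro hse
          by_contra hA'
          exact hts ⟨fun _ => hse, fun _ => hA'⟩
        · intro hA'
          by_contra hse
          exact hts ⟨fun h => (h hA').elim, fun h => (hse h).elim⟩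
      · exact Or.inl ⟨hpos, by omega⟩

/-- ambient MINUS type, invariant HYPERBOLIC subspaces -/
theorem minus_hyp_bad_model (p : ℕ) [Fact p.Prime] [CharP F p] (r : ℕ) [Fact r.Prime]
    (hr2 : 2 < r) (hrp : r ≠ p) (heven : Even (orderOf ((Fintype.card F : ℕ) : ZMod r)))
    (A k₀ : ℕ) (hA : 1 ≤ A) (hk₀ : k₀ = 0 → Odd A) :
    ∃ (V' : Type u) (_ : AddCommGroup V') (_ : Module F V') (_ : FiniteDimensional F V')
      (Q' : QuadraticForm F V') (T' : Module.End F V'),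
      PolarNondeg Q' ∧
      finrank F V' = 2 * (k₀ + orderOf ((Fintype.card F : ℕ) : ZMod r) / 2 * A) ∧
      ¬ HasTS Q' (k₀ + orderOf ((Fintype.card F : ℕ) : ZMod r) / 2 * A) ∧
      (∀ v, Q' (T' v) = Q' v) ∧ T' ^ r = 1 ∧ T' ≠ 1 ∧
      ∀ (l : ℕ) (W : Submodule F V'), W.map T' ≤ W → finrank F W = 2 * l →
        PolarNondeg (Q'.comp W.subtype) → HasTS (Q'.comp W.subtype) l →
        ∃ s w₂, (s ≤ A ∧ w₂ ≤ k₀ ∧
            ((0 < w₂ ∧ w₂ < k₀) ∨ (w₂ = 0 ∧ Even s) ∨ (w₂ = k₀ ∧ Odd (s + A)))) ∧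
          l = orderOf ((Fintype.card F : ℕ) : ZMod r) / 2 * s + w₂ := by
  obtain ⟨V', i1, i2, i3, Q', T', h1, h2, h3, h4, h5, h6, h7⟩ :=
    bm_type (F := F) p r hr2 hrp heven A k₀ hA (¬ Even A)
      (fun h0 => Nat.not_even_iff_odd.2 (hk₀ h0))
  refine ⟨V', i1, i2, i3, Q', T', h1, h2, ?_, h4, h5, h6, ?_⟩
  · rw [h3]
    intro h
    by_cases hA' : Even A
    · exact h.2 hA' hA'
    · exact hA' (h.1 hA')
  · intro l W hW hdim hnd hts
    obtain ⟨s, w₂, hs, hw, hl, hb0, hbk⟩ := h7 l W hW hdim hnd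
    refine ⟨s, w₂, ⟨hs, hw, ?_⟩, hl⟩
    rcases Nat.eq_zero_or_pos w₂ with h0 | hpos
    · exact Or.inr (Or.inl ⟨h0, (hb0 h0).1 hts⟩)
    · by_cases hk : w₂ = k₀
      · refine Or.inr (Or.inr ⟨hk, ?_⟩)
        rw [hbk hk] at hts
        rw [← Nat.not_even_iff_odd, Nat.even_add]
        intro h
        by_cases hse : Even s
        · exact hts.2 hse (h.1 hse)
        · exact hse (hts.1 (fun hA' => hse (h.2 hA')))
      · exact Or.inl ⟨hpos, by omega⟩

end fin

end Cfsg.Agent.Helper95.S90
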