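import Mathlib
import Cfsg.Agent.Helper95.SpBNDefs
import Cfsg.Agent.Helper11.SpBNSGINJ
import Cfsg.Agent.Helper11.SpBNSGMEM
import Cfsg.Agent.Helper11.SpBNSGSQ
import Cfsg.Agent.Helper11.SpBNTVE
import Cfsg.Agent.Helper12.SpBNPCARD
import Cfsg.Agent.Helper37.SpBN1
import Cfsg.Agent.Helper45.SpBNDecomp
import Cfsg.Agent.Helper47.SpBNBIFF
import Cfsg.Agent.Helper47.SpBNSWAPUP
import Cfsg.Agent.Helper53.SpBNCNE
import Cfsg.Agent.Helper53.SpBNTVCONJ
import Cfsg.Agent.Helper58.SpBNX1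
import Cfsg.Agent.Helper58.SpBNX2
import Cfsg.Agent.Helper8.SpWGen
import Cfsg.Agent.Helper20.SpBNRANK1
import Cfsg.Agent.Helper40.BNStD
import Cfsg.Agent.Helper79.Quotient
import Cfsg.Agent.Helper5.SympCenter
import Cfsg.Agent.S0165

/-!
# The BN-pair of `Sp_2m(F)` and the Steinberg character of `PSp_2m(q)` (S2545)
-/

set_option autoImplicit false

namespace Cfsg.Agent.Helper95.SpBNPair

open Matrix Cfsg.Agent.Helper13 Cfsg.Agent.Helper95.SpBN
open Cfsg.Agent.Helper11.SpBN Cfsg.Agent.Helper12.SpBN Cfsg.Agent.Helper37.SpBN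
  Cfsg.Agent.Helper45.SpBN Cfsg.Agent.Helper47.SpBN Cfsg.Agent.Helper53.SpBN
  Cfsg.Agent.Helper58.SpBN Cfsg.Agent.Helper8.SpBN Cfsg.Agent.Helper20.SpBN

section asm
variable {F : Type*} [Field F] {m : ℕ}

/-- root elements of `Sp_2m(F)`. -/
def xg (a b : Fin m ⊕ Fin m) (hab : a ≠ b) (t : F) : symplecticGroup (Fin m) F :=
  ⟨xgMat a b t, p_XGMEM a b hab t⟩

/-- simple reflections in `Sp_2m(F)`. -/
def sg (F : Type*) [Field F] {m : ℕ} (j : Fin m) : symplecticGroup (Fin m) F :=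
  ⟨sigMat F j, p_SGMEM j⟩

theorem isUp_of_pat_one {M : Matrix (Fin m ⊕ Fin m) (Fin m ⊕ Fin m) F} (h : Pat M 1) : IsUp M := by
  intro a b hab
  by_contra hne
  have := h a b hne
  rw [Equiv.Perm.coe_one, id_eq] at this
  rw [this] at hab
  exact lt_irrefl _ hab

theorem mem_B_of_pat_one (g : symplecticGroup (Fin m) F) (h : Pat g.1 1) : g ∈ spB m F :=
  (p_BIFF g).mpr (isUp_of_pat_one h)

theorem pat_sg (j : Fin m) : Pat (sg F j).1 (sigP j) := pat_monoMat _ _

theorem ra_ne_rb (j : Fin m) : ra j ≠ rb j := by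
  unfold ra rb
  split_ifs with h
  · intro h2
    have := Sum.inl.inj h2
    have := congrArg Fin.val this
    simp at this
  · simp

theorem rk_ra_lt_rb (j : Fin m) : rk (ra j) < rk (rb j) := by
  unfold ra rb
  have := j.2
  split_ifs with h
  · rw [rk_inl, rk_inl]; simp
  · rw [rk_inl, rk_inr]; omega

theorem xg_mul (a b : Fin m ⊕ Fin m) (hab : a ≠ b) (t u : F) :
    xg a b hab t * xg a b hab u = xg a b hab (t + u) :=
  Subtype.ext (p_XADD a b hab t u)

theorem xg_zero (a b : Fin m ⊕ Fin m) (hab : a ≠ b) : xg a b hab (0 : F) = 1 := by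
  have h := xg_mul a b hab (0 : F) 0
  rw [add_zero] at h
  exact mul_eq_left.mp h

theorem xg_mem_B (a b : Fin m ⊕ Fin m) (hab : a ≠ b) (h : rk a < rk b) (t : F) :
    xg a b hab t ∈ spB m F :=
  (p_BIFF _).mpr (p_UPPER a b h t)

theorem conj_xg (n : symplecticGroup (Fin m) F) (π : Equiv.Perm (Fin m ⊕ Fin m))
    (hπ : Pat n.1 π) (a b : Fin m ⊕ Fin m) (hab : a ≠ b) (t : F) :
    ∃ t' : F, n * xg a b hab t * n⁻¹ = xg (π a) (π b) (π.injective.ne hab) t' := by
  obtain ⟨t', ht'⟩ := p_CONJ n.1 n.2 π hπ a b hab t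
  refine ⟨t', ?_⟩
  rw [mul_inv_eq_iff_eq_mul]
  exact Subtype.ext ht'

/-- the long Weyl element `J`. -/
def n0 (m : ℕ) (F : Type*) [Field F] : symplecticGroup (Fin m) F :=
  ⟨J (Fin m) F, SymplecticGroup.J_mem _ _⟩

theorem n0_mem : n0 m F ∈ spN m F := (p_NIFF _).mpr ⟨tauP m, pat_J⟩

theorem root_mem_sup (a b : Fin m ⊕ Fin m) (hab : a ≠ b) (t : F) :
    xg a b hab t ∈ spB m F ⊔ spN m F := by
  rcases lt_or_gt_of_ne (fun h => hab (rk_injective h)) with h | h
  · exact Subgroup.mem_sup_left (xg_mem_B a b hab h t)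
  · obtain ⟨t', ht'⟩ := conj_xg (n0 m F) (tauP m) pat_J a b hab t
    have h2 : xg (tauP m a) (tauP m b) ((tauP m).injective.ne hab) t' ∈ spB m F :=
      xg_mem_B _ _ _ (rk_tauP_lt h) t'
    have e : xg a b hab t = (n0 m F)⁻¹ *
        xg (tauP m a) (tauP m b) ((tauP m).injective.ne hab) t' * n0 m F := by
      rw [← ht']; group
    rw [e]
    exact mul_mem (mul_mem (inv_mem (Subgroup.mem_sup_right n0_mem)) (Subgroup.mem_sup_left h2))
      (Subgroup.mem_sup_right n0_mem)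

theorem sup_eq_top' : spB m F ⊔ spN m F = ⊤ := by
  rw [eq_top_iff]
  intro g _
  have hg := sp_gen g
  refine (Subgroup.closure_le _).mpr ?_ hg
  rintro A ⟨w, c, hA⟩
  show A ∈ spB m F ⊔ spN m F
  by_cases hw : w = 0
  · have : A = 1 := by
      apply Subtype.ext
      rw [hA, hw]
      simp [Cfsg.sympTransvection]
    rw [this]; exact one_mem _
  · obtain ⟨g, hg, a, l, hgv⟩ := p_REDUCE (fun a b hab t => p_XGMEM a b hab t) w hw
    obtain ⟨t, ht⟩ := p_TVE a l c
    have hgmem : g ∈ spB m F ⊔ spN m F := by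
      refine (Subgroup.closure_le _).mpr ?_ hg
      rintro x ⟨a, b, hab, t, hx⟩
      have : x = xg a b hab t := Subtype.ext hx
      rw [this]; exact root_mem_sup a b hab t
    have key : g * A = xg a (tauP m a) (tauP_ne a).symm t * g := by
      apply Subtype.ext
      show g.1 * A.1 = xgMat a (tauP m a) t * g.1
      rw [hA, p_TVCONJ g.1 g.2 w c, hgv, ht]
    have e : A = g⁻¹ * xg a (tauP m a) (tauP_ne a).symm t * g := by
      rw [mul_assoc, ← key]; group
    rw [e]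
    exact mul_mem (mul_mem (inv_mem hgmem) (root_mem_sup _ _ _ _)) hgmem

theorem pat_one_of_B_N (t : symplecticGroup (Fin m) F) (hB : t ∈ spB m F) (hN : t ∈ spN m F) :
    Pat t.1 1 := by
  obtain ⟨π, hπ⟩ := (p_NIFF t).mp hN
  have := p_HD1 t ((p_BIFF t).mp hB) π hπ
  rwa [this] at hπ

theorem conj_mem' (n : symplecticGroup (Fin m) F) (hn : n ∈ spN m F)
    (t : symplecticGroup (Fin m) F) (ht : t ∈ spB m F ⊓ spN m F) : n * t * n⁻¹ ∈ spB m F := by
  obtain ⟨π, hπ⟩ := (p_NIFF n).mp hn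
  have h1 := pat_one_of_B_N t ht.1 ht.2
  have h2 : Pat (n * t * n⁻¹).1 (π * 1 * π⁻¹) :=
    pat_mul _ _ _ _ (pat_mul _ _ _ _ hπ h1) (pat_inv n π hπ)
  rw [mul_one, mul_inv_cancel] at h2
  exact mem_B_of_pat_one _ h2

theorem conj_diag_mem (n : symplecticGroup (Fin m) F) (hn : n ∈ spN m F)
    (c : symplecticGroup (Fin m) F) (hc : Pat c.1 1) : n⁻¹ * c * n ∈ spB m F := by
  obtain ⟨π, hπ⟩ := (p_NIFF n).mp hn
  have h2 : Pat (n⁻¹ * c * n).1 (π⁻¹ * 1 * π) :=
    pat_mul _ _ _ _ (pat_mul _ _ _ _ (pat_inv n π hπ) hc) hπ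
  rw [mul_one, inv_mul_cancel] at h2
  exact mem_B_of_pat_one _ h2

/-- enumeration of the simple reflections. -/
noncomputable def sgσ (m : ℕ) (F : Type*) [Field F] : ℕ → symplecticGroup (Fin m) F :=
  fun n => if h : n < m then sg F ⟨n, h⟩ else 1

/-- the set of simple reflections. -/
def spS (m : ℕ) (F : Type*) [Field F] : Set (symplecticGroup (Fin m) F) :=
  sgσ m F '' ((Finset.range m : Finset ℕ) : Set ℕ)

theorem mem_spS_iff (s : symplecticGroup (Fin m) F) : s ∈ spS m F ↔ ∃ j : Fin m, s = sg F j := by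
  constructor
  · rintro ⟨n, hn, rfl⟩
    have hn' : n < m := Finset.mem_range.mp (Finset.mem_coe.mp hn)
    exact ⟨⟨n, hn'⟩, by unfold sgσ; rw [dif_pos hn']⟩
  · rintro ⟨j, rfl⟩
    refine ⟨j.1, Finset.mem_coe.mpr (Finset.mem_range.mpr j.2), ?_⟩
    unfold sgσ
    rw [dif_pos j.2]

theorem sigP_symm (j : Fin m) : (sigP j).symm = sigP j := by
  have h := p_SGSQ j
  ext x
  have h2 : sigP j (sigP j x) = x := by
    have := DFunLike.congr_fun h x
    simpa using this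
  rw [Equiv.symm_apply_eq, h2]

theorem sigP_inv (j : Fin m) : (sigP j)⁻¹ = sigP j := sigP_symm j

theorem mul_mem_union' (j : Fin m) : ∀ n ∈ spN m F, ∀ b ∈ spB m F,
    sg F j * b * n ∈ DoubleCoset.doubleCoset (sg F j * n) (spB m F : Set _) (spB m F) ∪
      DoubleCoset.doubleCoset n (spB m F : Set _) (spB m F) := by
  apply p_ABS (spB m F) (spN m F) (sg F j) (fun t : F => xg (ra j) (rb j) (ra_ne_rb j) t)
    (fun t : F => xg (rb j) (ra j) (ra_ne_rb j).symm t)
  · intro b hb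
    have hbU := (p_BIFF b).mp hb
    obtain ⟨t₀, ht₀⟩ := p_DECOMP b.1 j (p_DIAG b hbU (ra j))
    have hb' : b * xg (ra j) (rb j) (ra_ne_rb j) t₀ ∈ spB m F :=
      mul_mem hb (xg_mem_B _ _ _ (rk_ra_lt_rb j) t₀)
    have hb'U := (p_BIFF _).mp hb'
    refine ⟨-t₀, b * xg (ra j) (rb j) (ra_ne_rb j) t₀, hb', ?_, ?_⟩
    · show b = b * xg (ra j) (rb j) (ra_ne_rb j) t₀ * xg (ra j) (rb j) (ra_ne_rb j) (-t₀)
      rw [mul_assoc, xg_mul, add_neg_cancel, xg_zero, mul_one]
    · rw [p_BIFF]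
      intro x y hxy
      show ((sg F j).1 * (b * xg (ra j) (rb j) (ra_ne_rb j) t₀).1 * ((sg F j)⁻¹).1) x y = 0
      rw [p_MC _ _ _ (sigP j) (sigP j)⁻¹ (pat_sg j) (pat_inv _ _ (pat_sg j)), sigP_symm,
        sigP_inv, p_SWAPUP _ hb'U j (p_DIAG _ hb'U (ra j)) ht₀ x y hxy, mul_zero, zero_mul]
  · intro n hn
    obtain ⟨π, hπ⟩ := (p_NIFF n).mp hn
    have hπi := pat_inv n π hπ
    have hc : ∀ (a b : Fin m ⊕ Fin m) (hab : a ≠ b) (t : F), ∃ t' : F,
        n⁻¹ * xg a b hab t * n = xg (π⁻¹ a) (π⁻¹ b) (π⁻¹.injective.ne hab) t' := by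
      intro a b hab t
      obtain ⟨t', ht'⟩ := conj_xg n⁻¹ π⁻¹ hπi a b hab t
      exact ⟨t', by rw [← ht', inv_inv]⟩
    rcases lt_or_gt_of_ne (fun h => (π⁻¹.injective.ne (ra_ne_rb j)) (rk_injective h)) with h | h
    · left
      intro t
      obtain ⟨t', ht'⟩ := hc _ _ (ra_ne_rb j) t
      show n⁻¹ * xg (ra j) (rb j) (ra_ne_rb j) t * n ∈ spB m F
      rw [ht']
      exact xg_mem_B _ _ _ h t'
    · right
      intro t
      obtain ⟨t', ht'⟩ := hc _ _ (ra_ne_rb j).symm t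
      show n⁻¹ * xg (rb j) (ra j) (ra_ne_rb j).symm t * n ∈ spB m F
      rw [ht']
      exact xg_mem_B _ _ _ h t'
  · intro t
    by_cases ht : t = 0
    · left
      show xg (ra j) (rb j) (ra_ne_rb j) t = 1
      rw [ht]; exact xg_zero _ _ _
    · right
      obtain ⟨t', ht'⟩ := p_RANK1 j t ht
      refine ⟨sg F j * xg (ra j) (rb j) (ra_ne_rb j) t * xg (rb j) (ra j) (ra_ne_rb j).symm t',
        (p_BIFF _).mpr ht', -t', ?_⟩
      show sg F j * xg (ra j) (rb j) (ra_ne_rb j) t =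
        sg F j * xg (ra j) (rb j) (ra_ne_rb j) t * xg (rb j) (ra j) (ra_ne_rb j).symm t' *
          xg (rb j) (ra j) (ra_ne_rb j).symm (-t')
      rw [mul_assoc _ (xg (rb j) (ra j) (ra_ne_rb j).symm t'), xg_mul, add_neg_cancel, xg_zero,
        mul_one]

theorem conj_ne' (j : Fin m) :
    (fun b => sg F j * b * sg F j) '' (spB m F : Set (symplecticGroup (Fin m) F)) ≠
      (spB m F : Set (symplecticGroup (Fin m) F)) := by
  intro h
  have h1 : sg F j * xg (ra j) (rb j) (ra_ne_rb j) 1 * sg F j ∈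
      (spB m F : Set (symplecticGroup (Fin m) F)) := by
    rw [← h]
    exact ⟨_, xg_mem_B _ _ _ (rk_ra_lt_rb j) 1, rfl⟩
  exact p_CNE j ((p_BIFF _).mp h1)

theorem range_sg : Set.range (sg F (m := m)) = spS m F := by
  ext s
  rw [mem_spS_iff]
  constructor
  · rintro ⟨j, rfl⟩; exact ⟨j, rfl⟩
  · rintro ⟨j, rfl⟩; exact ⟨j, rfl⟩

theorem closure_sup' : Subgroup.closure (spS m F) ⊔ (spB m F ⊓ spN m F) = spN m F := by
  apply le_antisymm
  · apply sup_le
    · rw [Subgroup.closure_le]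
      intro s hs
      obtain ⟨j, rfl⟩ := (mem_spS_iff s).mp hs
      exact (p_NIFF _).mpr ⟨_, pat_sg j⟩
    · exact inf_le_right
  · intro n hn
    obtain ⟨π, hπ⟩ := (p_NIFF n).mp hn
    have hcomm := (pat_sp n.1 n.2 π hπ).2.1
    have hw := p_WGEN π hcomm
    have := p_WEYL (sg F) (fun j => rfl) (spB m F ⊓ spN m F)
      (fun g hg => ⟨mem_B_of_pat_one g hg, (p_NIFF g).mpr ⟨1, hg⟩⟩) π hw n hπ
    rwa [range_sg] at this

/-- **The BN-pair of `Sp_2m(F)`.** -/
noncomputable def spBN (m : ℕ) (F : Type*) [Field F] :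
    Cfsg.BNPair (symplecticGroup (Fin m) F) where
  B := spB m F
  N := spN m F
  S := spS m F
  sup_eq_top := sup_eq_top'
  conj_mem := conj_mem'
  subset := by
    intro s hs
    obtain ⟨j, rfl⟩ := (mem_spS_iff s).mp hs
    exact (p_NIFF _).mpr ⟨_, pat_sg j⟩
  sq_mem := by
    intro s hs
    obtain ⟨j, rfl⟩ := (mem_spS_iff s).mp hs
    have h2 : Pat (sg F j * sg F j).1 (sigP j * sigP j) := pat_mul _ _ _ _ (pat_sg j) (pat_sg j)
    rw [p_SGSQ] at h2
    exact mem_B_of_pat_one _ h2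
  inj := by
    intro s hs s' hs' h
    obtain ⟨i, rfl⟩ := (mem_spS_iff s).mp hs
    obtain ⟨j, rfl⟩ := (mem_spS_iff s').mp hs'
    have hp : Pat ((sg F i)⁻¹ * sg F j).1 ((sigP i)⁻¹ * sigP j) :=
      pat_mul _ _ _ _ (pat_inv _ _ (pat_sg i)) (pat_sg j)
    have h1 := p_HD1 _ ((p_BIFF _).mp h) _ hp
    have h2 : sigP i = sigP j := inv_mul_eq_one.mp h1
    rw [p_SGINJ i j h2]
  closure_sup := closure_sup'
  mul_mem_union := by
    intro s hs n hn b hb
    obtain ⟨j, rfl⟩ := (mem_spS_iff s).mp hs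
    exact mul_mem_union' j n hn b hb
  conj_ne := by
    intro s hs
    obtain ⟨j, rfl⟩ := (mem_spS_iff s).mp hs
    exact conj_ne' j

end asm

section st
variable {F : Type*} [Field F] {m : ℕ}

open Cfsg.Agent.Helper40.BNSt Cfsg.Agent.Helper6

theorem stab_n0_iff (c : ↥(spBN m F).B) :
    c ∈ MulAction.stabilizer ↥(spBN m F).B
      ((n0 m F : symplecticGroup (Fin m) F) : symplecticGroup (Fin m) F ⧸ (spBN m F).B) ↔
      Pat c.1.1 1 := by
  rw [mem_stabilizer_iff]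
  constructor
  · intro h
    exact p_STABD c.1 ((n0 m F)⁻¹ * c.1 * n0 m F) ((p_BIFF c.1).mp c.2) ((p_BIFF _).mp h)
      (n0 m F) rfl (by group)
  · intro h
    exact conj_diag_mem (n0 m F) n0_mem c.1 h

theorem n0_isLong [Finite F] :
    IsLong (SW (spBN m F)) (PsW (spBN m F)) (proj (spBN m F) (n0 m F)) := by
  apply isLong_of_stabilizer_le (spBN m F) (n₀ := n0 m F) n0_mem
  intro n hn c hc
  rw [stab_n0_iff] at hc
  rw [mem_stabilizer_iff]
  exact conj_diag_mem n hn c.1 hc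

/-- the stabiliser of `n₀ B` in `B` is in bijection with the diagonal torus. -/
theorem card_stab_n0 :
    Nat.card ↥(MulAction.stabilizer ↥(spBN m F).B
      ((n0 m F : symplecticGroup (Fin m) F) : symplecticGroup (Fin m) F ⧸ (spBN m F).B)) =
      Nat.card (diagSet F m) := by
  apply Nat.card_eq_of_bijective
    (fun c => (⟨c.1.1, (mem_diagSet_iff_pat _).mpr ((stab_n0_iff c.1).mp c.2)⟩ : diagSet F m))
  constructor
  · intro c c' h
    have := congrArg Subtype.val h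
    exact Subtype.ext (Subtype.ext this)
  · intro t
    have ht : Pat t.1.1 1 := (mem_diagSet_iff_pat _).mp t.2
    exact ⟨⟨⟨t.1, mem_B_of_pat_one t.1 ht⟩, (stab_n0_iff _).mpr ht⟩, rfl⟩

theorem fpc_eq_card {H : Type*} [Group H] (K : Subgroup H) (b : H)
    (hb : ∀ c : H, c⁻¹ * b * c ∈ K) :
    Cfsg.fixedPointCharacter K b = (Nat.card (H ⧸ K) : ℂ) := by
  unfold Cfsg.fixedPointCharacter
  congr 1
  have : MulAction.fixedBy (H ⧸ K) b = Set.univ := by
    ext q
    simp only [MulAction.mem_fixedBy, Set.mem_univ, iff_true]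
    induction q using QuotientGroup.induction_on with
    | H c =>
      show ((b * c : H) : H ⧸ K) = c
      rw [QuotientGroup.eq]
      have : (b * c)⁻¹ * c = (c⁻¹ * b * c)⁻¹ := by group
      rw [this]; exact inv_mem (hb c)
  rw [this, Nat.card_coe_set_eq, Set.ncard_univ]

theorem stChar_eq_index [Finite F] (b : ↥(spBN m F).B)
    (hb : ∀ c : ↥(spBN m F).B, c⁻¹ * b * c ∈ MulAction.stabilizer ↥(spBN m F).B
      ((n0 m F : symplecticGroup (Fin m) F) : symplecticGroup (Fin m) F ⧸ (spBN m F).B)) :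
    stChar (spBN m F) m (sgσ m F) (b : symplecticGroup (Fin m) F) =
      (Nat.card (↥(spBN m F).B ⧸ MulAction.stabilizer ↥(spBN m F).B
      ((n0 m F : symplecticGroup (Fin m) F) : symplecticGroup (Fin m) F ⧸ (spBN m F).B)) : ℂ) := by
  rw [stChar_apply_B (spBN m F) m (sgσ m F) rfl n0_mem n0_isLong b]
  exact fpc_eq_card _ b hb

theorem index_stab_n0 [Fintype F] {q : ℕ} (hq : Fintype.card F = q) :
    Nat.card (↥(spBN m F).B ⧸ MulAction.stabilizer ↥(spBN m F).B
      ((n0 m F : symplecticGroup (Fin m) F) : symplecticGroup (Fin m) F ⧸ (spBN m F).B)) =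
      q ^ (m ^ 2) := by
  have h1 := Subgroup.card_eq_card_quotient_mul_card_subgroup
    (MulAction.stabilizer ↥(spBN m F).B
      ((n0 m F : symplecticGroup (Fin m) F) : symplecticGroup (Fin m) F ⧸ (spBN m F).B))
  rw [card_stab_n0, card_diagSet hq m] at h1
  have h2 : Nat.card ↥(spBN m F).B = q ^ (m ^ 2) * (q - 1) ^ m := card_sp_borel hq m
  rw [h2] at h1
  have hq2 : 0 < (q - 1) ^ m := by
    have : 1 < q := by rw [← hq]; exact Fintype.one_lt_card
    apply Nat.pow_pos; omega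
  exact (Nat.eq_of_mul_eq_mul_right hq2 h1).symm

theorem stChar_one [Fintype F] :
    stChar (spBN m F) m (sgσ m F) (1 : symplecticGroup (Fin m) F) =
      ((Fintype.card F : ℕ) : ℂ) ^ (m ^ 2) := by
  have h := stChar_eq_index (F := F) (m := m) (1 : ↥(spBN m F).B) (fun c => by
    rw [mul_one, inv_mul_cancel]; exact one_mem _)
  rw [index_stab_n0 rfl] at h
  rw [← Nat.cast_pow]
  exact h

theorem stChar_central [Fintype F] (z : symplecticGroup (Fin m) F)
    (hz : z ∈ Subgroup.center (symplecticGroup (Fin m) F)) :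
    stChar (spBN m F) m (sgσ m F) z = stChar (spBN m F) m (sgσ m F) 1 := by
  have hd : ∀ a b, a ≠ b → z.1 a b = 0 := by
    intro a b hab
    rcases (Cfsg.Agent.Helper5.sp_mem_center_iff z).mp hz with h | h
    · rw [h, Matrix.one_apply_ne hab]
    · rw [h, Matrix.neg_apply, Matrix.one_apply_ne hab, neg_zero]
  have hpat : Pat z.1 1 := by
    intro a b hab
    by_contra hne
    exact hab (hd a b hne)
  have hzB : z ∈ (spBN m F).B := mem_B_of_pat_one z hpat
  have h := stChar_eq_index (F := F) (m := m) ⟨z, hzB⟩ (by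
    intro c
    have hcomm : c⁻¹ * (⟨z, hzB⟩ : ↥(spBN m F).B) * c = ⟨z, hzB⟩ := by
      have : (⟨z, hzB⟩ : ↥(spBN m F).B) * c = c * ⟨z, hzB⟩ :=
        Subtype.ext ((Subgroup.mem_center_iff.mp hz c.1).symm)
      rw [mul_assoc, this]; group
    rw [hcomm]
    exact (stab_n0_iff _).mpr hpat)
  have h1 := stChar_eq_index (F := F) (m := m) (1 : ↥(spBN m F).B) (fun c => by
    rw [mul_one, inv_mul_cancel]; exact one_mem _)
  exact h.trans h1.symm

end st

section final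
variable {F : Type*} [Field F] [Fintype F]

open Cfsg.Agent.Helper40.BNSt

/-- **Steinberg character of `PSp_2m(q)`.** -/
theorem steinberg_PSp (p : ℕ) [Fact p.Prime] [CharP F p] (m : ℕ) (hm : 1 ≤ m) :
    ∃ χ : Cfsg.PSp m F → ℂ, Cfsg.IsIrrCharacter (Cfsg.PSp m F) χ ∧
      ∀ P : Sylow p (Cfsg.PSp m F), χ 1 = Nat.card P ∧
        ∀ x : Cfsg.PSp m F, x ∈ P → x ≠ 1 → χ x = 0 := by
  classical
  have hp : p.Prime := Fact.out
  let _ : Fintype (symplecticGroup (Fin m) F) := Fintype.ofFinite _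
  have hirr := stChar_isIrr (spBN m F) m (sgσ m F) rfl
  obtain ⟨ψ, hψ, hψθ⟩ := Cfsg.Agent.Helper79.exists_irr_deflation
    (Subgroup.center (symplecticGroup (Fin m) F)) hirr
    (fun z hz => stChar_central z hz)
  refine ⟨ψ, hψ, fun P => ?_⟩
  obtain ⟨m', hm', hpm'⟩ := p_PCARD (F := F) p m hm
  obtain ⟨f, -, hqf⟩ := FiniteField.card F p
  have hψ1 : ψ 1 = (Fintype.card F : ℂ) ^ (m ^ 2) := by
    have h := hψθ 1
    rw [stChar_one] at h
    exact h
  have hm0 : m' ≠ 0 := by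
    rintro rfl
    exact hpm' (dvd_zero p)
  have hfac : (Nat.card (Cfsg.PSp m F)).factorization p = (f : ℕ) * m ^ 2 := by
    rw [hm', hqf, ← pow_mul, Nat.factorization_mul (pow_ne_zero _ hp.ne_zero) hm0,
      Nat.Prime.factorization_pow hp, Finsupp.add_apply, Finsupp.single_eq_same,
      Nat.factorization_eq_zero_of_not_dvd hpm', add_zero]
  have hcardP : Nat.card P = Fintype.card F ^ (m ^ 2) := by
    rw [Sylow.card_eq_multiplicity, hfac, hqf, pow_mul]
  refine ⟨by rw [hψ1, hcardP]; push_cast; rfl, fun x hx hx1 => ?_⟩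
  obtain ⟨d, ρ, hρ, hχ⟩ := hψ
  have hd : d = Fintype.card F ^ (m ^ 2) := by
    have h := Representation.char_one ρ
    rw [hχ, hψ1, Module.finrank_fin_fun] at h
    exact_mod_cast h.symm
  have hpx : p ∣ orderOf x := by
    obtain ⟨k, hk⟩ := P.isPGroup' ⟨x, hx⟩
    have hk' : x ^ (p ^ k) = 1 := by
      have := congrArg Subtype.val hk
      simpa using this
    obtain ⟨j, -, hjo⟩ := (Nat.dvd_prime_pow hp).1 (orderOf_dvd_of_pow_eq_one hk')
    have hj0 : j ≠ 0 := by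
      rintro rfl
      rw [pow_zero, orderOf_eq_one_iff] at hjo
      exact hx1 hjo
    rw [hjo]
    exact dvd_pow_self p hj0
  have hcard : Nat.card (Cfsg.PSp m F) = p ^ ((f : ℕ) * m ^ 2) * m' := by
    rw [hm', hqf, ← pow_mul]
  have h0 := Cfsg.Agent.S0165.result ρ p ((f : ℕ) * m ^ 2) hp
    (by rw [hcard]; exact dvd_mul_right _ _)
    (by
      rw [hcard, pow_succ]
      intro h
      exact hpm' (Nat.dvd_of_mul_dvd_mul_left (Nat.pow_pos hp.pos) h))
    (by rw [Module.finrank_fin_fun, hd, hqf, ← pow_mul])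
    x hpx
  rw [← hχ]
  exact h0

end final

end Cfsg.Agent.Helper95.SpBNPair
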