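import Mathlib
import Cfsg.Agent.Helper95.UBNDefs
import Cfsg.Agent.Helper95.SpBNPair
import Cfsg.Agent.Helper40.BNStD
import Cfsg.Agent.Helper6.BN

/-!
# Piece GSTZ of CALL S2546: the Steinberg character on central elements of the Borel subgroup
-/

set_option autoImplicit false

namespace Cfsg.Agent.Helper95.UBNOwn

open Cfsg.Agent.Helper40.BNSt Cfsg.Agent.Helper6

theorem p_GSTZ {G : Type*} [Group G] [Finite G] (P : Cfsg.BNPair G) (r : ℕ) (σ : ℕ → G)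
    (hS : P.S = σ '' ((Finset.range r : Finset ℕ) : Set ℕ))
    (n₀ : G) (hn₀ : n₀ ∈ P.N) (hstab : ∀ c ∈ P.B, n₀⁻¹ * c * n₀ ∈ P.B → c ∈ P.N)
    (z : G) (hz : z ∈ Subgroup.center G) (hzB : z ∈ P.B) :
    Cfsg.Agent.Helper40.BNSt.stChar P r σ z =
      (Nat.card (↥P.B ⧸ MulAction.stabilizer ↥P.B ((n₀ : G) : G ⧸ P.B)) : ℂ) := by
  have hconj : ∀ nn ∈ P.N, ∀ t ∈ P.B ⊓ P.N, nn⁻¹ * t * nn ∈ P.B := by
    intro nn hn t ht
    have := P.conj_mem nn⁻¹ (inv_mem hn) t ht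
    rwa [inv_inv] at this
  have hstab_iff : ∀ c : ↥P.B,
      c ∈ MulAction.stabilizer ↥P.B ((n₀ : G) : G ⧸ P.B) ↔ (c : G) ∈ P.N := by
    intro c
    rw [mem_stabilizer_iff]
    constructor
    · intro h
      exact hstab c.1 c.2 h
    · intro h
      exact hconj n₀ hn₀ c.1 ⟨c.2, h⟩
  have hlong : IsLong (SW P) (PsW P) (proj P n₀) := by
    apply isLong_of_stabilizer_le P (n₀ := n₀) hn₀
    intro nn hn c hc
    rw [hstab_iff] at hc
    rw [mem_stabilizer_iff]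
    exact hconj nn hn c.1 ⟨c.2, hc⟩
  have h1 := stChar_apply_B P r σ hS hn₀ hlong ⟨z, hzB⟩
  have h2 : stChar P r σ z = Cfsg.fixedPointCharacter
      (MulAction.stabilizer ↥P.B ((n₀ : G) : G ⧸ P.B)) (⟨z, hzB⟩ : ↥P.B) := h1
  rw [h2]
  apply Cfsg.Agent.Helper95.SpBNPair.fpc_eq_card
  intro c
  have hcomm : c⁻¹ * (⟨z, hzB⟩ : ↥P.B) * c = ⟨z, hzB⟩ := by
    have : (⟨z, hzB⟩ : ↥P.B) * c = c * ⟨z, hzB⟩ :=
      Subtype.ext ((Subgroup.mem_center_iff.mp hz c.1).symm)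
    rw [mul_assoc, this]; group
  rw [hcomm, hstab_iff]
  apply hstab z hzB
  have : n₀⁻¹ * z * n₀ = z := by
    rw [mul_assoc, ← Subgroup.mem_center_iff.mp hz n₀, ← mul_assoc, inv_mul_cancel, one_mul]
  rw [this]; exact hzB

end Cfsg.Agent.Helper95.UBNOwn
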