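import Mathlib
import Cfsg.Agent.Helper95.UBNDefs
import Cfsg.Agent.Helper95.UBNGSTZ
import Cfsg.Agent.Helper3.UBNGCEN
import Cfsg.Agent.Helper3.UBNGDEFL
import Cfsg.Agent.Helper3.UBNGSYL
import Cfsg.Agent.Helper82.UBNGST1
import Cfsg.Agent.Helper40.BNStD

/-!
# Abstract Steinberg statement from a BN-pair with a split Borel subgroup
-/

set_option autoImplicit false

namespace Cfsg.Agent.Helper95.UBNGen

open Cfsg.Agent.Helper95.UBNOwn (p_GSTZ)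
open Cfsg.Agent.Helper3.UBN (p_GCEN p_GDEFL p_GSYL)
open Cfsg.Agent.Helper82.UBN (p_GST1)

/-- **Steinberg character from a BN-pair.**  Let `G` be a finite group with a BN-pair whose Borel
subgroup is `B = U (B ⊓ N)` with `U` a normal `p`-subgroup of `B` and `p ∤ |B ⊓ N|`, and let
`n₀ ∈ N` be such that `B ⊓ n₀ B n₀⁻¹ ≤ N`.  Then `G / Z(G)` has an irreducible character of degree
the order of a Sylow `p`-subgroup vanishing on the nontrivial elements of every Sylow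
`p`-subgroup. -/
theorem genSt {G : Type*} [Group G] [Finite G] (P : Cfsg.BNPair G) (r : ℕ) (σ : ℕ → G)
    (hS : P.S = σ '' ((Finset.range r : Finset ℕ) : Set ℕ)) (p : ℕ) [Fact p.Prime]
    (U : Subgroup G) (hUB : U ≤ P.B) (hUn : ∀ b ∈ P.B, ∀ u ∈ U, b * u * b⁻¹ ∈ U)
    (hU : IsPGroup p U) (hBUT : ∀ b ∈ P.B, ∃ u ∈ U, ∃ t ∈ P.B ⊓ P.N, b = u * t)
    (hT : ¬ p ∣ Nat.card ↥(P.B ⊓ P.N))
    (n₀ : G) (hn₀ : n₀ ∈ P.N) (hstab : ∀ c ∈ P.B, n₀⁻¹ * c * n₀ ∈ P.B → c ∈ P.N) :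
    ∃ χ : G ⧸ Subgroup.center G → ℂ, Cfsg.IsIrrCharacter (G ⧸ Subgroup.center G) χ ∧
      ∀ Q : Sylow p (G ⧸ Subgroup.center G), χ 1 = Nat.card Q ∧
        ∀ x : G ⧸ Subgroup.center G, x ∈ Q → x ≠ 1 → χ x = 0 := by
  classical
  let _ : Fintype G := Fintype.ofFinite G
  have hirr := Cfsg.Agent.Helper40.BNSt.stChar_isIrr P r σ hS
  have hcenB := p_GCEN P
  have hidx := p_GST1 P p U hUB hU hBUT hT n₀ hn₀ hstab
  have h1 := p_GSTZ P r σ hS n₀ hn₀ hstab 1 (one_mem _) (one_mem _)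
  apply p_GDEFL p (Cfsg.Agent.Helper40.BNSt.stChar P r σ) hirr
  · intro z hz
    rw [p_GSTZ P r σ hS n₀ hn₀ hstab z hz (hcenB hz), h1]
  · have hle : Subgroup.center G ≤ P.B ⊓ P.N := by
      intro z hz
      refine ⟨hcenB hz, hstab z (hcenB hz) ?_⟩
      have : n₀⁻¹ * z * n₀ = z := by
        rw [mul_assoc, ← Subgroup.mem_center_iff.mp hz n₀, ← mul_assoc, inv_mul_cancel, one_mul]
      rw [this]; exact hcenB hz
    intro hdvd
    exact hT (dvd_trans hdvd (Subgroup.card_dvd_of_le hle))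
  · intro Q
    rw [h1, hidx, p_GSYL P p U hUB hUn hU hBUT hT Q]

end Cfsg.Agent.Helper95.UBNGen
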