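import Mathlib
import Cfsg.Agent.Helper95.UBNDefs

/-!
# Piece ISO of CALL S2546: the Witt-basis unitary group is isomorphic to `Cfsg.SU n F q`
-/

set_option autoImplicit false

namespace Cfsg.Agent.Helper95.UBNOwn

open Matrix Cfsg.Agent.Helper95.UBN

variable {F : Type*} [Field F] {n : ℕ}

theorem p_ISO (τ : F →+* F) (hτ : ∀ x, τ (τ x) = x) (q : ℕ) (hq : ∀ x, τ x = x ^ q)
    (hpres : ∀ g : Matrix.SpecialLinearGroup (Fin n) F, g ∈ UG τ n ↔ ∀ u v : Fin n → F,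
      ∑ i, (g.1 *ᵥ u) i * τ ((g.1 *ᵥ v) (Fin.rev i)) = ∑ i, u i * τ (v (Fin.rev i)))
    (P : Matrix (Fin n) (Fin n) F) (hdet : P.det ≠ 0)
    (hP : ∀ a b, ∑ i, P i a * τ (P i b) = if b = Fin.rev a then 1 else 0) :
    Nonempty (↥(UG τ n) ≃* ↥(Cfsg.SU n F q)) := by
  classical
  have hPu : IsUnit P.det := isUnit_iff_ne_zero.mpr hdet
  have hPP : P * P⁻¹ = 1 := Matrix.mul_nonsing_inv P hPu
  have hPP' : P⁻¹ * P = 1 := Matrix.nonsing_inv_mul P hPu
  have key : ∀ u v : Fin n → F,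
      Cfsg.hermForm n F q (P *ᵥ u) (P *ᵥ v) = ∑ i, u i * τ (v (Fin.rev i)) := by
    intro u v
    unfold Cfsg.hermForm
    have e1 : ∀ i, (P *ᵥ u) i * (P *ᵥ v) i ^ q =
        ∑ a, ∑ b, u a * τ (v b) * (P i a * τ (P i b)) := by
      intro i
      rw [← hq, Matrix.mulVec, Matrix.mulVec, dotProduct, dotProduct, map_sum, Finset.sum_mul]
      apply Finset.sum_congr rfl; intro a _
      rw [Finset.mul_sum]
      apply Finset.sum_congr rfl; intro b _
      rw [map_mul]; ring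
    simp_rw [e1]
    rw [Finset.sum_comm]
    apply Finset.sum_congr rfl; intro a _
    rw [Finset.sum_comm]
    have e2 : ∀ b, ∑ i, u a * τ (v b) * (P i a * τ (P i b)) =
        if b = Fin.rev a then u a * τ (v b) else 0 := by
      intro b
      rw [← Finset.mul_sum, hP a b]
      split_ifs <;> simp
    simp_rw [e2]
    simp
  have detφ : ∀ g : Matrix.SpecialLinearGroup (Fin n) F, (P * g.1 * P⁻¹).det = 1 := by
    intro g
    rw [Matrix.det_mul, Matrix.det_mul, g.2, mul_one, ← Matrix.det_mul, hPP, Matrix.det_one]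
  have detψ : ∀ g : Matrix.SpecialLinearGroup (Fin n) F, (P⁻¹ * g.1 * P).det = 1 := by
    intro g
    rw [Matrix.det_mul, Matrix.det_mul, g.2, mul_one, ← Matrix.det_mul, hPP', Matrix.det_one]
  have memSU : ∀ h : Matrix.SpecialLinearGroup (Fin n) F, h ∈ Cfsg.SU n F q ↔
      ∀ u v, Cfsg.hermForm n F q (h.1 *ᵥ u) (h.1 *ᵥ v) = Cfsg.hermForm n F q u v :=
    fun h => Iff.rfl
  have fwd : ∀ g : Matrix.SpecialLinearGroup (Fin n) F, g ∈ UG τ n →
      (⟨P * g.1 * P⁻¹, detφ g⟩ : Matrix.SpecialLinearGroup (Fin n) F) ∈ Cfsg.SU n F q := by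
    intro g hg
    refine (memSU _).mpr ?_
    intro u v
    have hu : u = P *ᵥ (P⁻¹ *ᵥ u) := by rw [Matrix.mulVec_mulVec, hPP, Matrix.one_mulVec]
    have hv : v = P *ᵥ (P⁻¹ *ᵥ v) := by rw [Matrix.mulVec_mulVec, hPP, Matrix.one_mulVec]
    have e1 : ∀ w : Fin n → F, (P * g.1 * P⁻¹) *ᵥ w = P *ᵥ (g.1 *ᵥ (P⁻¹ *ᵥ w)) := by
      intro w; rw [Matrix.mulVec_mulVec, Matrix.mulVec_mulVec, Matrix.mul_assoc]
    show Cfsg.hermForm n F q ((P * g.1 * P⁻¹) *ᵥ u) ((P * g.1 * P⁻¹) *ᵥ v) = _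
    rw [e1, e1, key, (hpres g).mp hg, ← key, ← hu, ← hv]
  have bwd : ∀ h : Matrix.SpecialLinearGroup (Fin n) F, h ∈ Cfsg.SU n F q →
      (⟨P⁻¹ * h.1 * P, detψ h⟩ : Matrix.SpecialLinearGroup (Fin n) F) ∈ UG τ n := by
    intro h hh
    refine (hpres _).mpr ?_
    intro u v
    show ∑ i, ((P⁻¹ * h.1 * P) *ᵥ u) i * τ (((P⁻¹ * h.1 * P) *ᵥ v) (Fin.rev i)) = _
    rw [← key, ← key]
    have e1 : ∀ w : Fin n → F, P *ᵥ ((P⁻¹ * h.1 * P) *ᵥ w) = h.1 *ᵥ (P *ᵥ w) := by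
      intro w
      rw [Matrix.mulVec_mulVec, Matrix.mulVec_mulVec, ← Matrix.mul_assoc, ← Matrix.mul_assoc,
        hPP, Matrix.one_mul]
    rw [e1, e1]
    exact (memSU h).mp hh _ _
  exact ⟨{ toFun := fun g => ⟨⟨P * g.1.1 * P⁻¹, detφ g.1⟩, fwd g.1 g.2⟩
           invFun := fun h => ⟨⟨P⁻¹ * h.1.1 * P, detψ h.1⟩, bwd h.1 h.2⟩
           left_inv := by
             intro g
             apply Subtype.ext; apply Subtype.ext
             show P⁻¹ * (P * g.1.1 * P⁻¹) * P = g.1.1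
             rw [Matrix.mul_assoc, Matrix.mul_assoc, hPP', Matrix.mul_one, ← Matrix.mul_assoc,
               hPP', Matrix.one_mul]
           right_inv := by
             intro h
             apply Subtype.ext; apply Subtype.ext
             show P * (P⁻¹ * h.1.1 * P) * P⁻¹ = h.1.1
             rw [Matrix.mul_assoc, Matrix.mul_assoc, hPP, Matrix.mul_one, ← Matrix.mul_assoc,
               hPP, Matrix.one_mul]
           map_mul' := by
             intro g g'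
             apply Subtype.ext; apply Subtype.ext
             show P * (g.1.1 * g'.1.1) * P⁻¹ = (P * g.1.1 * P⁻¹) * (P * g'.1.1 * P⁻¹)
             have : (P * g.1.1 * P⁻¹) * (P * g'.1.1 * P⁻¹) =
                 P * g.1.1 * (P⁻¹ * P) * g'.1.1 * P⁻¹ := by
               simp only [Matrix.mul_assoc]
             rw [this, hPP', Matrix.mul_one]
             simp only [Matrix.mul_assoc] }⟩

end Cfsg.Agent.Helper95.UBNOwn
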