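import Mathlib
import Cfsg.Agent.Helper95.UBNDefs
import Cfsg.Agent.Helper44.Unitary

/-!
# Pieces NRM and TPOW of CALL S2546
-/

set_option autoImplicit false

namespace Cfsg.Agent.Helper95.UBNOwn

open Matrix Cfsg.Agent.Helper95.UBN Cfsg.Agent.Helper44

theorem p_NRM {F : Type*} [Field F] [Fintype F] (q : ℕ) (hF : Fintype.card F = q ^ 2) :
    ∃ β β' : F, β * β ^ q = -1 ∧ β' * β' ^ q = -1 ∧ β ≠ β' := by
  have hq2 := two_le_of_card_sq hF
  obtain ⟨τ, hτ⟩ := exists_conj hF
  have hm1 : (-1 : F) ^ q = -1 := by rw [← hτ, map_neg, map_one]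
  obtain ⟨β, hβ⟩ := exists_norm hF (-1) hm1
  obtain ⟨g, -, hg⟩ := exists_gen F
  have hcard : Fintype.card F - 1 = (q - 1) * (q + 1) := by
    rw [hF]
    obtain ⟨k, rfl⟩ : ∃ k, q = k + 1 := ⟨q - 1, by omega⟩
    have : (k + 1) ^ 2 = (k + 1 - 1) * (k + 1 + 1) + 1 := by
      simp only [Nat.add_sub_cancel]; ring
    omega
  have hgne : g ^ (q - 1) ≠ 1 := by
    apply pow_ne_one_of_lt_orderOf (by omega)
    rw [hg, hcard]
    have : 1 ≤ q - 1 := by omega
    nlinarith
  have hg1 : (g ^ (q - 1)) ^ (q + 1) = 1 := by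
    rw [← pow_mul, ← hcard, ← hg, pow_orderOf_eq_one]
  refine ⟨β, β * ((g ^ (q - 1) : Fˣ) : F), hβ, ?_, ?_⟩
  · have h1 : (((g ^ (q - 1) : Fˣ) : F)) * (((g ^ (q - 1) : Fˣ) : F)) ^ q = 1 := by
      rw [← pow_succ']
      have := congrArg (fun u : Fˣ => (u : F)) hg1
      simpa using this
    rw [mul_pow]
    calc β * ((g ^ (q - 1) : Fˣ) : F) * (β ^ q * (((g ^ (q - 1) : Fˣ) : F)) ^ q)
        = (β * β ^ q) * ((((g ^ (q - 1) : Fˣ) : F)) * (((g ^ (q - 1) : Fˣ) : F)) ^ q) := by ring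
      _ = -1 := by rw [hβ, h1, mul_one]
  · intro h
    have hβ0 : β ≠ 0 := by
      rintro rfl
      rw [zero_mul] at hβ
      exact (neg_ne_zero.mpr one_ne_zero) hβ.symm
    have h2 : β * 1 = β * ((g ^ (q - 1) : Fˣ) : F) := by rw [mul_one]; exact h
    have h3 := mul_left_cancel₀ hβ0 h2
    apply hgne
    apply Units.ext
    rw [← h3]; rfl

theorem p_TPOW {F : Type*} [Field F] {n : ℕ} [Fintype F] (p : ℕ) [Fact p.Prime] [CharP F p]
    (τ : F →+* F) (T : Subgroup ↥(UG τ n)) (hT : ∀ t ∈ T, Pat t.1.1 1) : ¬ p ∣ Nat.card T := by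
  classical
  have hfinSL : Finite (Matrix.SpecialLinearGroup (Fin n) F) :=
    Finite.of_injective (fun g : Matrix.SpecialLinearGroup (Fin n) F => g.1) Subtype.val_injective
  intro hdvd
  obtain ⟨t, ht⟩ := exists_prime_orderOf_dvd_card' p hdvd
  have hp : p.Prime := Fact.out
  set M : Matrix (Fin n) (Fin n) F := t.1.1.1 with hM
  have hpat : Pat M 1 := hT t.1 t.2
  have hdiag : M = Matrix.diagonal (fun a => M a a) := by
    ext a b
    by_cases hab : a = b
    · subst hab; simp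
    · rw [Matrix.diagonal_apply_ne _ hab]
      by_contra hne
      exact hab (hpat a b hne)
  have hdet : ∏ a, M a a = 1 := by
    have h1 : M.det = 1 := t.1.1.2
    rw [hdiag, Matrix.det_diagonal] at h1
    exact h1
  have hd0 : ∀ a, M a a ≠ 0 := by
    intro a h0
    have : ∏ a, M a a = 0 := Finset.prod_eq_zero (Finset.mem_univ a) h0
    rw [this] at hdet; exact zero_ne_one hdet
  have hpow : M ^ (Fintype.card F - 1) = 1 := by
    rw [hdiag, Matrix.diagonal_pow]
    have : (fun a => M a a) ^ (Fintype.card F - 1) = 1 := by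
      funext a
      simp only [Pi.pow_apply, Pi.one_apply]
      exact FiniteField.pow_card_sub_one_eq_one _ (hd0 a)
    rw [this]
    exact Matrix.diagonal_one
  have htpow : t ^ (Fintype.card F - 1) = 1 := by
    apply Subtype.ext; apply Subtype.ext; apply Subtype.ext
    simpa using hpow
  have h1 : p ∣ Fintype.card F - 1 := by rw [← ht]; exact orderOf_dvd_of_pow_eq_one htpow
  obtain ⟨f, -, hqf⟩ := FiniteField.card F p
  have h2 : p ∣ Fintype.card F := by rw [hqf]; exact dvd_pow_self p f.ne_zero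
  have h3 : 1 ≤ Fintype.card F := Fintype.card_pos
  have h4 : p ∣ 1 := by
    have := Nat.dvd_sub h2 h1
    have e : Fintype.card F - (Fintype.card F - 1) = 1 := by omega
    rwa [e] at this
  exact hp.one_lt.ne' (Nat.dvd_one.mp h4)

end Cfsg.Agent.Helper95.UBNOwn
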