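import Mathlib
import Cfsg.Agent.Helper95.UBNDefs
import Cfsg.Agent.Helper79.Quotient

/-!
# Piece TRANSFER of CALL S2546: the Steinberg statement transfers along a group isomorphism
-/

set_option autoImplicit false

namespace Cfsg.Agent.Helper95.UBNOwn

theorem center_map_equiv {G H : Type*} [Group G] [Group H] (e : H ≃* G) :
    (Subgroup.center H).map e.toMonoidHom = Subgroup.center G := by
  ext g
  constructor
  · rintro ⟨z, hz, rfl⟩
    rw [Subgroup.mem_center_iff]
    intro g'
    have h1 := Subgroup.mem_center_iff.mp hz (e.symm g')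
    have h2 := congrArg e h1
    rw [map_mul, map_mul, MulEquiv.apply_symm_apply] at h2
    exact h2
  · intro hg
    refine ⟨e.symm g, ?_, ?_⟩
    · show e.symm g ∈ Subgroup.center H
      rw [Subgroup.mem_center_iff]
      intro h'
      have h1 := Subgroup.mem_center_iff.mp hg (e h')
      apply e.injective
      rw [map_mul, map_mul, MulEquiv.apply_symm_apply]
      exact h1
    · show e (e.symm g) = g
      exact MulEquiv.apply_symm_apply e g

theorem p_TRANSFER {G H : Type*} [Group G] [Group H] [Finite G] (e : G ≃* H) (p : ℕ)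
    [Fact p.Prime]
    (h : ∃ χ : G ⧸ Subgroup.center G → ℂ, Cfsg.IsIrrCharacter (G ⧸ Subgroup.center G) χ ∧
      ∀ Q : Sylow p (G ⧸ Subgroup.center G), χ 1 = Nat.card Q ∧
        ∀ x : G ⧸ Subgroup.center G, x ∈ Q → x ≠ 1 → χ x = 0) :
    ∃ χ : H ⧸ Subgroup.center H → ℂ, Cfsg.IsIrrCharacter (H ⧸ Subgroup.center H) χ ∧
      ∀ Q : Sylow p (H ⧸ Subgroup.center H), χ 1 = Nat.card Q ∧
        ∀ x : H ⧸ Subgroup.center H, x ∈ Q → x ≠ 1 → χ x = 0 := by
  obtain ⟨χ, hχ, hQ⟩ := h
  have : Finite H := Finite.of_equiv G e.toEquiv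
  let e' : H ⧸ Subgroup.center H ≃* G ⧸ Subgroup.center G :=
    QuotientGroup.congr (Subgroup.center H) (Subgroup.center G) e.symm (center_map_equiv e.symm)
  refine ⟨fun x => χ (e' x), (Cfsg.Agent.Helper79.isIrrCharacter_mulEquiv e').mpr hχ, ?_⟩
  intro Q
  let Q' : Sylow p (G ⧸ Subgroup.center G) :=
    Q.comapOfInjective e'.symm.toMonoidHom e'.symm.injective (by
      intro x _
      exact ⟨e' x, MulEquiv.symm_apply_apply e' x⟩)
  have hmem : ∀ y : G ⧸ Subgroup.center G, y ∈ Q' ↔ e'.symm y ∈ Q := by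
    intro y
    exact Iff.rfl
  constructor
  · show χ (e' 1) = _
    rw [map_one, (hQ Q').1, Sylow.card_eq_multiplicity, Sylow.card_eq_multiplicity,
      Nat.card_congr e'.toEquiv]
  · intro x hx hx1
    show χ (e' x) = 0
    apply (hQ Q').2 (e' x)
    · rw [hmem, MulEquiv.symm_apply_apply]; exact hx
    · intro h1
      apply hx1
      apply e'.injective
      rw [h1, map_one]

end Cfsg.Agent.Helper95.UBNOwn
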