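import Mathlib
import Cfsg.Agent.Helper95.UBNDefs
import Cfsg.Agent.Helper95.UBNGen
import Cfsg.Agent.Helper95.UBNISO
import Cfsg.Agent.Helper95.UBNNRM
import Cfsg.Agent.Helper95.UBNTRANSFER
import Cfsg.Agent.Helper10.UBNSTABD
import Cfsg.Agent.Helper11.UBNH1L
import Cfsg.Agent.Helper11.UBNHD1
import Cfsg.Agent.Helper11.UBNINVMONO
import Cfsg.Agent.Helper11.UBNSGINJ
import Cfsg.Agent.Helper11.UBNSGSQ
import Cfsg.Agent.Helper19.UBNCHB
import Cfsg.Agent.Helper20.UBNRK1L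
import Cfsg.Agent.Helper20.UBNRK1S
import Cfsg.Agent.Helper70.UBNH1S
import Cfsg.Agent.Helper70.UBNH1C
import Cfsg.Agent.Helper70.UBNXNE
import Cfsg.Agent.Helper20.UBNSGEX
import Cfsg.Agent.Helper3.UBNFLD
import Cfsg.Agent.Helper30.UBNBTRANS
import Cfsg.Agent.Helper30.UBNRK1C
import Cfsg.Agent.Helper47.UBNBASE
import Cfsg.Agent.Helper47.UBNBIFF
import Cfsg.Agent.Helper47.UBNNCONJX
import Cfsg.Agent.Helper47.UBNSCONJ
import Cfsg.Agent.Helper67.UBNGEN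
import Cfsg.Agent.Helper67.UBNPRES
import Cfsg.Agent.Helper67.UBNWGENU
import Cfsg.Agent.Helper70.UBNNIFF
import Cfsg.Agent.Helper70.UBNPATEX
import Cfsg.Agent.Helper70.UBNPATINV
import Cfsg.Agent.Helper70.UBNPATMUL
import Cfsg.Agent.Helper70.UBNPATRV
import Cfsg.Agent.Helper70.UBNUIFF
import Cfsg.Agent.Helper84.UBNMONO
import Cfsg.Agent.Helper84.UBNSTEP3
import Cfsg.Agent.Helper88.UBNBUT
import Cfsg.Agent.Helper88.UBNUNORM
import Cfsg.Agent.Helper88.UBNUPOW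
import Cfsg.Agent.Helper94.UBNSTEP1
import Cfsg.Agent.Helper94.UBNSTEP2
import Cfsg.Agent.Helper37.SpBN1

/-!
# The BN-pair of the special unitary group (Witt basis) and the Steinberg character of `PSU_n(q)`
-/

set_option autoImplicit false

namespace Cfsg.Agent.Helper95.UBNPair

open Matrix Cfsg.Agent.Helper95.UBN
open Cfsg.Agent.Helper95.UBNOwn (p_ISO p_NRM p_TPOW p_TRANSFER)
open Cfsg.Agent.Helper10.UBN (p_STABD)
open Cfsg.Agent.Helper11.UBN (p_H1L p_HD1 p_INVMONO p_SGINJ p_SGSQ)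
open Cfsg.Agent.Helper19.UBN (p_CHB)
open Cfsg.Agent.Helper20.UBN (p_RK1L p_RK1S p_SGEX)
open Cfsg.Agent.Helper3.UBN (p_FLD)
open Cfsg.Agent.Helper30.UBN (p_BTRANS p_RK1C)
open Cfsg.Agent.Helper47.UBN (p_BASE p_BIFF p_NCONJX p_NCONJY p_SCONJ p_CNE)
open Cfsg.Agent.Helper67.UBN (p_GEN p_PRES p_WGENU)
open Cfsg.Agent.Helper70.UBN (p_NIFF p_PATEX p_PATINV p_PATMUL p_PATRV p_UIFF p_H1S p_H1C p_XNE)
open Cfsg.Agent.Helper84.UBN (p_MONO p_STEP3)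
open Cfsg.Agent.Helper88.UBN (p_BUT p_UNORM p_UPOW)
open Cfsg.Agent.Helper94.UBN (p_STEP1 p_STEP2)

/-- an involution of a field together with a nonzero trace-zero element and surjectivity of the
trace. -/
structure UData (F : Type*) [Field F] where
  /-- the involution -/
  τ : F →+* F
  hτ : ∀ x, τ (τ x) = x
  /-- a nonzero element with `τ e = -e` -/
  e : F
  he : e ≠ 0
  hτe : τ e = -e
  hTr : ∀ s : F, τ s = s → ∃ u : F, u + τ u = s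

section asm
variable {F : Type*} [Field F] {n : ℕ}

theorem pat_one_one : Pat (1 : Matrix (Fin n) (Fin n) F) 1 := by
  intro a b hab
  by_contra hne
  exact hab (Matrix.one_apply_ne hne)

theorem isUp_of_pat_one {M : Matrix (Fin n) (Fin n) F} (h : Pat M 1) : IsUp M := by
  intro a b hab
  by_contra hne
  have := h a b hne
  rw [Equiv.Perm.coe_one, id_eq] at this
  rw [this] at hab
  exact lt_irrefl _ hab

theorem isUp_of_xsh {π : Equiv.Perm (Fin n)} {M : Matrix (Fin n) (Fin n) F} (h : XSh π M) :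
    IsUp M := by
  intro a b hab
  by_contra hne
  have := (h.2 a b (ne_of_gt hab) hne).1
  exact lt_irrefl _ (lt_trans hab this)

variable (D : UData F)

theorem mem_B_of_pat_one (g : ↥(UG D.τ n)) (h : Pat g.1.1 1) : g ∈ uB D.τ n :=
  (p_BIFF D.τ g).mpr (isUp_of_pat_one h)

/-- simple reflections. -/
noncomputable def sg (j : Fin (n / 2)) : ↥(UG D.τ n) :=
  ⟨Classical.choose (p_SGEX D.τ D.hτ D.e D.he D.hτe j),
    (Classical.choose_spec (p_SGEX D.τ D.hτ D.e D.he D.hτe j)).1⟩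

theorem pat_sg (j : Fin (n / 2)) : Pat (sg D j).1.1 (sigP j) :=
  (Classical.choose_spec (p_SGEX D.τ D.hτ D.e D.he D.hτe j)).2

theorem pat_mul' (g h : ↥(UG D.τ n)) (π ρ : Equiv.Perm (Fin n)) (hg : Pat g.1.1 π)
    (hh : Pat h.1.1 ρ) : Pat (g * h).1.1 (π * ρ) :=
  p_PATMUL g.1.1 h.1.1 π ρ hg hh

theorem pat_inv' (g : ↥(UG D.τ n)) (π : Equiv.Perm (Fin n)) (hg : Pat g.1.1 π) :
    Pat (g⁻¹).1.1 π⁻¹ :=
  p_PATINV g.1 π hg

theorem sup_eq_top' : uB D.τ n ⊔ uN D.τ n = ⊤ := by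
  rw [eq_top_iff]
  intro g _
  have hBT := fun (k : ℕ) (v : Fin n → F) hiso hsupp (r : Fin n) hr hlast =>
    p_BTRANS D.τ D.hτ D.hTr k v hiso hsupp r hr hlast
  exact p_GEN D.τ
    (fun c hc g hg hfix => p_STEP1 D.τ D.hτ hBT
      (fun c r hcr hrc hmid => p_MONO D.τ D.hτ D.e D.he D.hτe c r hcr hrc hmid) c hc g hg hfix)
    (fun c hc g hg hfix l h1 => p_STEP2 D.τ D.hτ hBT c hc g hg hfix l h1)
    (fun c hc g hg hfix l l' h1 h2 => p_STEP3 D.τ D.hτ c hc g hg hfix l l' h1 h2)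
    (fun k hk g hg hfix => p_BASE D.τ k hk g hg hfix) g

theorem pat_one_of_B_N (t : ↥(UG D.τ n)) (hB : t ∈ uB D.τ n) (hN : t ∈ uN D.τ n) :
    Pat t.1.1 1 := by
  obtain ⟨π, hπ⟩ := (p_NIFF D.τ t).mp hN
  have := p_HD1 t.1 ((p_BIFF D.τ t).mp hB) π hπ
  rw [this] at hπ
  exact hπ

theorem conj_diag_mem (nn : ↥(UG D.τ n)) (hn : nn ∈ uN D.τ n) (t : ↥(UG D.τ n))
    (ht : Pat t.1.1 1) : nn⁻¹ * t * nn ∈ uB D.τ n := by
  obtain ⟨π, hπ⟩ := (p_NIFF D.τ nn).mp hn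
  have h1 : Pat (nn⁻¹ * t * nn).1.1 (π⁻¹ * 1 * π) :=
    pat_mul' D _ _ _ _ (pat_mul' D _ _ _ _ (pat_inv' D nn π hπ) ht) hπ
  rw [mul_one, inv_mul_cancel] at h1
  exact mem_B_of_pat_one D _ h1

theorem conj_mem' (nn : ↥(UG D.τ n)) (hn : nn ∈ uN D.τ n) (t : ↥(UG D.τ n))
    (ht : t ∈ uB D.τ n ⊓ uN D.τ n) : nn * t * nn⁻¹ ∈ uB D.τ n := by
  have h := conj_diag_mem D nn⁻¹ (inv_mem hn) t (pat_one_of_B_N D t ht.1 ht.2)
  rwa [inv_inv] at h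

/-- the set of simple reflections. -/
def uS : Set ↥(UG D.τ n) := Set.range (sg D)

theorem sigP_inv (j : Fin (n / 2)) : (sigP j)⁻¹ = sigP j := by
  rw [inv_eq_iff_mul_eq_one]
  exact p_SGSQ j

theorem xsh_mem_B (x : ↥(UG D.τ n)) {π : Equiv.Perm (Fin n)} (h : XSh π x.1.1) :
    x ∈ uB D.τ n :=
  (p_BIFF D.τ x).mpr (isUp_of_xsh h)

theorem h1_cases (j : Fin (n / 2)) (g : Matrix.SpecialLinearGroup (Fin n) F)
    (hg : g ∈ UG D.τ n) (hup : IsUp g.1) :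
    ∃ x : Matrix.SpecialLinearGroup (Fin n) F, x ∈ UG D.τ n ∧ XSh (sigP j) x.1 ∧
      ∀ a b, a < b → sigP j b < sigP j a → (g * x⁻¹).1 a b = 0 := by
  by_cases hj : j.1 + 1 < n / 2
  · exact p_H1S D.τ D.hτ j hj g hg hup
  · have hj' : j.1 + 1 = n / 2 := by have := j.2; omega
    rcases Nat.even_or_odd n with hn | hn
    · exact p_H1L D.τ D.hτ j hj' hn g hg hup
    · exact p_H1C D.τ D.hτ j hj' hn g hg hup

theorem rk1_cases (j : Fin (n / 2)) (x : Matrix.SpecialLinearGroup (Fin n) F)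
    (hx : x ∈ UG D.τ n) (hsh : XSh (sigP j) x.1) (hx1 : x ≠ 1) :
    ∃ y : Matrix.SpecialLinearGroup (Fin n) F, y ∈ UG D.τ n ∧ YSh (sigP j) y.1 ∧
      ∀ a b, sigP j b < a → (y * x⁻¹).1 a b = 0 := by
  by_cases hj : j.1 + 1 < n / 2
  · exact p_RK1S D.τ D.hτ j hj x hx hsh hx1
  · have hj' : j.1 + 1 = n / 2 := by have := j.2; omega
    rcases Nat.even_or_odd n with hn | hn
    · exact p_RK1L D.τ D.hτ j hj' hn x hx hsh hx1
    · exact p_RK1C D.τ D.hτ j hj' hn x hx hsh hx1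

open Classical in
theorem mul_mem_union' (j : Fin (n / 2)) : ∀ nn ∈ uN D.τ n, ∀ b ∈ uB D.τ n,
    sg D j * b * nn ∈ DoubleCoset.doubleCoset (sg D j * nn) (uB D.τ n : Set ↥(UG D.τ n))
        (uB D.τ n) ∪
      DoubleCoset.doubleCoset nn (uB D.τ n : Set ↥(UG D.τ n)) (uB D.τ n) := by
  apply Cfsg.Agent.Helper37.SpBN.p_ABS (uB D.τ n) (uN D.τ n) (sg D j)
    (fun k : ↥(UG D.τ n) => if XSh (sigP j) k.1.1 then k else 1)
    (fun k : ↥(UG D.τ n) => if YSh (sigP j) k.1.1 then k else 1)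
  · -- h1
    intro b hb
    have hup : IsUp b.1.1 := (p_BIFF D.τ b).mp hb
    obtain ⟨x₀, hx₀, hsh, hz⟩ := h1_cases D j b.1 b.2 hup
    refine ⟨⟨x₀, hx₀⟩, b * (⟨x₀, hx₀⟩ : ↥(UG D.τ n))⁻¹, ?_, ?_, ?_⟩
    · exact mul_mem hb (inv_mem (xsh_mem_B D ⟨x₀, hx₀⟩ hsh))
    · rw [if_pos hsh, inv_mul_cancel_right]
    · have hb' : IsUp (b * (⟨x₀, hx₀⟩ : ↥(UG D.τ n))⁻¹).1.1 :=
        (p_BIFF D.τ _).mp (mul_mem hb (inv_mem (xsh_mem_B D ⟨x₀, hx₀⟩ hsh)))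
      exact (p_BIFF D.τ _).mpr
        (p_SCONJ j (sg D j).1 (pat_sg D j) (b * (⟨x₀, hx₀⟩ : ↥(UG D.τ n))⁻¹).1 hb' hz)
  · -- h2
    intro nn hn
    obtain ⟨π, hπ⟩ := (p_NIFF D.τ nn).mp hn
    have hπrv := p_PATRV D.τ nn.1 nn.2 π hπ
    have hρ : ∀ b, π⁻¹ (Fin.rev b) = Fin.rev (π⁻¹ b) := by
      intro b
      apply π.injective
      rw [hπrv]
      simp
    rcases p_INVMONO j π⁻¹ hρ with hm | hm
    · left
      intro t
      by_cases hsh : XSh (sigP j) t.1.1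
      · rw [if_pos hsh]
        exact (p_BIFF D.τ _).mpr (p_NCONJX π (sigP j) nn.1 hπ t.1 hsh hm)
      · rw [if_neg hsh, mul_one, inv_mul_cancel]; exact one_mem _
    · right
      intro t
      by_cases hsh : YSh (sigP j) t.1.1
      · rw [if_pos hsh]
        exact (p_BIFF D.τ _).mpr (p_NCONJY π (sigP j) nn.1 hπ t.1 hsh hm)
      · rw [if_neg hsh, mul_one, inv_mul_cancel]; exact one_mem _
  · -- h3
    intro t
    by_cases hsh : XSh (sigP j) t.1.1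
    · rw [if_pos hsh]
      by_cases ht1 : t = 1
      · left; exact ht1
      · right
        have ht1' : t.1 ≠ 1 := fun h => ht1 (Subtype.ext h)
        obtain ⟨y₀, hy₀, hysh, hz⟩ := rk1_cases D j t.1 t.2 hsh ht1'
        refine ⟨sg D j * t * (⟨y₀, hy₀⟩ : ↥(UG D.τ n))⁻¹, ?_, ⟨y₀, hy₀⟩, ?_⟩
        · rw [← inv_mem_iff]
          have he : (sg D j * t * (⟨y₀, hy₀⟩ : ↥(UG D.τ n))⁻¹)⁻¹ =
              (⟨y₀, hy₀⟩ : ↥(UG D.τ n)) * t⁻¹ * (sg D j)⁻¹ := by group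
          rw [he]
          apply (p_BIFF D.τ _).mpr
          have hps : Pat ((sg D j)⁻¹).1.1 (sigP j)⁻¹ := pat_inv' D _ _ (pat_sg D j)
          intro a b hab
          show ((y₀ * t.1⁻¹).1 * ((sg D j)⁻¹).1.1) a b = 0
          rw [Matrix.mul_apply]
          apply Finset.sum_eq_zero
          intro k _
          by_cases hk : ((sg D j)⁻¹).1.1 k b = 0
          · rw [hk, mul_zero]
          · have hkb := hps k b hk
            rw [hz a k (by rw [hkb]; simpa using hab), zero_mul]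
        · rw [if_pos hysh, inv_mul_cancel_right]
    · left; rw [if_neg hsh]

theorem conj_ne' (j : Fin (n / 2)) :
    (fun b : ↥(UG D.τ n) => sg D j * b * sg D j) '' (uB D.τ n : Set ↥(UG D.τ n)) ≠
      (uB D.τ n : Set ↥(UG D.τ n)) := by
  intro h
  obtain ⟨x, hx, hsh, hx1⟩ := p_XNE D.τ D.hτ D.e D.he D.hτe j
  have hmem : sg D j * (⟨x, hx⟩ : ↥(UG D.τ n)) * sg D j ∈ (uB D.τ n : Set ↥(UG D.τ n)) := by
    rw [← h]
    exact ⟨⟨x, hx⟩, xsh_mem_B D ⟨x, hx⟩ hsh, rfl⟩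
  exact p_CNE j (sg D j).1 (pat_sg D j) x hsh hx1 ((p_BIFF D.τ _).mp hmem)

theorem closure_sup' :
    Subgroup.closure (uS D) ⊔ (uB D.τ n ⊓ uN D.τ n) = uN D.τ n := by
  apply le_antisymm
  · apply sup_le
    · rw [Subgroup.closure_le]
      rintro s ⟨j, rfl⟩
      exact (p_NIFF D.τ _).mpr ⟨_, pat_sg D j⟩
    · exact inf_le_right
  · intro nn hn
    obtain ⟨π, hπ⟩ := (p_NIFF D.τ nn).mp hn
    have hπrv := p_PATRV D.τ nn.1 nn.2 π hπ
    obtain ⟨g, hg, hgπ⟩ := p_PATEX D.τ (sg D) (pat_sg D) π (p_WGENU π hπrv)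
    have h1 : Pat (nn * g⁻¹).1.1 (π * π⁻¹) := pat_mul' D _ _ _ _ hπ (pat_inv' D g π hgπ)
    rw [mul_inv_cancel] at h1
    have h2 : nn * g⁻¹ ∈ uB D.τ n ⊓ uN D.τ n :=
      ⟨mem_B_of_pat_one D _ h1, (p_NIFF D.τ _).mpr ⟨1, h1⟩⟩
    have h3 : nn = (nn * g⁻¹) * g := by group
    rw [h3]
    exact Subgroup.mul_mem _ (Subgroup.mem_sup_right h2) (Subgroup.mem_sup_left hg)

/-- **the BN-pair of the special unitary group in a Witt basis.** -/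
noncomputable def uBN (n : ℕ) : Cfsg.BNPair ↥(UG D.τ n) where
  B := uB D.τ n
  N := uN D.τ n
  S := uS D
  sup_eq_top := sup_eq_top' D
  conj_mem := conj_mem' D
  subset := by
    rintro s ⟨j, rfl⟩
    exact (p_NIFF D.τ _).mpr ⟨_, pat_sg D j⟩
  sq_mem := by
    rintro s ⟨j, rfl⟩
    have h2 : Pat (sg D j * sg D j).1.1 (sigP j * sigP j) :=
      pat_mul' D _ _ _ _ (pat_sg D j) (pat_sg D j)
    rw [p_SGSQ] at h2
    exact mem_B_of_pat_one D _ h2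
  inj := by
    rintro s ⟨i, rfl⟩ s' ⟨j, rfl⟩ h
    have hp : Pat ((sg D i)⁻¹ * sg D j).1.1 ((sigP i)⁻¹ * sigP j) :=
      pat_mul' D _ _ _ _ (pat_inv' D _ _ (pat_sg D i)) (pat_sg D j)
    have h1 := p_HD1 _ ((p_BIFF D.τ _).mp h) _ hp
    have h2 : sigP i = sigP j := inv_mul_eq_one.mp h1
    rw [p_SGINJ i j h2]
  closure_sup := closure_sup' D
  mul_mem_union := by
    rintro s ⟨j, rfl⟩ nn hn b hb
    exact mul_mem_union' D j nn hn b hb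
  conj_ne := by
    rintro s ⟨j, rfl⟩
    exact conj_ne' D j

/-- enumeration of the simple reflections by `ℕ`. -/
noncomputable def sgσ (n : ℕ) : ℕ → ↥(UG D.τ n) :=
  fun j => if h : j < n / 2 then sg D ⟨j, h⟩ else 1

theorem uS_eq : (uBN D n).S = sgσ D n '' ((Finset.range (n / 2) : Finset ℕ) : Set ℕ) := by
  show uS D = _
  ext s
  constructor
  · rintro ⟨j, rfl⟩
    refine ⟨j.1, by simp, ?_⟩
    unfold sgσ
    rw [dif_pos j.2]
  · rintro ⟨j, hj, rfl⟩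
    have hj' : j < n / 2 := by simpa using hj
    unfold sgσ
    rw [dif_pos hj']
    exact ⟨⟨j, hj'⟩, rfl⟩

/-- the longest element. -/
theorem exists_n0 : ∃ n₀ : ↥(UG D.τ n), n₀ ∈ uN D.τ n ∧ Pat n₀.1.1 Fin.revPerm := by
  have hrv : ∀ b : Fin n, (Fin.revPerm : Equiv.Perm (Fin n)) (Fin.rev b) =
      Fin.rev ((Fin.revPerm : Equiv.Perm (Fin n)) b) := by
    intro b; rfl
  obtain ⟨g, -, hg⟩ := p_PATEX D.τ (sg D) (pat_sg D) Fin.revPerm (p_WGENU _ hrv)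
  exact ⟨g, (p_NIFF D.τ _).mpr ⟨_, hg⟩, hg⟩

/-- **Steinberg statement for the special unitary group in a Witt basis.** -/
theorem steinberg_UG [Fintype F] (p : ℕ) [Fact p.Prime] [CharP F p] (n : ℕ) :
    ∃ χ : ↥(UG D.τ n) ⧸ Subgroup.center ↥(UG D.τ n) → ℂ,
      Cfsg.IsIrrCharacter (↥(UG D.τ n) ⧸ Subgroup.center ↥(UG D.τ n)) χ ∧
      ∀ Q : Sylow p (↥(UG D.τ n) ⧸ Subgroup.center ↥(UG D.τ n)), χ 1 = Nat.card Q ∧
        ∀ x : ↥(UG D.τ n) ⧸ Subgroup.center ↥(UG D.τ n), x ∈ Q → x ≠ 1 → χ x = 0 := by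
  classical
  have : Finite (Matrix.SpecialLinearGroup (Fin n) F) :=
    Finite.of_injective (fun g : Matrix.SpecialLinearGroup (Fin n) F => g.1) Subtype.val_injective
  obtain ⟨n₀, hn₀N, hn₀⟩ := exists_n0 D (n := n)
  refine Cfsg.Agent.Helper95.UBNGen.genSt (uBN D n) (n / 2) (sgσ D n) (uS_eq D) p (uU D.τ n)
    ?_ ?_ ?_ ?_ ?_ n₀ hn₀N ?_
  · -- U ≤ B
    intro u hu
    exact (p_BIFF D.τ u).mpr ((p_UIFF D.τ u).mp hu).1
  · -- U normal in B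
    intro b hb u hu
    have hb' : IsUp b.1.1 := (p_BIFF D.τ b).mp hb
    have hu' := (p_UIFF D.τ u).mp hu
    exact (p_UIFF D.τ _).mpr (p_UNORM b.1 u.1 hb' hu'.1 hu'.2)
  · -- U is a p-group
    intro u
    have hu' := (p_UIFF D.τ u.1).mp u.2
    obtain ⟨k, hk⟩ := p_UPOW p u.1.1 hu'.1 hu'.2
    refine ⟨k, ?_⟩
    apply Subtype.ext
    apply Subtype.ext
    exact hk
  · -- B = U T
    intro b hb
    have hb' : IsUp b.1.1 := (p_BIFF D.τ b).mp hb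
    obtain ⟨u, t, hu, ht, hup, hu1, htp, hbut⟩ := p_BUT D.τ D.hτ b.1 b.2 hb'
    refine ⟨⟨u, hu⟩, (p_UIFF D.τ _).mpr ⟨hup, hu1⟩, ⟨t, ht⟩,
      ⟨mem_B_of_pat_one D ⟨t, ht⟩ htp, (p_NIFF D.τ _).mpr ⟨1, htp⟩⟩, ?_⟩
    exact Subtype.ext hbut
  · -- p ∤ |T|
    exact p_TPOW p D.τ (uB D.τ n ⊓ uN D.τ n) (fun t ht => pat_one_of_B_N D t ht.1 ht.2)
  · -- stabiliser
    intro c hc hd
    have hc' : IsUp c.1.1 := (p_BIFF D.τ c).mp hc
    have hd' : IsUp (n₀⁻¹ * c * n₀).1.1 := (p_BIFF D.τ _).mp hd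
    exact (p_NIFF D.τ c).mpr ⟨1, p_STABD c.1 n₀.1 hn₀ hc' hd'⟩

end asm

section final

/-- **Steinberg character of `PSU_n(q)`.** -/
theorem steinberg_PSU {F : Type*} [Field F] [Fintype F] (p : ℕ) [Fact p.Prime] [CharP F p]
    (n q : ℕ) (hF : Fintype.card F = q ^ 2) :
    ∃ χ : Cfsg.PSU n F q → ℂ, Cfsg.IsIrrCharacter (Cfsg.PSU n F q) χ ∧
      ∀ P : Sylow p (Cfsg.PSU n F q), χ 1 = Nat.card P ∧
        ∀ x : Cfsg.PSU n F q, x ∈ P → x ≠ 1 → χ x = 0 := by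
  classical
  obtain ⟨τ, hq, hτ, ⟨e, he, hτe⟩, hTr⟩ := p_FLD (F := F) p q hF
  obtain ⟨β, β', hβ, hβ', hne⟩ := p_NRM (F := F) q hF
  let D : UData F := ⟨τ, hτ, e, he, hτe, hTr⟩
  obtain ⟨P, hdet, hP⟩ := p_CHB τ hτ β β' (by rw [hq]; exact hβ) (by rw [hq]; exact hβ') hne n
  obtain ⟨iso⟩ := p_ISO τ hτ q hq (fun g => p_PRES τ hτ g) P hdet hP
  have : Finite (Matrix.SpecialLinearGroup (Fin n) F) :=
    Finite.of_injective (fun g : Matrix.SpecialLinearGroup (Fin n) F => g.1) Subtype.val_injective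
  exact p_TRANSFER iso p (steinberg_UG D p n)

end final

end Cfsg.Agent.Helper95.UBNPair
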